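import Cfsg.Agent.Lib.Helper85.RootLine

set_option autoImplicit false

namespace Cfsg.Agent.Lib.Helper85

open Cfsg

variable {G : Type*} [Group G]

namespace Root

variable {S : Set (Subgroup G)}

theorem FAdj_symm {A B : Subgroup G} (h : FAdj S A B) : FAdj S B A :=
  ⟨h.2.1, h.1, RankOnePair_symm h.2.2⟩

theorem reach_symm {A B : Subgroup G} (h : Relation.ReflTransGen (FAdj S) A B) :
    Relation.ReflTransGen (FAdj S) B A := by
  induction h with
  | refl => exact Relation.ReflTransGen.refl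
  | tail _ hadj ih => exact ih.head (FAdj_symm hadj)

theorem FAdj_conj (hS : IsRootSubgroupSet S) {A B : Subgroup G} (h : FAdj S A B) (g : G) :
    FAdj S (conjBy A g) (conjBy B g) :=
  ⟨hS.conj_mem A h.1 g, hS.conj_mem B h.2.1 g, RankOne.conj h.2.2 g⟩

theorem reach_conj (hS : IsRootSubgroupSet S) {A B : Subgroup G}
    (h : Relation.ReflTransGen (FAdj S) A B) (g : G) :
    Relation.ReflTransGen (FAdj S) (conjBy A g) (conjBy B g) := by
  induction h with
  | refl => exact Relation.ReflTransGen.refl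
  | tail _ hadj ih => exact ih.tail (FAdj_conj hS hadj g)

theorem componentOf_eq {A B : Subgroup G} (h : Relation.ReflTransGen (FAdj S) A B) :
    componentOf (FAdj S) S A = componentOf (FAdj S) S B := by
  ext X
  constructor
  · rintro ⟨hX, hr⟩
    exact ⟨hX, (reach_symm h).trans hr⟩
  · rintro ⟨hX, hr⟩
    exact ⟨hX, h.trans hr⟩

theorem exists_adj_of_reach_ne {A B : Subgroup G} (h : Relation.ReflTransGen (FAdj S) A B)
    (hne : B ≠ A) : ∃ C, FAdj S A C := by
  rcases Relation.ReflTransGen.cases_head h with h1 | ⟨C, hC, -⟩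
  · exact absurd h1.symm hne
  · exact ⟨C, hC⟩

/-- the key step: a root element `a * b` with `a ∈ A`, `b ∈ B` commuting subgroups -/
theorem rankOne_forced (hS : IsRootSubgroupSet S) {A B C E : Subgroup G} (hB : B ∈ S)
    (hC : C ∈ S) (hE : E ∈ S) (hAC : IsRankOnePair A C) (hAB : ∀ a ∈ A, ∀ b ∈ B, a * b = b * a)
    (hBC : ¬ IsRankOnePair B C) {a b : G} (ha : a ∈ A) (ha1 : a ≠ 1) (hb : b ∈ B)
    (hab : a * b ∈ E) : IsRankOnePair E C := by
  by_contra hn
  have h1 : conjBy C (a * b) ≤ Subgroup.normalizer (C : Set G) :=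
    conj_le_normalizer hS hE hC hn hab
  obtain ⟨c, hc, -, hAc⟩ := hAC.cond_left a⁻¹ (inv_mem ha) (by simpa using ha1)
  rw [inv_inv] at hAc
  have hbA : conjBy A b = A := by
    apply conjBy_of_centralizes (U := A) _ le_rfl
    rw [Subgroup.mem_centralizer_iff]
    intro x hx
    exact hAB x hx b hb
  have h2 : conjBy C (a * b) = conjBy A (b * c⁻¹ * b⁻¹) := by
    rw [hAB a ha b hb, ← conjBy_conjBy, ← hAc, conjBy_conjBy]
    have e : b * c⁻¹ = (b * c⁻¹ * b⁻¹) * b := by group
    conv_lhs => rw [e, ← conjBy_conjBy, hbA]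
  have hg : b * c⁻¹ * b⁻¹ ∈ Subgroup.normalizer (C : Set G) := by
    apply Subgroup.centralizer_le_normalizer
    rw [Subgroup.mem_centralizer_iff]
    intro y hy
    exact (conj_commutes hS hB hC hBC hb (inv_mem hc) hy).symm
  rw [h2] at h1
  apply RankOne.not_left_le_normalizer hAC
  have h3 := conjBy_mono h1 (b * c⁻¹ * b⁻¹)⁻¹
  rw [conjBy_conjBy, inv_mul_cancel, conjBy_one, conjBy_normalizer,
    conjBy_eq_self_iff.2 (inv_mem hg)] at h3
  exact h3

/-- line partners with rank one partners lie in the same component -/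
theorem reach_of_linePartner (hS : IsRootSubgroupSet S) {A B C D : Subgroup G} (hA : A ∈ S)
    (hC : C ∈ S) (hD : D ∈ S) (hAC : IsRankOnePair A C) (hBD : IsRankOnePair B D)
    (hline : B ∈ linePartners S A) : Relation.ReflTransGen (FAdj S) A B := by
  obtain ⟨⟨hB, hne, hcomm⟩, -, hcover, -⟩ := hline
  have hAB := commutator_eq_bot_iff.1 hcomm
  by_cases h1 : IsRankOnePair B C
  · exact (Relation.ReflTransGen.single ⟨hA, hC, hAC⟩).tail ⟨hC, hB, RankOnePair_symm h1⟩
  by_cases h2 : IsRankOnePair A D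
  · exact (Relation.ReflTransGen.single ⟨hA, hD, h2⟩).tail ⟨hD, hB, RankOnePair_symm hBD⟩
  obtain ⟨a, ha, ha1⟩ := RankOne.exists_ne_one_left hAC
  obtain ⟨b, hb, hb1⟩ := RankOne.exists_ne_one_left hBD
  have hab1 : a * b ≠ 1 := by
    intro h
    have hbA : b ∈ A := by
      have : b = a⁻¹ := (inv_eq_of_mul_eq_one_right h).symm
      rw [this]; exact inv_mem ha
    exact hne (eq_of_mem_of_mem hS hC hB hAC hbA hb hb1).symm
  obtain ⟨E, hE, habE⟩ := hcover (a * b)
    (mul_mem (Subgroup.mem_sup_left ha) (Subgroup.mem_sup_right hb)) hab1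
  have hEC := rankOne_forced hS hB hC hE.1 hAC hAB h1 ha ha1 hb habE
  have hED := rankOne_forced hS hA hD hE.1 hBD (fun b hb a ha => (hAB a ha b hb).symm) h2
    hb hb1 ha (by rw [← hAB a ha b hb]; exact habE)
  exact (((Relation.ReflTransGen.single ⟨hA, hC, hAC⟩).tail
    ⟨hC, hE.1, RankOnePair_symm hEC⟩).tail ⟨hE.1, hD, hED⟩).tail ⟨hD, hB, RankOnePair_symm hBD⟩

theorem exists_conj_of_reach {A B : Subgroup G} (h : Relation.ReflTransGen (FAdj S) A B) :
    ∃ g : G, B = conjBy A g := by
  induction h with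
  | refl => exact ⟨1, (conjBy_one A).symm⟩
  | tail _ hadj ih =>
    obtain ⟨g, rfl⟩ := ih
    obtain ⟨x, -, hx⟩ := RankOne.right_mem_unipotent hadj.2.2
    exact ⟨x * g, by rw [hx, conjBy_conjBy]⟩

/-- members in different components commute, if every member has a partner -/
theorem commute_of_not_reach (hS : IsRootSubgroupSet S)
    (hF : ∀ A ∈ S, ∃ B ∈ S, IsRankOnePair A B) {A B : Subgroup G} (hA : A ∈ S) (hB : B ∈ S)
    (hn : ¬ Relation.ReflTransGen (FAdj S) A B) : ⁅A, B⁆ = ⊥ := by
  rcases hS.pair A hA B hB with h | h | hc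
  · exact h
  · exact absurd (Relation.ReflTransGen.single ⟨hA, hB, h⟩) hn
  · exfalso
    obtain ⟨C, hC, hAC⟩ := hF A hA
    obtain ⟨D, hD, hBD⟩ := hF B hB
    obtain ⟨N', hN', hNN'⟩ := hF _ hc.1
    have h1 := reach_of_linePartner hS hc.1 hN' hC hNN' hAC
      (CommCase.mem_linePartners hS hc hA hC hAC)
    have h2' := CommCase.mem_linePartners hS (CommCase.symm hc) hB hD hBD
    rw [Subgroup.commutator_comm B A] at h2'
    have h2 := reach_of_linePartner hS hc.1 hN' hD hNN' hBD h2'
    exact hn ((reach_symm h1).trans h2)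

theorem connected_of_conjClass (hS : IsRootSubgroupSet S) (hconj : IsConjClassOfSubgroups S)
    (hF : ∀ A ∈ S, ∃ B ∈ S, IsRankOnePair A B) : IsConnectedFamily (FAdj S) S := by
  intro A hA B hB
  have key : ∀ g : G, ∀ X ∈ S, Relation.ReflTransGen (FAdj S) A X →
      Relation.ReflTransGen (FAdj S) A (conjBy X g) := by
    intro g
    have hg : g ∈ ⨆ D : S, (D : Subgroup G) := by
      rw [iSup_subtype'' S (fun D => D), hS.generates]; trivial
    refine Subgroup.iSup_induction (fun D : S => (D : Subgroup G))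
      (C := fun g => ∀ X ∈ S, Relation.ReflTransGen (FAdj S) A X →
        Relation.ReflTransGen (FAdj S) A (conjBy X g)) hg ?_ ?_ ?_
    · intro D d hd X hX hr
      by_cases hD : Relation.ReflTransGen (FAdj S) A (D : Subgroup G)
      · have h1 := reach_conj hS ((reach_symm hD).trans hr) d
        rw [conjBy_of_mem hd] at h1
        exact hD.trans h1
      · have hn : ¬ Relation.ReflTransGen (FAdj S) X (D : Subgroup G) := fun h => hD (hr.trans h)
        have hc := commute_of_not_reach hS hF hX D.2 hn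
        have : conjBy X d = X := by
          apply conjBy_of_centralizes (U := X) _ le_rfl
          rw [Subgroup.mem_centralizer_iff]
          intro x hx
          exact commutator_eq_bot_iff.1 hc x hx d hd
        rw [this]; exact hr
    · intro X _ hr
      rw [conjBy_one]; exact hr
    · intro x y hx hy X hX hr
      rw [← conjBy_conjBy]
      exact hx _ (hS.conj_mem X hX y) (hy X hX hr)
  obtain ⟨g, rfl⟩ := hconj.2 A hA B hB
  exact key g A hA Relation.ReflTransGen.refl

theorem partner_of_conjClass (hS : IsRootSubgroupSet S) (hconj : IsConjClassOfSubgroups S)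
    {A₀ B₀ : Subgroup G} (hA₀ : A₀ ∈ S) (hB₀ : B₀ ∈ S) (h : IsRankOnePair A₀ B₀) :
    ∀ A ∈ S, ∃ B ∈ S, IsRankOnePair A B := by
  intro A hA
  obtain ⟨g, rfl⟩ := hconj.2 A₀ hA₀ A hA
  exact ⟨conjBy B₀ g, hS.conj_mem B₀ hB₀ g, RankOne.conj h g⟩

theorem conjClass_of_connected (hne : S.Nonempty) (hconn : IsConnectedFamily (FAdj S) S) :
    IsConjClassOfSubgroups S :=
  ⟨hne, fun A hA B hB => exists_conj_of_reach (hconn A hA B hB)⟩

end Root

end Cfsg.Agent.Lib.Helper85
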