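import Mathlib
import Cfsg.Prelude.Def_RootSubgroups

set_option autoImplicit false

namespace Cfsg.Agent.Lib.Helper85

open Cfsg

section QuadElem
variable {k : Type*} [Field k] {M : Type*} [AddCommGroup M] [Module k M]

/-- the unit `1 + N` for a square-zero endomorphism `N` -/
def sqUnit (N : M →ₗ[k] M) (h : N * N = 0) : LinearMap.GeneralLinearGroup k M :=
  ⟨1 + N, 1 - N,
    by
      have : (1 + N) * (1 - N) = 1 - N * N := by noncomm_ring
      rw [this, h, sub_zero],
    by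
      have : (1 - N) * (1 + N) = 1 - N * N := by noncomm_ring
      rw [this, h, sub_zero]⟩

theorem sqUnit_coe (N : M →ₗ[k] M) (h : N * N = 0) :
    ((sqUnit N h : LinearMap.GeneralLinearGroup k M) : M →ₗ[k] M) = 1 + N := rfl

theorem class_mul_zero {G : Subgroup (LinearMap.GeneralLinearGroup k M)}
    {σ τ τ' : LinearMap.GeneralLinearGroup k M} (hτ : τ ∈ sameActionClass G σ)
    (hτ' : τ' ∈ sameActionClass G σ) :
    ((τ : M →ₗ[k] M) - 1) * ((τ' : M →ₗ[k] M) - 1) = 0 := by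
  have hq : ((τ : M →ₗ[k] M) - 1) * ((τ : M →ₗ[k] M) - 1) = 0 := hτ.1.1.2.1.1
  have h1 : LinearMap.range ((τ : M →ₗ[k] M) - 1) ≤ LinearMap.ker ((τ : M →ₗ[k] M) - 1) :=
    LinearMap.range_le_ker_iff.mpr hq
  have h2 : LinearMap.range ((τ' : M →ₗ[k] M) - 1) ≤ LinearMap.ker ((τ : M →ₗ[k] M) - 1) := by
    rw [hτ'.2.2, ← hτ.2.2]; exact h1
  exact LinearMap.range_le_ker_iff.mp h2

theorem coe_mul_of_zero {τ τ' : LinearMap.GeneralLinearGroup k M}
    (h : ((τ : M →ₗ[k] M) - 1) * ((τ' : M →ₗ[k] M) - 1) = 0) :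
    ((τ * τ' : LinearMap.GeneralLinearGroup k M) : M →ₗ[k] M) - 1
      = ((τ : M →ₗ[k] M) - 1) + ((τ' : M →ₗ[k] M) - 1) := by
  have : ((τ * τ' : LinearMap.GeneralLinearGroup k M) : M →ₗ[k] M) - 1
      = ((τ : M →ₗ[k] M) - 1) * ((τ' : M →ₗ[k] M) - 1)
        + ((τ : M →ₗ[k] M) - 1) + ((τ' : M →ₗ[k] M) - 1) := by
    rw [Units.val_mul]; noncomm_ring
  rw [this, h, zero_add]

theorem coe_inv_of_sq_zero {τ : LinearMap.GeneralLinearGroup k M}
    (h : ((τ : M →ₗ[k] M) - 1) * ((τ : M →ₗ[k] M) - 1) = 0) :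
    ((τ⁻¹ : LinearMap.GeneralLinearGroup k M) : M →ₗ[k] M) - 1 = - ((τ : M →ₗ[k] M) - 1) := by
  have h1 : τ = sqUnit _ h := by
    apply Units.ext
    rw [sqUnit_coe]; abel
  have h2 : ((τ⁻¹ : LinearMap.GeneralLinearGroup k M) : M →ₗ[k] M)
      = 1 - ((τ : M →ₗ[k] M) - 1) := by
    conv_lhs => rw [h1]
    rfl
  rw [h2]; abel

theorem coe_pow_of_sq_zero {τ : LinearMap.GeneralLinearGroup k M}
    (h : ((τ : M →ₗ[k] M) - 1) * ((τ : M →ₗ[k] M) - 1) = 0) (n : ℕ) :
    ((τ ^ n : LinearMap.GeneralLinearGroup k M) : M →ₗ[k] M)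
      = 1 + (n : k) • ((τ : M →ₗ[k] M) - 1) := by
  induction n with
  | zero => simp
  | succ n ih =>
    rw [pow_succ, Units.val_mul, ih]
    have e : (τ : M →ₗ[k] M) = 1 + ((τ : M →ₗ[k] M) - 1) := by abel
    obtain ⟨N, hN⟩ : ∃ N, N = (τ : M →ₗ[k] M) - 1 := ⟨_, rfl⟩
    rw [← hN] at h e ⊢
    rw [e]
    rw [mul_add, mul_one, add_mul, one_mul, smul_mul_assoc, h, smul_zero, add_zero]
    push_cast
    rw [add_smul, one_smul]; abel

theorem class_mul_mem [FiniteDimensional k M] {G : Subgroup (LinearMap.GeneralLinearGroup k M)}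
    {σ τ τ' : LinearMap.GeneralLinearGroup k M} (hτ : τ ∈ sameActionClass G σ)
    (hτ' : τ' ∈ sameActionClass G σ) (hne : τ * τ' ≠ 1) : τ * τ' ∈ sameActionClass G σ := by
  have z11 := class_mul_zero hτ hτ
  have z12 := class_mul_zero hτ hτ'
  have z21 := class_mul_zero hτ' hτ
  have z22 := class_mul_zero hτ' hτ'
  have hN := coe_mul_of_zero z12
  obtain ⟨N, hN1⟩ : ∃ N, N = (τ : M →ₗ[k] M) - 1 := ⟨_, rfl⟩
  obtain ⟨N', hN2⟩ : ∃ N, N = (τ' : M →ₗ[k] M) - 1 := ⟨_, rfl⟩
  have hker1 := hτ.2.1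
  have hran1 := hτ.2.2
  have hker2 := hτ'.2.1
  have hran2 := hτ'.2.2
  have hsc1 := hτ.1.1.2.2
  have hsc2 := hτ'.1.1.2.2
  have hmin := hτ.1.2
  rw [← hN1] at z11 z12 z21 hN hker1 hran1
  rw [← hN2] at z12 z21 z22 hN hker2 hran2
  have hquad : τ * τ' ∈ quadraticElements G := by
    refine ⟨mul_mem hτ.1.1.1 hτ'.1.1.1, ⟨?_, ?_⟩, ?_⟩
    · rw [hN]
      rw [add_mul, mul_add, mul_add, z11, z12, z21, z22]; simp
    · intro h0
      apply hne
      apply Units.ext
      rw [Units.val_one]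
      exact sub_eq_zero.mp h0
    · rintro υ ⟨c, hc⟩
      rw [hN] at hc
      have s1 : (c • N) * (c • N) = 0 := by
        rw [smul_mul_assoc, mul_smul_comm, z11, smul_zero, smul_zero]
      have s2 : (c • N') * (c • N') = 0 := by
        rw [smul_mul_assoc, mul_smul_comm, z22, smul_zero, smul_zero]
      have m1 : sqUnit _ s1 ∈ G := hsc1 ⟨c, by rw [sqUnit_coe, hN1]⟩
      have m2 : sqUnit _ s2 ∈ G := hsc2 ⟨c, by rw [sqUnit_coe, hN2]⟩
      have : υ = sqUnit _ s1 * sqUnit _ s2 := by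
        apply Units.ext
        rw [hc, Units.val_mul, sqUnit_coe, sqUnit_coe, add_mul, one_mul, mul_add, mul_one,
          smul_mul_assoc, mul_smul_comm, z12, smul_zero, smul_zero, smul_add]
        abel
      rw [this]
      exact mul_mem m1 m2
  have hle : LinearMap.range (((τ * τ' : LinearMap.GeneralLinearGroup k M) : M →ₗ[k] M) - 1)
      ≤ LinearMap.range N := by
    rw [hN]
    rintro _ ⟨m, rfl⟩
    rw [LinearMap.add_apply]
    refine add_mem ⟨m, rfl⟩ ?_
    rw [hran1, ← hran2]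
    exact ⟨m, rfl⟩
  have hrk : Module.finrank k (LinearMap.range N) ≤ Module.finrank k
      (LinearMap.range (((τ * τ' : LinearMap.GeneralLinearGroup k M) : M →ₗ[k] M) - 1)) := by
    have := hmin _ hquad
    unfold commutatorRank at this
    rwa [← hN1] at this
  have hraneq : LinearMap.range (((τ * τ' : LinearMap.GeneralLinearGroup k M) : M →ₗ[k] M) - 1)
      = LinearMap.range N :=
    Submodule.eq_of_le_of_finrank_le hle hrk
  have hkle : LinearMap.ker N ≤
      LinearMap.ker (((τ * τ' : LinearMap.GeneralLinearGroup k M) : M →ₗ[k] M) - 1) := by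
    rw [hN]
    intro m hm
    have hm' : m ∈ LinearMap.ker N' := by rw [hker2, ← hker1]; exact hm
    rw [LinearMap.mem_ker] at hm hm' ⊢
    rw [LinearMap.add_apply, hm, hm', add_zero]
  have hkereq : LinearMap.ker N =
      LinearMap.ker (((τ * τ' : LinearMap.GeneralLinearGroup k M) : M →ₗ[k] M) - 1) := by
    apply Submodule.eq_of_le_of_finrank_le hkle
    have r1 := LinearMap.finrank_range_add_finrank_ker N
    have r2 := LinearMap.finrank_range_add_finrank_ker
      (((τ * τ' : LinearMap.GeneralLinearGroup k M) : M →ₗ[k] M) - 1)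
    rw [hraneq] at r2
    omega
  refine ⟨⟨hquad, fun ρ hρ => ?_⟩, ?_, ?_⟩
  · have := hmin ρ hρ
    unfold commutatorRank at this ⊢
    rw [hraneq]
    rwa [← hN1] at this
  · rw [← hkereq, hker1]
  · rw [hraneq, hran1]

theorem class_inv_mem {G : Subgroup (LinearMap.GeneralLinearGroup k M)}
    {σ τ : LinearMap.GeneralLinearGroup k M} (hτ : τ ∈ sameActionClass G σ) :
    τ⁻¹ ∈ sameActionClass G σ := by
  have z11 := class_mul_zero hτ hτ
  have hN := coe_inv_of_sq_zero z11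
  have hr : LinearMap.range (((τ⁻¹ : LinearMap.GeneralLinearGroup k M) : M →ₗ[k] M) - 1)
      = LinearMap.range ((τ : M →ₗ[k] M) - 1) := by
    rw [hN, LinearMap.range_neg]
  have hk : LinearMap.ker (((τ⁻¹ : LinearMap.GeneralLinearGroup k M) : M →ₗ[k] M) - 1)
      = LinearMap.ker ((τ : M →ₗ[k] M) - 1) := by
    rw [hN, LinearMap.ker_neg]
  refine ⟨⟨⟨inv_mem hτ.1.1.1, ⟨?_, ?_⟩, ?_⟩, fun ρ hρ => ?_⟩, ?_, ?_⟩
  · rw [hN, neg_mul_neg, z11]
  · rw [hN]
    exact neg_ne_zero.mpr hτ.1.1.2.1.2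
  · rintro υ ⟨c, hc⟩
    apply hτ.1.1.2.2
    refine ⟨-c, ?_⟩
    rw [hc, hN, smul_neg, neg_smul]
  · have := hτ.1.2 ρ hρ
    unfold commutatorRank at this ⊢
    rwa [hr]
  · rw [hk, hτ.2.1]
  · rw [hr, hτ.2.2]

theorem sameActionSubgroup_coe [FiniteDimensional k M]
    (G : Subgroup (LinearMap.GeneralLinearGroup k M)) (σ : LinearMap.GeneralLinearGroup k M) :
    (sameActionSubgroup G σ : Set (LinearMap.GeneralLinearGroup k M))
      = sameActionClass G σ ∪ {1} := by
  apply Set.Subset.antisymm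
  · intro x hx
    induction hx using Subgroup.closure_induction with
    | mem x hx => exact Or.inl hx
    | one => exact Or.inr rfl
    | mul x y _ _ hx hy =>
      rcases hx with hx | hx
      · rcases hy with hy | hy
        · by_cases h1 : x * y = 1
          · exact Or.inr h1
          · exact Or.inl (class_mul_mem hx hy h1)
        · rw [Set.mem_singleton_iff] at hy
          rw [hy, mul_one]; exact Or.inl hx
      · rw [Set.mem_singleton_iff] at hx
        rw [hx, one_mul]; exact hy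
    | inv x _ hx =>
      rcases hx with hx | hx
      · exact Or.inl (class_inv_mem hx)
      · rw [Set.mem_singleton_iff] at hx
        rw [hx, inv_one]; exact Or.inr rfl
  · rintro x (hx | hx)
    · exact Subgroup.subset_closure hx
    · rw [Set.mem_singleton_iff] at hx
      rw [hx]; exact one_mem _

theorem class_comm {G : Subgroup (LinearMap.GeneralLinearGroup k M)}
    {σ τ τ' : LinearMap.GeneralLinearGroup k M} (hτ : τ ∈ sameActionClass G σ)
    (hτ' : τ' ∈ sameActionClass G σ) : τ * τ' = τ' * τ := by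
  apply Units.ext
  have h1 := coe_mul_of_zero (class_mul_zero hτ hτ')
  have h2 := coe_mul_of_zero (class_mul_zero hτ' hτ)
  have h3 : ((τ * τ' : LinearMap.GeneralLinearGroup k M) : M →ₗ[k] M) - 1
      = ((τ' * τ : LinearMap.GeneralLinearGroup k M) : M →ₗ[k] M) - 1 := by
    rw [h1, h2, add_comm]
  exact sub_left_injective h3

end QuadElem

end Cfsg.Agent.Lib.Helper85
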