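import Cfsg.Agent.Lib.Helper85.RankOneConj

set_option autoImplicit false

namespace Cfsg.Agent.Lib.Helper85

open Cfsg

namespace Quadratic

variable {X : Type*} [Group X] {R : Type*} [Ring R] (ρ : X →* R)

/-- `ρ x - 1` -/
def dl (x : X) : R := ρ x - 1

theorem rho_eq (x : X) : ρ x = 1 + dl ρ x := by unfold dl; abel

theorem rho_mul_inv (x : X) : ρ x * ρ x⁻¹ = 1 := by rw [← map_mul, mul_inv_cancel, map_one]

theorem rho_inv_mul (x : X) : ρ x⁻¹ * ρ x = 1 := by rw [← map_mul, inv_mul_cancel, map_one]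

theorem dl_one : dl ρ 1 = 0 := by unfold dl; rw [map_one, sub_self]

theorem dl_mul (x y : X) : dl ρ (x * y) = dl ρ x * ρ y + dl ρ y := by
  unfold dl; rw [map_mul]; noncomm_ring

theorem dl_mul' (x y : X) : dl ρ (x * y) = ρ x * dl ρ y + dl ρ x := by
  unfold dl; rw [map_mul]; noncomm_ring

theorem dl_inv (x : X) : dl ρ x⁻¹ = -(ρ x⁻¹ * dl ρ x) := by
  unfold dl; rw [mul_sub, rho_inv_mul]; noncomm_ring

theorem dl_inv' (x : X) : dl ρ x⁻¹ = -(dl ρ x * ρ x⁻¹) := by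
  unfold dl; rw [sub_mul, rho_mul_inv]; noncomm_ring

theorem dl_conj (g x : X) : dl ρ (g * x * g⁻¹) = ρ g * dl ρ x * ρ g⁻¹ := by
  unfold dl
  rw [map_mul, map_mul, mul_sub, sub_mul, mul_one, rho_mul_inv]

variable {ρ} {A B : Subgroup X}

theorem left_ann {γ : R} (hA : ∀ a ∈ A, dl ρ a * γ = 0) (hB : ∀ b ∈ B, dl ρ b * γ = 0) :
    ∀ y ∈ A ⊔ B, dl ρ y * γ = 0 := by
  intro y hy
  rw [Subgroup.sup_eq_closure] at hy
  induction hy using Subgroup.closure_induction with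
  | mem x hx =>
    rcases hx with hx | hx
    · exact hA x hx
    · exact hB x hx
  | one => rw [dl_one, zero_mul]
  | mul x y _ _ hx hy => rw [dl_mul', add_mul, mul_assoc, hy, hx, mul_zero, add_zero]
  | inv x _ hx => rw [dl_inv, neg_mul, mul_assoc, hx, mul_zero, neg_zero]

theorem right_ann {γ : R} (hA : ∀ a ∈ A, γ * dl ρ a = 0) (hB : ∀ b ∈ B, γ * dl ρ b = 0) :
    ∀ y ∈ A ⊔ B, γ * dl ρ y = 0 := by
  intro y hy
  rw [Subgroup.sup_eq_closure] at hy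
  induction hy using Subgroup.closure_induction with
  | mem x hx =>
    rcases hx with hx | hx
    · exact hA x hx
    · exact hB x hx
  | one => rw [dl_one, mul_zero]
  | mul x y _ _ hx hy => rw [dl_mul, mul_add, ← mul_assoc, hx, hy, zero_mul, add_zero]
  | inv x _ hx => rw [dl_inv', mul_neg, ← mul_assoc, hx, zero_mul, neg_zero]

variable (ρ) in
/-- the elements acting trivially on `[N, X]` and on `N / C_N(X)` -/
def annSubgroup : Subgroup X where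
  carrier := {x | (∀ y, dl ρ y * dl ρ x = 0) ∧ (∀ y, dl ρ x * dl ρ y = 0)}
  one_mem' := ⟨fun y => by rw [dl_one, mul_zero], fun y => by rw [dl_one, zero_mul]⟩
  mul_mem' := by
    rintro x x' ⟨h1, h2⟩ ⟨h1', h2'⟩
    refine ⟨fun y => ?_, fun y => ?_⟩
    · rw [dl_mul, mul_add, ← mul_assoc, h1, h1', zero_mul, add_zero]
    · rw [dl_mul', add_mul, mul_assoc, h2', h2, mul_zero, add_zero]
  inv_mem' := by
    rintro x ⟨h1, h2⟩
    refine ⟨fun y => ?_, fun y => ?_⟩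
    · rw [dl_inv', mul_neg, ← mul_assoc, h1, zero_mul, neg_zero]
    · rw [dl_inv, neg_mul, mul_assoc, h2, mul_zero, neg_zero]

theorem annSubgroup_normal : (annSubgroup ρ).Normal := by
  refine ⟨fun x hx g => ?_⟩
  obtain ⟨h1, h2⟩ := hx
  refine ⟨fun y => ?_, fun y => ?_⟩
  · have e : dl ρ y = ρ g * dl ρ (g⁻¹ * y * g⁻¹⁻¹) * ρ g⁻¹ := by
      rw [dl_conj, inv_inv]
      calc dl ρ y = (ρ g * ρ g⁻¹) * dl ρ y * (ρ g * ρ g⁻¹) := by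
            rw [rho_mul_inv, one_mul, mul_one]
        _ = _ := by noncomm_ring
    rw [dl_conj, e]
    calc ρ g * dl ρ (g⁻¹ * y * g⁻¹⁻¹) * ρ g⁻¹ * (ρ g * dl ρ x * ρ g⁻¹)
        = ρ g * dl ρ (g⁻¹ * y * g⁻¹⁻¹) * (ρ g⁻¹ * ρ g) * dl ρ x * ρ g⁻¹ := by noncomm_ring
      _ = ρ g * (dl ρ (g⁻¹ * y * g⁻¹⁻¹) * dl ρ x) * ρ g⁻¹ := by
          rw [rho_inv_mul]; noncomm_ring
      _ = 0 := by rw [h1]; simp
  · have e : dl ρ y = ρ g * dl ρ (g⁻¹ * y * g⁻¹⁻¹) * ρ g⁻¹ := by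
      rw [dl_conj, inv_inv]
      calc dl ρ y = (ρ g * ρ g⁻¹) * dl ρ y * (ρ g * ρ g⁻¹) := by
            rw [rho_mul_inv, one_mul, mul_one]
        _ = _ := by noncomm_ring
    rw [dl_conj, e]
    calc ρ g * dl ρ x * ρ g⁻¹ * (ρ g * dl ρ (g⁻¹ * y * g⁻¹⁻¹) * ρ g⁻¹)
        = ρ g * dl ρ x * (ρ g⁻¹ * ρ g) * dl ρ (g⁻¹ * y * g⁻¹⁻¹) * ρ g⁻¹ := by noncomm_ring
      _ = ρ g * (dl ρ x * dl ρ (g⁻¹ * y * g⁻¹⁻¹)) * ρ g⁻¹ := by
          rw [rho_inv_mul]; noncomm_ring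
      _ = 0 := by rw [h2]; simp

/-- conjugates of a quadratically acting subgroup act quadratically -/
theorem quad_conj (hq : ∀ a ∈ A, ∀ a' ∈ A, dl ρ a' * dl ρ a = 0) (g : X) :
    ∀ c ∈ conjBy A g, ∀ c' ∈ conjBy A g, dl ρ c' * dl ρ c = 0 := by
  intro c hc c' hc'
  rw [mem_conjBy] at hc hc'
  have e : ∀ z : X, dl ρ z = ρ g * dl ρ (g⁻¹ * z * g) * ρ g⁻¹ := by
    intro z
    have : z = g * (g⁻¹ * z * g) * g⁻¹ := by group
    conv_lhs => rw [this, dl_conj]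
  rw [e c, e c']
  calc ρ g * dl ρ (g⁻¹ * c' * g) * ρ g⁻¹ * (ρ g * dl ρ (g⁻¹ * c * g) * ρ g⁻¹)
      = ρ g * dl ρ (g⁻¹ * c' * g) * (ρ g⁻¹ * ρ g) * dl ρ (g⁻¹ * c * g) * ρ g⁻¹ := by noncomm_ring
    _ = ρ g * (dl ρ (g⁻¹ * c' * g) * dl ρ (g⁻¹ * c * g)) * ρ g⁻¹ := by
        rw [rho_inv_mul]; noncomm_ring
    _ = 0 := by rw [hq _ hc _ hc']; simp

theorem ring_rel {α β α₁ β₁ : R} (h1 : α₁ * α = 0) (h2 : β * β₁ = 0)
    (h : α₁ * (1 + β) * (1 - α) * β₁ = 0) : α₁ * β₁ = α₁ * β * α * β₁ := by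
  have e : α₁ * (1 + β) * (1 - α) * β₁
      = α₁ * β₁ - (α₁ * α) * β₁ + α₁ * (β * β₁) - α₁ * β * α * β₁ := by noncomm_ring
  rw [e, h1, h2] at h
  simp only [zero_mul, mul_zero, sub_zero, add_zero] at h
  exact sub_eq_zero.1 h

theorem rho_inv_of_sq {x : X} (hsq : dl ρ x * dl ρ x = 0) : ρ x⁻¹ = 1 - dl ρ x := by
  have e : ρ x * (1 - dl ρ x) = 1 := by
    have : ρ x * (1 - dl ρ x) = 1 - dl ρ x * dl ρ x := by unfold dl; noncomm_ring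
    rw [this, hsq, sub_zero]
  calc ρ x⁻¹ = ρ x⁻¹ * (ρ x * (1 - dl ρ x)) := by rw [e, mul_one]
    _ = (ρ x⁻¹ * ρ x) * (1 - dl ρ x) := by rw [mul_assoc]
    _ = 1 - dl ρ x := by rw [rho_inv_mul, one_mul]

theorem cancel_units {g k : X} {u : R} (h : ρ g * u * ρ k = 0) : u = 0 := by
  calc u = (ρ g⁻¹ * ρ g) * u * (ρ k * ρ k⁻¹) := by rw [rho_inv_mul, rho_mul_inv, one_mul, mul_one]
    _ = ρ g⁻¹ * (ρ g * u * ρ k) * ρ k⁻¹ := by noncomm_ring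
    _ = 0 := by rw [h]; simp

theorem all_quadratic_of_conj (h : IsRankOneGroup X A B)
    (hq : ∀ a ∈ A, ∀ a' ∈ A, dl ρ a' * dl ρ a = 0) {m : X} (hm : m ∈ annSubgroup ρ)
    (hB : B = conjBy A m) : ∀ x y : X, dl ρ y * dl ρ x = 0 := by
  have hBA : ∀ b ∈ B, ∃ a ∈ A, dl ρ b = dl ρ a := by
    intro b hb
    rw [hB, mem_conjBy] at hb
    refine ⟨_, hb, ?_⟩
    have e : b = m * (m⁻¹ * b * m) * m⁻¹ := by group
    conv_lhs => rw [e, dl_conj, rho_eq ρ m, rho_eq ρ m⁻¹]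
    have h1 := hm.2 (m⁻¹ * b * m)
    have h2 := (inv_mem hm).1 (m⁻¹ * b * m)
    calc (1 + dl ρ m) * dl ρ (m⁻¹ * b * m) * (1 + dl ρ m⁻¹)
        = dl ρ (m⁻¹ * b * m) + dl ρ m * dl ρ (m⁻¹ * b * m)
          + dl ρ (m⁻¹ * b * m) * dl ρ m⁻¹
          + dl ρ m * (dl ρ (m⁻¹ * b * m) * dl ρ m⁻¹) := by noncomm_ring
      _ = _ := by rw [h1, h2]; simp
  have k1 : ∀ a ∈ A, ∀ x : X, dl ρ a * dl ρ x = 0 := by
    intro a ha x
    refine right_ann (A := A) (B := B) (fun a' ha' => hq a' ha' a ha) ?_ x (by rw [h.1]; trivial)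
    intro b hb
    obtain ⟨a', ha', he⟩ := hBA b hb
    rw [he]; exact hq a' ha' a ha
  intro x y
  refine left_ann (A := A) (B := B) (fun a ha => k1 a ha x) ?_ y (by rw [h.1]; trivial)
  intro b hb
  obtain ⟨a', ha', he⟩ := hBA b hb
  rw [he]; exact k1 a' ha' x

theorem special_of_quadratic (h : IsRankOneGroup X A B)
    (hq : ∀ a ∈ A, ∀ a' ∈ A, dl ρ a' * dl ρ a = 0) (hX : ∃ x y : X, dl ρ y * dl ρ x ≠ 0) :
    IsSpecialRankOnePair A B := by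
  refine ⟨h.2, ?_⟩
  intro a ha ha1 b hb hb1 hab
  obtain ⟨g, -, hBg⟩ := RankOne.right_mem_unipotent h.2
  have hqB : ∀ b ∈ B, ∀ b' ∈ B, dl ρ b' * dl ρ b = 0 := by
    rw [hBg]; exact quad_conj hq g
  have hqC := quad_conj (ρ := ρ) hq b⁻¹
  have hainv : ρ a⁻¹ = 1 - dl ρ a := rho_inv_of_sq (hq a ha a ha)
  have hbinv : ρ b⁻¹ = 1 - dl ρ b := rho_inv_of_sq (hqB b hb b hb)
  have memC1 : ∀ a1 ∈ A, b⁻¹ * a1 * b⁻¹⁻¹ ∈ conjBy A b⁻¹ := fun a1 h1 => conj_mem_conjBy h1 _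
  have memC2 : ∀ b1 ∈ B, a⁻¹ * b1 * a⁻¹⁻¹ ∈ conjBy A b⁻¹ := fun b1 h1 => by
    rw [hab]; exact conj_mem_conjBy h1 _
  have rel1 : ∀ a1 ∈ A, ∀ b1 ∈ B,
      dl ρ a1 * dl ρ b1 = dl ρ a1 * dl ρ b * dl ρ a * dl ρ b1 := by
    intro a1 ha1' b1 hb1'
    have h0 := hqC _ (memC2 b1 hb1') _ (memC1 a1 ha1')
    rw [dl_conj, dl_conj, inv_inv, inv_inv] at h0
    have h1 : ρ b⁻¹ * (dl ρ a1 * ρ b * ρ a⁻¹ * dl ρ b1) * ρ a = 0 := by
      rw [← h0]; noncomm_ring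
    have h2 := cancel_units h1
    rw [rho_eq ρ b, hainv] at h2
    exact ring_rel (hq a ha a1 ha1') (hqB b1 hb1' b hb) h2
  have rel2 : ∀ a1 ∈ A, ∀ b1 ∈ B,
      dl ρ b1 * dl ρ a1 = dl ρ b1 * dl ρ a * dl ρ b * dl ρ a1 := by
    intro a1 ha1' b1 hb1'
    have h0 := hqC _ (memC1 a1 ha1') _ (memC2 b1 hb1')
    rw [dl_conj, dl_conj, inv_inv, inv_inv] at h0
    have h1 : ρ a⁻¹ * (dl ρ b1 * ρ a * ρ b⁻¹ * dl ρ a1) * ρ b = 0 := by
      rw [← h0]; noncomm_ring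
    have h2 := cancel_units h1
    rw [rho_eq ρ a, hbinv] at h2
    exact ring_rel (hqB b hb b1 hb1') (hq a1 ha1' a ha) h2
  set α := dl ρ a with hα
  set β := dl ρ b with hβ
  set γ := α + β - α * β * α - β * α * β with hγ
  have g1 : ∀ b1 ∈ B, γ * dl ρ b1 = 0 := by
    intro b1 hb1'
    have e : γ * dl ρ b1 = α * dl ρ b1 + β * dl ρ b1 - α * β * α * dl ρ b1
        - β * α * (β * dl ρ b1) := by rw [hγ]; noncomm_ring
    rw [e, hqB b1 hb1' b hb, ← rel1 a ha b1 hb1', ← hα]; simp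
  have g2 : ∀ a1 ∈ A, γ * dl ρ a1 = 0 := by
    intro a1 ha1'
    have e : γ * dl ρ a1 = α * dl ρ a1 + β * dl ρ a1 - α * β * (α * dl ρ a1)
        - β * α * β * dl ρ a1 := by rw [hγ]; noncomm_ring
    rw [e, hq a1 ha1' a ha, ← rel2 a1 ha1' b hb, ← hβ]; simp
  have g3 : ∀ a1 ∈ A, dl ρ a1 * γ = 0 := by
    intro a1 ha1'
    have e : dl ρ a1 * γ = dl ρ a1 * α + dl ρ a1 * β - (dl ρ a1 * α) * β * α
        - dl ρ a1 * β * α * β := by rw [hγ]; noncomm_ring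
    rw [e, hq a ha a1 ha1', ← rel1 a1 ha1' b hb, ← hβ]; simp
  have g4 : ∀ b1 ∈ B, dl ρ b1 * γ = 0 := by
    intro b1 hb1'
    have e : dl ρ b1 * γ = dl ρ b1 * α + dl ρ b1 * β - dl ρ b1 * α * β * α
        - (dl ρ b1 * β) * α * β := by rw [hγ]; noncomm_ring
    rw [e, hqB b hb b1 hb1', ← rel2 a ha b1 hb1', ← hα]; simp
  have G1 : ∀ y : X, γ * dl ρ y = 0 := fun y =>
    right_ann (A := A) (B := B) g2 g1 y (by rw [h.1]; trivial)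
  have G2 : ∀ y : X, dl ρ y * γ = 0 := fun y =>
    left_ann (A := A) (B := B) g3 g4 y (by rw [h.1]; trivial)
  -- the element c = d1 * d2⁻¹
  have hdc : dl ρ ((b⁻¹ * a * b) * (a⁻¹ * b⁻¹ * a)⁻¹) = γ * ρ (a⁻¹ * b⁻¹ * a)⁻¹ := by
    have e1 : ρ (b⁻¹ * a * b) - ρ (a⁻¹ * b⁻¹ * a) = γ := by
      rw [map_mul, map_mul, map_mul, map_mul, hainv, hbinv, rho_eq ρ a, rho_eq ρ b, hγ, ← hα, ← hβ]
      have hαα : α * α = 0 := hq a ha a ha
      have hββ : β * β = 0 := hqB b hb b hb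
      have e0 : (1 - β) * (1 + α) * (1 + β) - (1 - α) * (1 - β) * (1 + α)
          = α + β - α * β * α - β * α * β - β * β + α * α := by noncomm_ring
      rw [e0, hαα, hββ]; simp
    unfold dl
    rw [map_mul, ← e1, sub_mul, rho_mul_inv]
  have hcM : (b⁻¹ * a * b) * (a⁻¹ * b⁻¹ * a)⁻¹ ∈ annSubgroup ρ := by
    refine ⟨fun y => ?_, fun y => ?_⟩
    · rw [hdc, ← mul_assoc, G2, zero_mul]
    · rw [hdc, rho_eq ρ (a⁻¹ * b⁻¹ * a)⁻¹, mul_add, mul_one, G1, add_zero, G1]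
  rcases RankOneGroup.normal_dichotomy h (annSubgroup ρ) annSubgroup_normal with hd | hd
  · exfalso
    obtain ⟨m, hm, hBm⟩ := hd
    obtain ⟨x, y, hxy⟩ := hX
    exact hxy (all_quadratic_of_conj h hq hm hBm x y)
  · have hcen := hd hcM
    have hcC : (b⁻¹ * a * b) * (a⁻¹ * b⁻¹ * a)⁻¹ ∈ conjBy A b⁻¹ := by
      have m1 := memC1 a ha
      have m2 := memC2 b⁻¹ (inv_mem hb)
      rw [inv_inv] at m1 m2
      exact mul_mem m1 (inv_mem m2)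
    rw [mem_conjBy] at hcC
    have hcomm := Subgroup.mem_center_iff.1 hcen b⁻¹
    have e : b⁻¹⁻¹ * ((b⁻¹ * a * b) * (a⁻¹ * b⁻¹ * a)⁻¹) * b⁻¹
        = (b⁻¹ * a * b) * (a⁻¹ * b⁻¹ * a)⁻¹ := by
      rw [mul_assoc, ← hcomm]; group
    rw [e] at hcC
    have hone := RankOne.eq_one_of_normalizes h.2 hcC
      (Subgroup.centralizer_le_normalizer _ (Subgroup.center_le_centralizer _ hcen))
    exact mul_inv_eq_one.1 hone

end Quadratic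

end Cfsg.Agent.Lib.Helper85
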