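import Cfsg.Agent.Lib.Helper85.Special
import Cfsg.Prelude.Def_Transfer

set_option autoImplicit false

namespace Cfsg.Agent.Lib.Helper85

open Cfsg

variable {G : Type*} [Group G]

namespace Special

variable {A B : Subgroup G}

theorem exists_root (hs : IsSpecialRankOnePair A B) (hab : HasAbelianUnipotents A B) {x : G}
    (hx : x ∈ A) {n : ℕ} (hn : 0 < n) (hxn : x ^ n ≠ 1) : ∃ w ∈ A, w ^ n = x := by
  have hx1 : x ≠ 1 := by
    rintro rfl
    exact hxn (one_pow n)
  obtain ⟨y, hy⟩ := exists_par_right hs.1 hx hx1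
  have hyn : y ^ n ≠ 1 := fun h => hxn ((pow_eq_one_iff hs hy n).2 h)
  obtain ⟨w, hw⟩ := exists_par_left hs.1 (pow_mem hy.2.2.1 n) hyn
  exact ⟨w, hw.1, root_left hs hab hn hy hw⟩

theorem elementary_or_divisible (hs : IsSpecialRankOnePair A B)
    (hab : HasAbelianUnipotents A B) :
    (∃ p : ℕ, p.Prime ∧ IsElementaryAbelian p A) ∨
    ((∀ a ∈ A, a ≠ 1 → ¬ IsOfFinOrder a) ∧ ∀ a ∈ A, ∀ n : ℕ, 0 < n → ∃ c ∈ A, c ^ n = a) := by
  by_cases htf : ∀ a ∈ A, a ≠ 1 → ¬ IsOfFinOrder a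
  · right
    refine ⟨htf, ?_⟩
    intro a ha n hn
    by_cases ha1 : a = 1
    · exact ⟨1, one_mem _, by rw [ha1, one_pow]⟩
    · apply exists_root hs hab ha hn
      intro h
      exact htf a ha ha1 (isOfFinOrder_iff_pow_eq_one.2 ⟨n, hn, h⟩)
  · left
    push Not at htf
    obtain ⟨a0, ha0, ha01, hfin⟩ := htf
    have hk0 : orderOf a0 ≠ 0 := (orderOf_pos_iff.2 hfin).ne'
    have hk1 : orderOf a0 ≠ 1 := fun h => ha01 (orderOf_eq_one_iff.1 h)
    set p := (orderOf a0).minFac with hp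
    have hpp : p.Prime := Nat.minFac_prime hk1
    set a1 := a0 ^ (orderOf a0 / p) with ha1
    have hord : orderOf a1 = p := orderOf_pow_orderOf_div hk0 (Nat.minFac_dvd _)
    have ha1A : a1 ∈ A := pow_mem ha0 _
    have ha1p : a1 ^ p = 1 := by rw [← hord]; exact pow_orderOf_eq_one a1
    have ha11 : a1 ≠ 1 := by
      intro h
      rw [h, orderOf_one] at hord
      exact hpp.one_lt.ne hord
    refine ⟨p, hpp, hab.1, ?_⟩
    intro x hx
    by_contra hxp
    have hc : Commute a1 x := comm_of_isMulCommutative hab.1 ha1A hx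
    have h1 : (a1 * x) ^ p ≠ 1 := by
      rw [hc.mul_pow, ha1p, one_mul]; exact hxp
    obtain ⟨u, hu, hup⟩ := exists_root hs hab (mul_mem ha1A hx) hpp.pos h1
    obtain ⟨v, hv, hvp⟩ := exists_root hs hab hx hpp.pos hxp
    have hcuv : Commute u v⁻¹ := comm_of_isMulCommutative hab.1 hu (inv_mem hv)
    have htp : (u * v⁻¹) ^ p = a1 := by
      rw [hcuv.mul_pow, hup, inv_pow, hvp]; group
    have ht1 : u * v⁻¹ ≠ 1 := by
      intro h
      rw [h, one_pow] at htp
      exact ha11 htp.symm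
    obtain ⟨s, hs'⟩ := exists_par_right hs.1 (mul_mem hu (inv_mem hv)) ht1
    obtain ⟨c, hc'⟩ := exists_par_right hs.1 ha1A ha11
    have hcp : c ^ p = 1 := (pow_eq_one_iff hs hc' p).1 ha1p
    have := root_right hs hab hpp.pos hs' (by rw [htp]; exact hc')
    exact hs'.2.2.2.1 (this.symm.trans hcp)

end Special

end Cfsg.Agent.Lib.Helper85
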