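import Cfsg.Agent.Lib.Helper85.Quadratic
import Cfsg.Agent.Lib.Helper85.SpecialTorsion

set_option autoImplicit false

namespace Cfsg.Agent.Lib.Helper85

open Cfsg

namespace Quadratic

variable {X : Type*} [Group X] {N : Type*} [AddCommGroup N] [DistribMulAction X N]

theorem dl_apply (x : X) (n : N) :
    dl (DistribMulAction.toAddMonoidEnd X N) x n = x • n - n := rfl

theorem dl_mul_apply (x y : X) (n : N) :
    (dl (DistribMulAction.toAddMonoidEnd X N) y * dl (DistribMulAction.toAddMonoidEnd X N) x) n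
      = y • (x • n - n) - (x • n - n) := by
  rw [AddMonoid.End.coe_mul, Function.comp_apply, dl_apply, dl_apply]

theorem dl_mul_eq_zero_iff (x y : X) :
    dl (DistribMulAction.toAddMonoidEnd X N) y * dl (DistribMulAction.toAddMonoidEnd X N) x = 0
      ↔ ∀ n : N, y • (x • n - n) = x • n - n := by
  constructor
  · intro h n
    have := dl_mul_apply x y n
    rw [h] at this
    exact (sub_eq_zero.1 this.symm)
  · intro h
    ext n
    rw [dl_mul_apply, h n, sub_self]
    rfl

variable {A B : Subgroup X}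

theorem special_of_action (h : IsRankOneGroup X A B)
    (hq : ∀ a ∈ A, ∀ a' ∈ A, ∀ n : N, a' • (a • n - n) = a • n - n)
    (hX : ∃ x y : X, ∃ n : N, y • (x • n - n) ≠ x • n - n) : IsSpecialRankOnePair A B := by
  apply special_of_quadratic (ρ := DistribMulAction.toAddMonoidEnd X N) h
  · intro a ha a' ha'
    exact (dl_mul_eq_zero_iff a a').2 (hq a ha a' ha')
  · obtain ⟨x, y, n, hn⟩ := hX
    refine ⟨x, y, fun h0 => hn ((dl_mul_eq_zero_iff x y).1 h0 n)⟩

theorem comm_of_quadratic (hf : ∀ x : X, (∀ v : N, x • v = v) → x = 1) {x y : X}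
    (h1 : ∀ n : N, y • (x • n - n) = x • n - n) (h2 : ∀ n : N, x • (y • n - n) = y • n - n) :
    x * y = y * x := by
  have key : ∀ n : N, (x * y) • n = (y * x) • n := by
    intro n
    have e1 := h1 n
    have e2 := h2 n
    rw [smul_sub] at e1 e2
    rw [mul_smul, mul_smul]
    have e3 : x • y • n = y • n - n + x • n := by
      rw [← e2]; abel
    have e4 : y • x • n = x • n - n + y • n := by
      rw [← e1]; abel
    rw [e3, e4]; abel
  have h3 : (y * x)⁻¹ * (x * y) = 1 := by
    apply hf
    intro v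
    rw [mul_smul, key v, inv_smul_smul]
  exact (inv_mul_eq_one.1 h3).symm

theorem unipotent_structure (h : IsRankOneGroup X A B)
    (hf : ∀ x : X, (∀ v : N, x • v = v) → x = 1)
    (hq : ∀ a ∈ A, ∀ a' ∈ A, ∀ v : N, a' • (a • v - v) = a • v - v) :
    (∀ a ∈ A, a ≠ 1 → ¬ IsOfFinOrder a) ∨ ∃ p : ℕ, p.Prime ∧ IsElementaryAbelian p A := by
  have hA : IsMulCommutative A := by
    refine ⟨⟨?_⟩⟩
    rintro ⟨a, ha⟩ ⟨a', ha'⟩
    apply Subtype.ext
    exact comm_of_quadratic hf (hq a ha a' ha') (hq a' ha' a ha)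
  have hB : IsMulCommutative B := by
    obtain ⟨g, -, hBg⟩ := RankOne.right_mem_unipotent h.2
    rw [hBg]
    exact isMulCommutative_conjBy hA g
  by_cases hX : ∃ x y : X, ∃ n : N, y • (x • n - n) ≠ x • n - n
  · rcases Special.elementary_or_divisible (special_of_action h hq hX) ⟨hA, hB⟩ with h1 | h1
    · exact Or.inr h1
    · exact Or.inl h1.1
  · exfalso
    push Not at hX
    apply RankOneGroup.center_ne_top h
    rw [eq_top_iff]
    intro x _
    rw [Subgroup.mem_center_iff]
    intro y
    exact comm_of_quadratic hf (hX y x) (hX x y)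

end Quadratic

end Cfsg.Agent.Lib.Helper85
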