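import Cfsg.Agent.Lib.Helper85.QuadraticAction
import Cfsg.Agent.Lib.Helper85.RootMap

set_option autoImplicit false

namespace Cfsg.Agent.Lib.Helper85

open Cfsg

namespace Quadratic

theorem special_of_mulAction {X M : Type*} [Group X] [CommGroup M] [MulDistribMulAction X M]
    {A B : Subgroup X} (h : IsRankOneGroup X A B)
    (hq : ∀ a ∈ A, ∀ a' ∈ A, ∀ n : M, a' • (a • n / n) = a • n / n)
    (hX : ∃ x y : X, ∃ n : M, y • (x • n / n) ≠ x • n / n) : IsSpecialRankOnePair A B := by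
  let _ : DistribMulAction X (Additive M) :=
    { smul := fun x n => Additive.ofMul (x • n.toMul)
      one_smul := fun n => congrArg Additive.ofMul (one_smul X n.toMul)
      mul_smul := fun x y n => congrArg Additive.ofMul (mul_smul x y n.toMul)
      smul_zero := fun x => congrArg Additive.ofMul (smul_one x)
      smul_add := fun x m n => congrArg Additive.ofMul (smul_mul' x m.toMul n.toMul) }
  apply special_of_action (N := Additive M) h
  · intro a ha a' ha' n
    exact congrArg Additive.ofMul (hq a ha a' ha' n.toMul)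
  · obtain ⟨x, y, n, hn⟩ := hX
    refine ⟨x, y, Additive.ofMul n, fun h0 => hn ?_⟩
    exact congrArg Additive.toMul h0

variable {G : Type*} [Group G]

/-- a rank one pair acting quadratically and nontrivially by conjugation on an abelian subgroup
is special -/
theorem special_of_conj_action {A B N : Subgroup G} (h : IsRankOnePair A B)
    (hN : ∀ x ∈ N, ∀ y ∈ N, x * y = y * x) (hnorm : ∀ x ∈ A ⊔ B, ∀ n ∈ N, x * n * x⁻¹ ∈ N)
    (hq : ∀ a ∈ A, ∀ a' ∈ A, ∀ n ∈ N, a' * (a * n * a⁻¹ * n⁻¹) = (a * n * a⁻¹ * n⁻¹) * a')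
    (hX : ∃ x ∈ A ⊔ B, ∃ y ∈ A ⊔ B, ∃ n ∈ N,
      y * (x * n * x⁻¹ * n⁻¹) ≠ (x * n * x⁻¹ * n⁻¹) * y) : IsSpecialRankOnePair A B := by
  let _ : CommGroup ↥N :=
    { (inferInstance : Group ↥N) with
      mul_comm := fun x y => Subtype.ext (hN x x.2 y y.2) }
  let _ : MulDistribMulAction ↥(A ⊔ B) ↥N :=
    { smul := fun x n => ⟨(x : G) * n * (x : G)⁻¹, hnorm x x.2 n n.2⟩
      one_smul := fun n => Subtype.ext (by
        change ((1 : ↥(A ⊔ B)) : G) * n * ((1 : ↥(A ⊔ B)) : G)⁻¹ = n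
        simp)
      mul_smul := fun x y n => Subtype.ext (by
        change ((x * y : ↥(A ⊔ B)) : G) * n * ((x * y : ↥(A ⊔ B)) : G)⁻¹
          = (x : G) * ((y : G) * n * (y : G)⁻¹) * (x : G)⁻¹
        rw [Subgroup.coe_mul]; group)
      smul_mul := fun x m n => Subtype.ext (by
        change (x : G) * ((m * n : ↥N) : G) * (x : G)⁻¹
          = ((x : G) * m * (x : G)⁻¹) * ((x : G) * n * (x : G)⁻¹)
        rw [Subgroup.coe_mul]; group)
      smul_one := fun x => Subtype.ext (by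
        change (x : G) * ((1 : ↥N) : G) * (x : G)⁻¹ = ((1 : ↥N) : G)
        simp) }
  have hsm : ∀ (x : ↥(A ⊔ B)) (n : ↥N), ((x • n : ↥N) : G) = (x : G) * n * (x : G)⁻¹ :=
    fun _ _ => rfl
  apply Special.of_subgroupOf
  apply special_of_mulAction (M := ↥N) (RankOne.isRankOneGroup_subgroupOf h)
  · intro a ha a' ha' n
    apply Subtype.ext
    rw [hsm, Subgroup.coe_div, hsm, div_eq_mul_inv]
    have := hq a (Subgroup.mem_subgroupOf.1 ha) a' (Subgroup.mem_subgroupOf.1 ha') n n.2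
    rw [this]; group
  · obtain ⟨x, hx, y, hy, n, hn, hne⟩ := hX
    refine ⟨⟨x, hx⟩, ⟨y, hy⟩, ⟨n, hn⟩, fun h0 => hne ?_⟩
    have h1 := congrArg Subtype.val h0
    rw [hsm, Subgroup.coe_div, hsm, div_eq_mul_inv] at h1
    change y * (x * n * x⁻¹ * n⁻¹) * y⁻¹ = x * n * x⁻¹ * n⁻¹ at h1
    calc y * (x * n * x⁻¹ * n⁻¹) = (y * (x * n * x⁻¹ * n⁻¹) * y⁻¹) * y := by group
      _ = _ := by rw [h1]

end Quadratic

end Cfsg.Agent.Lib.Helper85
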