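import Cfsg.Agent.Lib.Helper85.RootSwitch

set_option autoImplicit false

namespace Cfsg.Agent.Lib.Helper85

open Cfsg

variable {G : Type*} [Group G]

theorem Cm.sup_right {X Y Z : Subgroup G} (h1 : Cm X Y) (h2 : Cm X Z) : Cm X (Y ⊔ Z) :=
  fun x hx => RankOne.commute_sup_of (h1 x hx) (h2 x hx)

theorem Cm.sup_left {X Y Z : Subgroup G} (h1 : Cm X Z) (h2 : Cm Y Z) : Cm (X ⊔ Y) Z :=
  (Cm.sup_right h1.symm h2.symm).symm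

/-- the commutator `n⁻¹ τ⁻¹ n τ` -/
def eps (n τ : G) : G := n⁻¹ * τ⁻¹ * n * τ

theorem conj_inv_mem {X : Subgroup G} {x : G} (hx : x ∈ X) (g : G) :
    g⁻¹ * x * g ∈ conjBy X g⁻¹ := by
  have := conj_mem_conjBy hx g⁻¹
  rwa [inv_inv] at this

theorem inv_comm_of_comm {x y : G} (h : x * y = y * x) : x⁻¹ * y = y * x⁻¹ := by
  calc x⁻¹ * y = x⁻¹ * (y * x) * x⁻¹ := by group
    _ = x⁻¹ * (x * y) * x⁻¹ := by rw [h]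
    _ = y * x⁻¹ := by group

theorem switch_conj {A B : Subgroup G} {e a β : G} (heB : ∀ b ∈ B, e * b = b * e) (hβ : β ∈ B)
    (hAB : conjBy A β⁻¹ = conjBy B a) :
    conjBy B (e⁻¹ * a⁻¹ * e * a)⁻¹ = conjBy (conjBy A e⁻¹) (a⁻¹ * β⁻¹) := by
  have hBe := (conjBy_eq_of_comm heB).1
  have w : (e⁻¹ * a⁻¹ * e * a)⁻¹ = a⁻¹ * e⁻¹ * a * e := by group
  rw [w, ← conjBy_conjBy B e, hBe, ← conjBy_conjBy B a, ← hAB, conjBy_conjBy, conjBy_conjBy]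
  congr 1
  have hc : e⁻¹ * β⁻¹ = β⁻¹ * e⁻¹ := by
    rw [← mul_inv_rev, ← mul_inv_rev, heB β hβ]
  calc a⁻¹ * e⁻¹ * β⁻¹ = a⁻¹ * (e⁻¹ * β⁻¹) := by group
    _ = a⁻¹ * (β⁻¹ * e⁻¹) := by rw [hc]
    _ = a⁻¹ * β⁻¹ * e⁻¹ := by group

section Eps

variable {A T : Subgroup G} {n₀ : G}

theorem eps_one : eps n₀ 1 = 1 := by
  unfold eps; group

theorem eps_mul (hTT : Cm T T) (hn₀ : Sw T A n₀) {τ σ : G} (hτ : τ ∈ T) (hσ : σ ∈ T) :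
    eps n₀ (τ * σ) = eps n₀ τ * eps n₀ σ := by
  have h1 := hn₀.2 _ (conj_inv_mem (inv_mem hσ) n₀) τ hτ
  have h2 := hTT τ⁻¹ (inv_mem hτ) σ⁻¹ (inv_mem hσ)
  unfold eps
  calc n₀⁻¹ * (τ * σ)⁻¹ * n₀ * (τ * σ) = n₀⁻¹ * (σ⁻¹ * τ⁻¹) * n₀ * τ * σ := by group
    _ = n₀⁻¹ * (τ⁻¹ * σ⁻¹) * n₀ * τ * σ := by rw [h2]
    _ = n₀⁻¹ * τ⁻¹ * n₀ * (n₀⁻¹ * σ⁻¹ * n₀ * τ) * σ := by group
    _ = n₀⁻¹ * τ⁻¹ * n₀ * (τ * (n₀⁻¹ * σ⁻¹ * n₀)) * σ := by rw [h1]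
    _ = n₀⁻¹ * τ⁻¹ * n₀ * τ * (n₀⁻¹ * σ⁻¹ * n₀ * σ) := by group

theorem eps_inv (hTT : Cm T T) (hn₀ : Sw T A n₀) {τ : G} (hτ : τ ∈ T) :
    eps n₀ τ⁻¹ = (eps n₀ τ)⁻¹ := by
  have := eps_mul hTT hn₀ hτ (inv_mem hτ)
  rw [mul_inv_cancel, eps_one] at this
  exact eq_inv_of_mul_eq_one_right this.symm

theorem eps_mem {τ : G} (hτ : τ ∈ T) : eps n₀ τ ∈ conjBy T n₀⁻¹ ⊔ T :=
  mul_mem (Subgroup.mem_sup_left (conj_inv_mem (inv_mem hτ) n₀)) (Subgroup.mem_sup_right hτ)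

theorem cm_W (hTT : Cm T T) (hn₀ : Sw T A n₀) :
    Cm (conjBy T n₀⁻¹ ⊔ T) (conjBy T n₀⁻¹ ⊔ T) :=
  Cm.sup_left (Cm.sup_right (hTT.conj _) hn₀.2) (Cm.sup_right hn₀.2.symm hTT)

theorem eps_comm_T (hTT : Cm T T) (hn₀ : Sw T A n₀) {τ : G} (hτ : τ ∈ T) :
    ∀ t ∈ T, eps n₀ τ * t = t * eps n₀ τ :=
  fun t ht => cm_W hTT hn₀ _ (eps_mem hτ) t (Subgroup.mem_sup_right ht)

theorem eps_comm_U (hTT : Cm T T) (hn₀ : Sw T A n₀) {τ : G} (hτ : τ ∈ T) :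
    ∀ t ∈ conjBy T n₀⁻¹, eps n₀ τ * t = t * eps n₀ τ :=
  fun t ht => cm_W hTT hn₀ _ (eps_mem hτ) t (Subgroup.mem_sup_left ht)

theorem eps_sw (hAT : IsRankOnePair A T) (hAA : Cm A A) (hTT : Cm T T) (hn₀ : Sw T A n₀) {τ : G}
    (hτ : τ ∈ T) : Sw A T (eps n₀ τ) :=
  Sw.switch (RankOnePair_symm hAT) hTT hAA hn₀ hτ

theorem eps_cm (hAT : IsRankOnePair A T) (hAA : Cm A A) (hTT : Cm T T) (hn₀ : Sw T A n₀)
    {σ τ : G} (hσ : σ ∈ T) (hτ : τ ∈ T) :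
    Cm (conjBy A (eps n₀ σ)⁻¹) (conjBy A (eps n₀ τ)⁻¹) := by
  have h1 := ((eps_sw hAT hAA hTT hn₀ (mul_mem hσ (inv_mem hτ))).2).conj (eps n₀ τ)⁻¹
  rw [conjBy_conjBy, ← mul_inv_rev, ← eps_mul hTT hn₀ (mul_mem hσ (inv_mem hτ)) hτ,
    inv_mul_cancel_right] at h1
  exact h1

/-- Lemma β -/
theorem eps_beta (hAT : IsRankOnePair A T) (hAA : Cm A A) (hTT : Cm T T) (hn₀ : Sw T A n₀)
    {τ : G} (hτ : τ ∈ T) {a : G} (ha : a ∈ A) :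
    Cm (conjBy T ((eps n₀ τ)⁻¹ * a⁻¹ * eps n₀ τ * a)⁻¹) (conjBy T n₀⁻¹) := by
  by_cases ha1 : a = 1
  · subst ha1
    have : ((eps n₀ τ)⁻¹ * (1 : G)⁻¹ * eps n₀ τ * 1)⁻¹ = 1 := by group
    rw [this, conjBy_one]
    exact hn₀.2.symm
  · obtain ⟨t, ht, -, hAt⟩ := hAT.cond_left a⁻¹ (inv_mem ha) (by simpa using ha1)
    rw [inv_inv] at hAt
    rw [switch_conj (eps_comm_T hTT hn₀ hτ) ht hAt]
    have e2 : conjBy T n₀⁻¹ = conjBy (conjBy A (eps n₀ t⁻¹)⁻¹) (a⁻¹ * t⁻¹) := by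
      have hAn := (conjBy_eq_of_comm hn₀.1).1
      have w : a⁻¹ * t⁻¹ * (eps n₀ t⁻¹)⁻¹ = a⁻¹ * n₀⁻¹ * t⁻¹ * n₀ := by
        unfold eps; group
      rw [conjBy_conjBy, w, ← conjBy_conjBy A n₀, hAn, ← conjBy_conjBy A t⁻¹, hAt, conjBy_conjBy]
      congr 1
      have h1 := inv_comm_of_comm (hn₀.1 a ha)
      calc n₀⁻¹ = a⁻¹ * (a * n₀⁻¹) := by group
        _ = a⁻¹ * (n₀⁻¹ * a) := by rw [h1]
        _ = a⁻¹ * n₀⁻¹ * a := by group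
    rw [e2]
    exact (eps_cm hAT hAA hTT hn₀ hτ (inv_mem ht)).conj _

/-- the conjugate of `W = T^{n₀} T` under `n = [e, a]` commutes with `W` -/
theorem eps_W (hAT : IsRankOnePair A T) (hAA : Cm A A) (hTT : Cm T T) (hn₀ : Sw T A n₀)
    {τ : G} (hτ : τ ∈ T) {a : G} (ha : a ∈ A) :
    Cm (conjBy (conjBy T n₀⁻¹ ⊔ T) ((eps n₀ τ)⁻¹ * a⁻¹ * eps n₀ τ * a)⁻¹)
      (conjBy T n₀⁻¹ ⊔ T) := by
  have hsw := eps_sw hAT hAA hTT hn₀ hτ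
  have hAU : IsRankOnePair A (conjBy T n₀⁻¹) := by
    have := RankOne.conj hAT n₀⁻¹
    rwa [(conjBy_eq_of_comm hn₀.1).2] at this
  have hTTn := (Sw.switch hAT hAA hTT hsw ha).2
  have hUUn := (Sw.switch hAU hAA (hTT.conj _) ⟨eps_comm_U hTT hn₀ hτ, hsw.2⟩ ha).2
  have hTUn := eps_beta hAT hAA hTT hn₀ hτ ha
  have hUTn : Cm (conjBy (conjBy T n₀⁻¹) ((eps n₀ τ)⁻¹ * a⁻¹ * eps n₀ τ * a)⁻¹) T := by
    have h1 := eps_beta hAT hAA hTT hn₀ hτ (inv_mem ha)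
    have h2 := hsw.2 _ (conj_inv_mem ha (eps n₀ τ)) a⁻¹ (inv_mem ha)
    have w : ((eps n₀ τ)⁻¹ * a⁻¹⁻¹ * eps n₀ τ * a⁻¹)⁻¹ = (eps n₀ τ)⁻¹ * a⁻¹ * eps n₀ τ * a := by
      rw [inv_inv, h2]; group
    rw [w] at h1
    have h3 := h1.conj ((eps n₀ τ)⁻¹ * a⁻¹ * eps n₀ τ * a)⁻¹
    rw [conjBy_conjBy, inv_mul_cancel, conjBy_one] at h3
    exact h3.symm
  rw [conjBy_sup]
  exact Cm.sup_left (Cm.sup_right hUUn hUTn) (Cm.sup_right hTUn hTTn)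

/-- the cubic relation -/
theorem eps_cubic (hAT : IsRankOnePair A T) (hAA : Cm A A) (hTT : Cm T T) (hn₀ : Sw T A n₀)
    {τ₁ τ₂ τ₃ : G} (h1 : τ₁ ∈ T) (h2 : τ₂ ∈ T) (h3 : τ₃ ∈ T) {a : G} (ha : a ∈ A) {n : G}
    (hn : n = (eps n₀ τ₁)⁻¹ * a⁻¹ * eps n₀ τ₁ * a) :
    (n⁻¹ * (eps n₀ τ₂)⁻¹ * n * eps n₀ τ₂) * eps n₀ τ₃ =
      eps n₀ τ₃ * (n⁻¹ * (eps n₀ τ₂)⁻¹ * n * eps n₀ τ₂) := by
  have hW := eps_W hAT hAA hTT hn₀ h1 ha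
  rw [← hn] at hW
  have c1 := hW _ (conj_inv_mem (inv_mem (eps_mem (n₀ := n₀) h2)) n) _ (eps_mem (n₀ := n₀) h3)
  have c2 := cm_W hTT hn₀ _ (eps_mem h2) _ (eps_mem h3)
  calc n⁻¹ * (eps n₀ τ₂)⁻¹ * n * eps n₀ τ₂ * eps n₀ τ₃
      = n⁻¹ * (eps n₀ τ₂)⁻¹ * n * (eps n₀ τ₂ * eps n₀ τ₃) := by group
    _ = (n⁻¹ * (eps n₀ τ₂)⁻¹ * n * eps n₀ τ₃) * eps n₀ τ₂ := by rw [c2]; group
    _ = eps n₀ τ₃ * (n⁻¹ * (eps n₀ τ₂)⁻¹ * n * eps n₀ τ₂) := by rw [c1]; group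

end Eps

/-- three elements all of whose nonempty subproducts are nontrivial -/
def Triple (T : Subgroup G) : Prop :=
  ∃ x ∈ T, ∃ y ∈ T, ∃ z ∈ T, x ≠ 1 ∧ y ≠ 1 ∧ z ≠ 1 ∧ x * y ≠ 1 ∧ x * z ≠ 1 ∧ y * z ≠ 1 ∧
    x * y * z ≠ 1

theorem Triple.conj {T : Subgroup G} (h : Triple T) (g : G) : Triple (conjBy T g) := by
  obtain ⟨x, hx, y, hy, z, hz, h1, h2, h3, h4, h5, h6, h7⟩ := h
  have key : ∀ w : G, w ≠ 1 → g * w * g⁻¹ ≠ 1 := by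
    intro w hw h
    apply hw
    calc w = g⁻¹ * (g * w * g⁻¹) * g := by group
      _ = 1 := by rw [h]; group
  refine ⟨_, conj_mem_conjBy hx g, _, conj_mem_conjBy hy g, _, conj_mem_conjBy hz g,
    key _ h1, key _ h2, key _ h3, ?_, ?_, ?_, ?_⟩
  · have : g * x * g⁻¹ * (g * y * g⁻¹) = g * (x * y) * g⁻¹ := by group
    rw [this]; exact key _ h4
  · have : g * x * g⁻¹ * (g * z * g⁻¹) = g * (x * z) * g⁻¹ := by group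
    rw [this]; exact key _ h5
  · have : g * y * g⁻¹ * (g * z * g⁻¹) = g * (y * z) * g⁻¹ := by group
    rw [this]; exact key _ h6
  · have : g * x * g⁻¹ * (g * y * g⁻¹) * (g * z * g⁻¹) = g * (x * y * z) * g⁻¹ := by group
    rw [this]; exact key _ h7

/-- a bad pair is impossible as soon as the root subgroups contain a triple -/
theorem bad_false {S : Set (Subgroup G)} (hS : IsRootSubgroupSet S) {A B T : Subgroup G}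
    (hA : A ∈ S) (hT : T ∈ S) (hAB : IsRankOnePair A B) (hAT : IsRankOnePair A T)
    {n₀ : G} (hn₀ : Sw T A n₀) (hne : conjBy T n₀⁻¹ ≠ T)
    (hbad : ∀ g : G, ∀ C ∈ S, C ≠ conjBy A g → Cm C (conjBy A g) → Cm C (conjBy B g))
    (htr : Triple T) : False := by
  obtain ⟨τ₁, h1, τ₂, h2, τ₃, h3, c1, c2, c3, c12, c13, c23, c123⟩ := htr
  have hAA := cm_self hS hA
  have hTT := cm_self hS hT
  have hAB' : ∀ σ ∈ T, σ ≠ 1 → Cm A (conjBy B (eps n₀ σ)⁻¹) := fun σ hσ hσ1 =>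
    hbad (eps n₀ σ)⁻¹ A hA (Sw.switch_ne hAT hn₀ hne hσ hσ1).symm
      (eps_sw hAT hAA hTT hn₀ hσ).2.symm
  obtain ⟨a, ha, ha1⟩ := RankOne.exists_ne_one_left hAB
  obtain ⟨β, hβ, hβ1⟩ := RankOne.exists_ne_one_right hAB
  obtain ⟨e, he⟩ : ∃ e, e = eps n₀ τ₁ := ⟨_, rfl⟩
  obtain ⟨f, hf⟩ : ∃ e, e = eps n₀ τ₂ := ⟨_, rfl⟩
  obtain ⟨g, hg⟩ : ∃ e, e = eps n₀ τ₃ := ⟨_, rfl⟩
  have hef : e * f = f * e := by
    rw [he, hf]; exact cm_W hTT hn₀ _ (eps_mem h1) _ (eps_mem h2)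
  have heg : e * g = g * e := by
    rw [he, hg]; exact cm_W hTT hn₀ _ (eps_mem h1) _ (eps_mem h3)
  have hfg : f * g = g * f := by
    rw [hf, hg]; exact cm_W hTT hn₀ _ (eps_mem h2) _ (eps_mem h3)
  have K : ∀ k h : G, (∃ σ ∈ T, σ ≠ 1 ∧ k = eps n₀ σ) → e * f * g = k * h →
      Commute ((e * f * g)⁻¹ * β * (e * f * g)) (h⁻¹ * a * h) := by
    rintro k h ⟨σ, hσ, hσ1, rfl⟩ hk
    have h4 := hAB' σ hσ hσ1 a ha _ (conj_inv_mem hβ (eps n₀ σ))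
    rw [hk]
    change _ * _ = _ * _
    calc (eps n₀ σ * h)⁻¹ * β * (eps n₀ σ * h) * (h⁻¹ * a * h)
        = h⁻¹ * (((eps n₀ σ)⁻¹ * β * eps n₀ σ) * a) * h := by group
      _ = h⁻¹ * (a * ((eps n₀ σ)⁻¹ * β * eps n₀ σ)) * h := by rw [h4]
      _ = h⁻¹ * a * h * ((eps n₀ σ * h)⁻¹ * β * (eps n₀ σ * h)) := by group
  have C1 := K (e * f * g) 1 ⟨τ₁ * τ₂ * τ₃, mul_mem (mul_mem h1 h2) h3, c123, by
    rw [eps_mul hTT hn₀ (mul_mem h1 h2) h3, eps_mul hTT hn₀ h1 h2, he, hf, hg]⟩ (by group)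
  have Ce := K (f * g) e ⟨τ₂ * τ₃, mul_mem h2 h3, c23, by
    rw [eps_mul hTT hn₀ h2 h3, hf, hg]⟩ (by
      calc e * f * g = (e * f) * g := by group
        _ = f * (e * g) := by rw [hef]; group
        _ = f * g * e := by rw [heg]; group)
  have Cf := K (e * g) f ⟨τ₁ * τ₃, mul_mem h1 h3, c13, by
    rw [eps_mul hTT hn₀ h1 h3, he, hg]⟩ (by
      calc e * f * g = e * (f * g) := by group
        _ = e * g * f := by rw [hfg]; group)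
  have Cg := K (e * f) g ⟨τ₁ * τ₂, mul_mem h1 h2, c12, by
    rw [eps_mul hTT hn₀ h1 h2, he, hf]⟩ rfl
  have Cef := K g (e * f) ⟨τ₃, h3, c3, hg⟩ (by
      calc e * f * g = e * (f * g) := by group
        _ = (e * g) * f := by rw [hfg]; group
        _ = g * (e * f) := by rw [heg]; group)
  have Ceg := K f (e * g) ⟨τ₂, h2, c2, hf⟩ (by
      calc e * f * g = (e * f) * g := by group
        _ = f * (e * g) := by rw [hef]; group)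
  have Cfg := K e (f * g) ⟨τ₁, h1, c1, he⟩ (by group)
  obtain ⟨n, hn⟩ : ∃ n, n = e⁻¹ * a⁻¹ * e * a := ⟨_, rfl⟩
  have hz := eps_cubic hAT hAA hTT hn₀ h1 h2 h3 ha (n := n) (by rw [hn, he])
  rw [← hf, ← hg] at hz
  have hz' : g⁻¹ * (n⁻¹ * f⁻¹ * n * f) * g = n⁻¹ * f⁻¹ * n * f := by
    rw [mul_assoc, hz]; group
  have ident : ((e * f * g)⁻¹ * a * (e * f * g))⁻¹ =
      ((e * g)⁻¹ * a * (e * g))⁻¹ * (g⁻¹ * a * g) *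
        ((1⁻¹ * a * 1)⁻¹ * (e⁻¹ * a * e) * ((e * f)⁻¹ * a * (e * f))⁻¹ * (f⁻¹ * a * f)) *
        ((f * g)⁻¹ * a * (f * g))⁻¹ := by
    calc ((e * f * g)⁻¹ * a * (e * f * g))⁻¹
        = ((e * g)⁻¹ * a * (e * g))⁻¹ * (g⁻¹ * a * g) * (g⁻¹ * (n⁻¹ * f⁻¹ * n * f) * g) *
          ((f * g)⁻¹ * a * (f * g))⁻¹ := by rw [hn]; group
      _ = ((e * g)⁻¹ * a * (e * g))⁻¹ * (g⁻¹ * a * g) * (n⁻¹ * f⁻¹ * n * f) *
          ((f * g)⁻¹ * a * (f * g))⁻¹ := by rw [hz']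
      _ = _ := by rw [hn]; group
  have hfin : Commute ((e * f * g)⁻¹ * β * (e * f * g)) ((e * f * g)⁻¹ * a * (e * f * g))⁻¹ := by
    rw [ident]
    exact ((Ceg.inv_right.mul_right Cg).mul_right
      (((C1.inv_right.mul_right Ce).mul_right Cef.inv_right).mul_right Cf)).mul_right
      Cfg.inv_right
  have hfin2 := hfin.inv_right
  rw [inv_inv] at hfin2
  apply Root.RankOne_not_commute hAB ha ha1 hβ hβ1
  have h5 := hfin2.eq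
  calc a * β = (e * f * g) * (((e * f * g)⁻¹ * a * (e * f * g)) *
        ((e * f * g)⁻¹ * β * (e * f * g))) * (e * f * g)⁻¹ := by group
    _ = (e * f * g) * (((e * f * g)⁻¹ * β * (e * f * g)) *
        ((e * f * g)⁻¹ * a * (e * f * g))) * (e * f * g)⁻¹ := by rw [h5]
    _ = β * a := by group

end Cfsg.Agent.Lib.Helper85
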