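import Cfsg.Agent.Lib.Helper85.RootHyper
import Cfsg.Agent.Lib.Helper85.QuadraticConj
import Cfsg.Agent.Lib.Helper85.RootGraph

set_option autoImplicit false

namespace Cfsg.Agent.Lib.Helper85

open Cfsg

variable {G : Type*} [Group G]

namespace Root

variable {S : Set (Subgroup G)}

theorem special_of_point (hS : IsRootSubgroupSet S) (hF : ∀ A ∈ S, ∃ B ∈ S, IsRankOnePair A B)
    {A B P : Subgroup G} (hA : A ∈ S) (hB : B ∈ S) (hP : P ∈ S) (hAB : IsRankOnePair A B)
    (hAP : ∀ a ∈ A, ∀ p ∈ P, a * p = p * a) (hc : RootCommutatorCase S P B)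
    (hroot : ∀ a ∈ A, a ≠ 1 → ∀ p ∈ P, p ≠ 1 → p * a ∈ rootElements S) :
    IsSpecialRankOnePair A B := by
  have hback : ⁅A, ⁅P, B⁆⁆ = P := comm_back hS hF hA hB hP hAB hAP hc hroot
  have hc' : RootCommutatorCase S A ⁅P, B⁆ :=
    commutatorCase_of_mem hS hA hc.1 (by rw [hback]; exact hP)
  have hPF : ∀ p ∈ P, ∀ f ∈ ⁅P, B⁆, p * f = f * p := fun p hp f hf => CommCase.comm_left hc hp hf
  apply Quadratic.special_of_conj_action (N := P ⊔ ⁅P, B⁆) hAB
  · exact commute_sup_sup (fun _ h _ h' => comm_mem hS hP h h')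
      (fun _ h _ h' => comm_mem hS hc.1 h h') hPF
  · intro x hx n hn
    have := opp_norm hc' hc hback (x := x) (by rwa [sup_comm])
    rw [← this]
    exact conj_mem_conjBy hn x
  · intro a ha a' ha' n hn
    rw [mem_sup_of_commute hPF] at hn
    obtain ⟨p, hp, f, hf, rfl⟩ := hn
    have hmem : a * f * a⁻¹ * f⁻¹ ∈ P := by
      have := commElem_mem ha hf
      rwa [hback] at this
    have e : a * (p * f) * a⁻¹ * (p * f)⁻¹ = p * (a * f * a⁻¹ * f⁻¹) * p⁻¹ := by
      calc a * (p * f) * a⁻¹ * (p * f)⁻¹ = (a * p) * f * a⁻¹ * f⁻¹ * p⁻¹ := by group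
        _ = _ := by rw [hAP a ha p hp]; group
    rw [e]
    exact hAP a' ha' _ (mul_mem (mul_mem hp hmem) (inv_mem hp))
  · obtain ⟨a, ha, ha1⟩ := RankOne.exists_ne_one_left hAB
    obtain ⟨b, hb, hb1⟩ := RankOne.exists_ne_one_right hAB
    obtain ⟨p, hp, hp1⟩ := exists_ne_one_of_ne_bot (hS.ne_bot P hP)
    refine ⟨b, Subgroup.mem_sup_right hb, a, Subgroup.mem_sup_left ha, p,
      Subgroup.mem_sup_left hp, ?_⟩
    have hmem : b * p * b⁻¹ * p⁻¹ ∈ ⁅P, B⁆ := by
      have := inv_mem (commElem_mem hp hb)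
      have e : (p * b * p⁻¹ * b⁻¹)⁻¹ = b * p * b⁻¹ * p⁻¹ := by group
      rwa [e] at this
    apply CommCase.not_commute hS hc' hA hB hAB ha ha1 hmem
    intro h1
    apply CommCase.not_commute hS (CommCase.symm hc) hB hA (RankOnePair_symm hAB) hb hb1 hp hp1
    have : b * p = (b * p * b⁻¹ * p⁻¹) * (p * b) := by group
    rw [this, h1, one_mul]

theorem commutatorCase_conj (hS : IsRootSubgroupSet S) {A B : Subgroup G} (hA : A ∈ S)
    (hB : B ∈ S) (hc : RootCommutatorCase S A B) (g : G) :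
    RootCommutatorCase S (conjBy A g) (conjBy B g) := by
  apply commutatorCase_of_mem hS (hS.conj_mem A hA g) (hS.conj_mem B hB g)
  rw [← conjBy_commutator]
  exact hS.conj_mem _ hc.1 g

/-- in a class where the commutator case occurs, every member has a commutator partner -/
theorem exists_commutatorCase (hS : IsRootSubgroupSet S) (hconj : IsConjClassOfSubgroups S)
    (hex : ∃ A ∈ S, ∃ B ∈ S, RootCommutatorCase S A B) {A : Subgroup G} (hA : A ∈ S) :
    ∃ E ∈ S, RootCommutatorCase S A E := by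
  obtain ⟨A₀, hA₀, B₀, hB₀, hc⟩ := hex
  obtain ⟨g, rfl⟩ := hconj.2 A₀ hA₀ A hA
  exact ⟨_, hS.conj_mem B₀ hB₀ g, commutatorCase_conj hS hA₀ hB₀ hc g⟩

theorem commutator_mem_linePartners (hS : IsRootSubgroupSet S)
    (hF : ∀ A ∈ S, ∃ B ∈ S, IsRankOnePair A B) {A E : Subgroup G} (hA : A ∈ S)
    (hc : RootCommutatorCase S A E) : ⁅A, E⁆ ∈ linePartners S A := by
  obtain ⟨D, hD, hAD⟩ := hF A hA
  exact linePartners_symm hc.1 (CommCase.mem_linePartners hS hc hA hD hAD)

/-- points of a line `A ⊔ ⁅A, E⁆` other than `A` are line partners of `A` -/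
theorem point_mem_linePartners (hS : IsRootSubgroupSet S)
    (hF : ∀ A ∈ S, ∃ B ∈ S, IsRankOnePair A B) {A E P : Subgroup G} (hA : A ∈ S)
    (hc : RootCommutatorCase S A E) (hP : P ∈ membersIn S (A ⊔ ⁅A, E⁆)) (hPA : P ≠ A) :
    P ∈ linePartners S A := by
  have hl := commutator_mem_linePartners hS hF hA hc
  refine ⟨⟨hP.1, hPA, ?_⟩, ?_⟩
  · rw [commutator_eq_bot_iff]
    intro a ha p hp
    exact line_comm hS hA hl a (Subgroup.mem_sup_left ha) p (hP.2 hp)
  · rw [line_eq hS hF hA hc hP hPA]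
    exact hl.2

/-- for a rank one pair `(A, B)` and a commutator partner of `A`: a line partner `P` of `A` in the
commutator case with `B` -/
theorem exists_line_commutator (hS : IsRootSubgroupSet S)
    (hF : ∀ A ∈ S, ∃ B ∈ S, IsRankOnePair A B) {A B E : Subgroup G} (hA : A ∈ S) (hB : B ∈ S)
    (hAB : IsRankOnePair A B) (hc : RootCommutatorCase S A E) :
    ∃ P ∈ linePartners S A, RootCommutatorCase S P B := by
  obtain ⟨P, hP, hPA, hPB⟩ :=
    exists_special_point hS hF hA (commutator_mem_linePartners hS hF hA hc) hB hAB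
  exact ⟨P, point_mem_linePartners hS hF hA hc hP hPA, hPB⟩

theorem special_of_linePartner (hS : IsRootSubgroupSet S)
    (hF : ∀ A ∈ S, ∃ B ∈ S, IsRankOnePair A B) {A B P : Subgroup G} (hA : A ∈ S) (hB : B ∈ S)
    (hAB : IsRankOnePair A B) (hP : P ∈ linePartners S A) (hc : RootCommutatorCase S P B) :
    IsSpecialRankOnePair A B := by
  apply special_of_point hS hF hA hB hP.1.1 hAB (commutator_eq_bot_iff.1 hP.1.2.2) hc
  intro a ha ha1 p hp hp1
  apply line_root hP (mul_mem (Subgroup.mem_sup_right hp) (Subgroup.mem_sup_left ha))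
  intro h1
  apply hP.1.2.1
  have hpA : p ∈ A := by
    have : p = a⁻¹ := eq_inv_of_mul_eq_one_left h1
    rw [this]; exact inv_mem ha
  exact ti hS hF hP.1.1 hA hp hpA hp1

end Root

end Cfsg.Agent.Lib.Helper85
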