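import Cfsg.Agent.Lib.Helper85.Special

set_option autoImplicit false

namespace Cfsg.Agent.Lib.Helper85

open Cfsg

variable {G : Type*} [Group G]

namespace Special

variable {A B : Subgroup G}

/-- `g ∈ ⟨A, B⟩` interchanges `A` and `B` -/
def Swaps (A B : Subgroup G) (g : G) : Prop := g ∈ A ⊔ B ∧ conjBy A g = B ∧ conjBy B g = A

theorem swaps_nn (hs : IsSpecialRankOnePair A B) {a b : G} (hp : Par A B a b) :
    Swaps A B (nn a b) := ⟨nn_mem hp, conjBy_left_nn hp, conjBy_right_nn hs hp⟩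

theorem Swaps.inv {g : G} (h : Swaps A B g) : Swaps A B g⁻¹ := by
  refine ⟨inv_mem h.1, ?_, ?_⟩
  · have := h.2.2
    rw [conjBy_eq_iff] at this
    exact this.symm
  · have := h.2.1
    rw [conjBy_eq_iff] at this
    exact this.symm

theorem Swaps.mul_mem_diag {g g' : G} (h : Swaps A B g) (h' : Swaps A B g') :
    g * g' ∈ rankOneDiagonal A B := by
  refine ⟨⟨mul_mem h.1 h'.1, ?_⟩, ?_⟩
  · exact conjBy_eq_self_iff.1 (by rw [← conjBy_conjBy, h'.2.1, h.2.2])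
  · exact conjBy_eq_self_iff.1 (by rw [← conjBy_conjBy, h'.2.2, h.2.1])

theorem cong (hs : IsSpecialRankOnePair A B) {x x' g : G} (hp : Par A B x x')
    (hg : Swaps A B g) : (g * x'⁻¹ * g⁻¹) * x⁻¹ ∈ ⁅A, rankOneDiagonal A B⁆ := by
  rw [Subgroup.commutator_comm]
  have h1 := Subgroup.commutator_mem_commutator (hg.mul_mem_diag (swaps_nn hs hp)) hp.1
  rw [commutatorElement_def] at h1
  have e : g * x'⁻¹ * g⁻¹ * x⁻¹ = g * nn x x' * x * (g * nn x x')⁻¹ * x⁻¹ := by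
    rw [← nn_conj_left hs hp]; group
  rw [e]; exact h1

theorem star (hs : IsSpecialRankOnePair A B) {a b z z' v : G} (hp : Par A B a b)
    (hz : Par A B z z') (hv : Par A B v ((nn a b)⁻¹ * (z * a⁻¹) * nn a b)) :
    Par A B (v * a⁻¹) (z' * b⁻¹) := by
  apply par_of_eq hs.1 (mul_mem hv.1 (inv_mem hp.1)) (mul_mem hz.2.2.1 (inv_mem hp.2.2.1))
  have hn := (swaps_nn hs hp).inv.2.2
  have e1 : (z' * b⁻¹)⁻¹ = b * z'⁻¹ := by group
  have e2 : b * z⁻¹ = a * ((nn a b)⁻¹ * (z * a⁻¹) * nn a b)⁻¹ * (nn a b)⁻¹ := by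
    unfold nn; group
  have e3 : a * v⁻¹ = (v * a⁻¹)⁻¹ := by group
  rw [e1, ← conjBy_conjBy, hz.2.2.2.2, conjBy_conjBy, e2, ← conjBy_conjBy, hn, ← conjBy_conjBy,
    hv.2.2.2.2, conjBy_conjBy, e3]

theorem sq_congr (hs : IsSpecialRankOnePair A B) (hab : HasAbelianUnipotents A B) {a z : G}
    (ha : a ∈ A) (ha1 : a ≠ 1) (hz : z ∈ A) (hz1 : z ≠ 1) (hza : z ≠ a) :
    z * z * a⁻¹ ∈ ⁅A, rankOneDiagonal A B⁆ := by
  obtain ⟨b, hp⟩ := exists_par_right hs.1 ha ha1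
  obtain ⟨z', hz'⟩ := exists_par_right hs.1 hz hz1
  have hsw := swaps_nn hs hp
  have hy1 : z * a⁻¹ ≠ 1 := fun h => hza (mul_inv_eq_one.1 h)
  have hvB : (nn a b)⁻¹ * (z * a⁻¹) * nn a b ∈ B := by
    have h1 : (nn a b)⁻¹ * (z * a⁻¹) * (nn a b)⁻¹⁻¹ ∈ conjBy A (nn a b)⁻¹ :=
      conj_mem_conjBy (mul_mem hz (inv_mem ha)) _
    rw [hsw.inv.2.1, inv_inv] at h1
    exact h1
  have hv1 : (nn a b)⁻¹ * (z * a⁻¹) * nn a b ≠ 1 := by
    intro h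
    apply hy1
    have : z * a⁻¹ = nn a b * ((nn a b)⁻¹ * (z * a⁻¹) * nn a b) * (nn a b)⁻¹ := by group
    rw [this, h]; group
  obtain ⟨v, hv⟩ := exists_par_left hs.1 hvB hv1
  have hu := star hs hp hz' hv
  have t1 := cong hs hv hsw
  have t2 := cong hs hu hsw
  have t3 := cong hs hz' hsw
  have hζ : nn a b * z'⁻¹ * (nn a b)⁻¹ ∈ A := by
    have h1 : nn a b * z'⁻¹ * (nn a b)⁻¹ ∈ conjBy B (nn a b) :=
      conj_mem_conjBy (inv_mem hz'.2.2.1) _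
    rwa [hsw.2.2] at h1
  have hcomm : nn a b * z'⁻¹ * (nn a b)⁻¹ * a = a * (nn a b * z'⁻¹ * (nn a b)⁻¹) :=
    comm_of_isMulCommutative hab.1 hζ ha
  have hnb : nn a b * b * (nn a b)⁻¹ = a⁻¹ := by
    have := nn_conj_right hs hp
    have e : nn a b * b * (nn a b)⁻¹ = (nn a b * b⁻¹ * (nn a b)⁻¹)⁻¹ := by group
    rw [e, this]
  set ζ := nn a b * z'⁻¹ * (nn a b)⁻¹ with hζdef
  have e1 : nn a b * ((nn a b)⁻¹ * (z * a⁻¹) * nn a b)⁻¹ * (nn a b)⁻¹ * v⁻¹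
      = a * z⁻¹ * v⁻¹ := by group
  have e2 : nn a b * (z' * b⁻¹)⁻¹ * (nn a b)⁻¹ * (v * a⁻¹)⁻¹ = a⁻¹ * ζ * a * v⁻¹ := by
    have : nn a b * (z' * b⁻¹)⁻¹ * (nn a b)⁻¹
        = (nn a b * b * (nn a b)⁻¹) * (nn a b * z'⁻¹ * (nn a b)⁻¹) := by group
    rw [this, hnb, ← hζdef]; group
  rw [e1] at t1
  rw [e2] at t2
  have key : z * z * a⁻¹ = (ζ * z⁻¹)⁻¹ * (a⁻¹ * ζ * a * v⁻¹) * (a * z⁻¹ * v⁻¹)⁻¹ := by
    have : a⁻¹ * ζ * a = ζ := by rw [mul_assoc, hcomm]; group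
    rw [this]; group
  rw [key]
  exact mul_mem (mul_mem (inv_mem t3) t2) (inv_mem t1)

theorem comm_identity {C : Type*} [CommGroup C] (x y z : C) :
    x = (x * x * y⁻¹) * (z * z * x⁻¹) * (z * z * y⁻¹)⁻¹ := by
  apply Additive.ofMul.injective
  simp only [ofMul_mul, ofMul_inv]
  abel

theorem le_commutator_of_three (hs : IsSpecialRankOnePair A B) (hab : HasAbelianUnipotents A B)
    (h3 : ∀ x ∈ A, ∃ y ∈ A, ∃ z ∈ A, y ≠ 1 ∧ z ≠ 1 ∧ y ≠ x ∧ z ≠ x ∧ y ≠ z) :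
    A ≤ ⁅A, rankOneDiagonal A B⁆ := by
  intro x hx
  by_cases hx1 : x = 1
  · rw [hx1]; exact one_mem _
  obtain ⟨y, hy, z, hz, hy1, hz1, hyx, hzx, hyz⟩ := h3 x hx
  have s1 := sq_congr hs hab hy hy1 hx hx1 (Ne.symm hyx)
  have s2 := sq_congr hs hab hx hx1 hz hz1 hzx
  have s3 := sq_congr hs hab hy hy1 hz hz1 (Ne.symm hyz)
  have key : x = (x * x * y⁻¹) * (z * z * x⁻¹) * (z * z * y⁻¹)⁻¹ := by
    let _ : CommGroup A :=
      { (inferInstance : Group A) with mul_comm := hab.1.is_comm.comm }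
    exact congrArg Subtype.val (comm_identity (⟨x, hx⟩ : A) ⟨y, hy⟩ ⟨z, hz⟩)
  rw [key]
  exact mul_mem (mul_mem s1 s2) (inv_mem s3)

theorem exists_not_mem_of_card {A : Subgroup G} (hcard : 3 < ENat.card A) (F : Finset G)
    (hF : F.card ≤ 3) : ∃ y ∈ A, y ∉ F := by
  by_contra hcon
  push Not at hcon
  have hsub : (A : Set G) ⊆ (F : Set G) := fun y hy => hcon y hy
  have h1 := Set.encard_le_encard hsub
  rw [Set.encard_coe_eq_coe_finsetCard] at h1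
  have h2 : ENat.card A ≤ (F.card : ℕ∞) := h1
  have h3 : (F.card : ℕ∞) ≤ 3 := by exact_mod_cast hF
  exact absurd (lt_of_lt_of_le hcard (h2.trans h3)) (lt_irrefl _)

theorem three_of_card {A : Subgroup G} (hcard : 3 < ENat.card A) :
    ∀ x ∈ A, ∃ y ∈ A, ∃ z ∈ A, y ≠ 1 ∧ z ≠ 1 ∧ y ≠ x ∧ z ≠ x ∧ y ≠ z := by
  classical
  intro x _
  obtain ⟨y, hy, hyF⟩ := exists_not_mem_of_card hcard {1, x} (by
    exact (Finset.card_le_two).trans (by norm_num))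
  obtain ⟨z, hz, hzF⟩ := exists_not_mem_of_card hcard {1, x, y} Finset.card_le_three
  simp only [Finset.mem_insert, Finset.mem_singleton, not_or] at hyF hzF
  exact ⟨y, hy, z, hz, hyF.1, hzF.1, hyF.2, hzF.2.1, fun h => hzF.2.2 h.symm⟩

theorem le_commutator_of_card (hs : IsSpecialRankOnePair A B) (hab : HasAbelianUnipotents A B)
    (hcard : 3 < ENat.card A) : A ≤ ⁅A, rankOneDiagonal A B⁆ :=
  le_commutator_of_three hs hab (three_of_card hcard)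

end Special

end Cfsg.Agent.Lib.Helper85
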