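import Cfsg.Agent.Lib.Helper85.RootBad
import Cfsg.Agent.Lib.Helper85.RootSpecial
import Cfsg.Agent.Lib.Helper85.SL2RankOne
import Cfsg.Agent.Lib.Helper85.SpecialDiag

set_option autoImplicit false

namespace Cfsg.Agent.Lib.Helper85

open Cfsg

variable {G : Type*} [Group G]

theorem special_of_triple {S : Set (Subgroup G)} (hS : IsRootSubgroupSet S)
    (hconj : IsConjClassOfSubgroups S)
    (hF : ∀ A ∈ S, ∃ B ∈ S, IsRankOnePair A B) (hdeg : IsDegenerateRootSet S)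
    (hcomm : ∃ A ∈ S, ∃ C ∈ S, A ≠ C ∧ ⁅A, C⁆ = ⊥) {A B : Subgroup G} (hA : A ∈ S) (hB : B ∈ S)
    (hAB : IsRankOnePair A B) (htr : Triple A) : IsSpecialRankOnePair A B := by
  by_contra hns
  obtain ⟨T, hT, C, hC, hne, hCA, hAT, hCT⟩ := exists_good hS hconj hF hdeg hcomm hA
  obtain ⟨n₀, hn₀, hn₀'⟩ := exists_sw (cm_self hS hA) hCA hne hAT hCT
  obtain ⟨g, rfl⟩ := hconj.2 A hA T hT
  exact bad_false hS hA hT hAB hAT hn₀ hn₀' (bad_of_not_special hS hF hdeg hA hB hAB hns)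
    (htr.conj g)

theorem exists_finset_of_not_triple {A : Subgroup G} (h : ¬ Triple A) :
    ∃ F : Finset G, F.card ≤ 4 ∧ ∀ x ∈ A, x ∈ F := by
  classical
  by_contra hcon
  push Not at hcon
  obtain ⟨x, hx, hx'⟩ := hcon {1} (by simp)
  obtain ⟨y, hy, hy'⟩ := hcon {1, x⁻¹} ((Finset.card_le_two).trans (by norm_num))
  obtain ⟨z, hz, hz'⟩ := hcon {1, x⁻¹, y⁻¹, (x * y)⁻¹} Finset.card_le_four
  simp only [Finset.mem_insert, Finset.mem_singleton, not_or] at hx' hy' hz'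
  refine h ⟨x, hx, y, hy, z, hz, hx', hy'.1, hz'.1, ?_, ?_, ?_, ?_⟩
  · intro h1; exact hy'.2 (eq_inv_of_mul_eq_one_right h1)
  · intro h1; exact hz'.2.1 (eq_inv_of_mul_eq_one_right h1)
  · intro h1; exact hz'.2.2.1 (eq_inv_of_mul_eq_one_right h1)
  · intro h1; exact hz'.2.2.2 (eq_inv_of_mul_eq_one_right h1)

theorem orderOf_of_not_triple {A : Subgroup G} (h : ¬ Triple A) {a : G} (ha : a ∈ A) :
    0 < orderOf a ∧ orderOf a ≤ 3 := by
  have key : ∃ n : ℕ, 0 < n ∧ n ≤ 3 ∧ a ^ n = 1 := by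
    by_contra hcon
    push Not at hcon
    have h1 := hcon 1 (by norm_num) (by norm_num)
    have h2 := hcon 2 (by norm_num) (by norm_num)
    have h3 := hcon 3 (by norm_num) (by norm_num)
    rw [pow_one] at h1
    rw [pow_two] at h2
    rw [pow_succ, pow_two] at h3
    exact h ⟨a, ha, a, ha, a, ha, h1, h1, h1, h2, h2, h2, h3⟩
  obtain ⟨n, hn0, hn3, hn⟩ := key
  exact ⟨orderOf_pos_iff.2 (isOfFinOrder_iff_pow_eq_one.2 ⟨n, hn0, hn⟩),
    (orderOf_le_of_pow_eq_one hn0 hn).trans hn3⟩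

theorem not_triple_conj {A : Subgroup G} (h : ¬ Triple A) (g : G) : ¬ Triple (conjBy A g) := by
  intro h1
  apply h
  have := h1.conj g⁻¹
  rwa [conjBy_conjBy, inv_mul_cancel, conjBy_one] at this

section PSL2

variable {k : Type*} [Field k]

open Matrix

theorem psl2_up_injective {φ : SpecialLinearGroup (Fin 2) k →* G}
    (hker : φ.ker ≤ Subgroup.center (SpecialLinearGroup (Fin 2) k)) :
    Function.Injective (fun s : k => φ (SL2.up s)) := by
  intro s t hst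
  have hst' : φ (SL2.up s) = φ (SL2.up t) := hst
  have h1 : SL2.up (s - t) ∈ φ.ker := by
    rw [MonoidHom.mem_ker, sub_eq_add_neg, ← SL2.up_add, ← SL2.up_inv, map_mul, map_inv, hst',
      mul_inv_cancel]
  have h2 := Subgroup.mem_center_iff.1 (hker h1) (SL2.lo 1)
  have h3 := congrArg (fun g : SpecialLinearGroup (Fin 2) k => g 0 0) h2
  simp [SL2.mul_entry] at h3
  exact sub_eq_zero.1 h3

theorem psl2_lo_injective {φ : SpecialLinearGroup (Fin 2) k →* G}
    (hker : φ.ker ≤ Subgroup.center (SpecialLinearGroup (Fin 2) k)) :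
    Function.Injective (fun s : k => φ (SL2.lo s)) := by
  intro s t hst
  have hst' : φ (SL2.lo s) = φ (SL2.lo t) := hst
  have h1 : SL2.lo (s - t) ∈ φ.ker := by
    rw [MonoidHom.mem_ker, sub_eq_add_neg, ← SL2.lo_add, ← SL2.lo_inv, map_mul, map_inv, hst',
      mul_inv_cancel]
  have h2 := Subgroup.mem_center_iff.1 (hker h1) (SL2.up 1)
  have h3 := congrArg (fun g : SpecialLinearGroup (Fin 2) k => g 1 1) h2
  simp [SL2.mul_entry] at h3
  exact sub_eq_zero.1 h3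

theorem psl2_card {A₀ B₀ : Subgroup G} (hk : 3 < ENat.card k) (hp : IsPSL2PairOver k A₀ B₀) :
    3 < ENat.card A₀ ∧ 3 < ENat.card B₀ := by
  obtain ⟨φ, -, hker, hA, hB⟩ := hp
  constructor
  · refine lt_of_lt_of_le hk (ENat.card_le_card_of_injective
      (f := fun s : k => (⟨φ (SL2.up s), hA ▸ ⟨_, SL2.up_mem s, rfl⟩⟩ : A₀)) ?_)
    intro s t hst
    exact psl2_up_injective hker (congrArg Subtype.val hst)
  · refine lt_of_lt_of_le hk (ENat.card_le_card_of_injective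
      (f := fun s : k => (⟨φ (SL2.lo s), hB ▸ ⟨_, SL2.lo_mem s, rfl⟩⟩ : B₀)) ?_)
    intro s t hst
    exact psl2_lo_injective hker (congrArg Subtype.val hst)

theorem eq_of_card_of_not_triple {A₀ A : Subgroup G} (hcard : 3 < ENat.card A₀) (hle : A₀ ≤ A)
    (h : ¬ Triple A) : A₀ = A := by
  classical
  obtain ⟨F, hF, hAF⟩ := exists_finset_of_not_triple h
  apply le_antisymm hle
  intro x hx
  by_contra hx'
  obtain ⟨y, hy, hyF⟩ := Special.exists_not_mem_of_card hcard (F.erase x) (by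
    rw [Finset.card_erase_of_mem (hAF x hx)]; omega)
  rw [Finset.mem_erase, not_and] at hyF
  by_cases hyx : y = x
  · exact hx' (hyx ▸ hy)
  · exact hyF hyx (hAF y (hle hy))

theorem special_of_psl2 {A B : Subgroup G} (h : IsRankOnePair A B) (hp : IsPSL2PairOver k A B) :
    IsSpecialRankOnePair A B := by
  obtain ⟨φ, -, -, hA, hB⟩ := hp
  apply Special.symm
  refine ⟨RankOnePair_symm h, ?_⟩
  intro b hb hb1 a ha _ hab
  rw [← hB] at hb
  obtain ⟨l, hl, rfl⟩ := hb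
  obtain ⟨t, rfl⟩ := SL2.mem_lower_iff.1 hl
  have ht : t ≠ 0 := by
    rintro rfl
    apply hb1
    rw [SL2.lo_zero, map_one]
  have h1 := congrArg (Subgroup.map φ) (SL2.cond ht)
  rw [map_conjBy, map_conjBy, hA, hB, map_inv, map_inv] at h1
  have h2 : a⁻¹ = (φ (SL2.up t⁻¹))⁻¹ :=
    RankOne.eq_of_conjBy_eq h (inv_mem ha) (inv_mem (hA ▸ ⟨_, SL2.up_mem _, rfl⟩))
      (hab.trans h1.symm)
  have h3 : a = φ (SL2.up t⁻¹) := inv_injective h2
  rw [h3]
  have h4 := congrArg φ (SL2.special_eq ht)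
  simpa only [map_mul, map_inv] using h4

end PSL2

end Cfsg.Agent.Lib.Helper85
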