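import Cfsg.Agent.Lib.Helper85.RootSpecial

set_option autoImplicit false

namespace Cfsg.Agent.Lib.Helper85

open Cfsg

variable {G : Type*} [Group G]

namespace Root

variable {S : Set (Subgroup G)}

theorem E_reach_of_rankOne (hS : IsRootSubgroupSet S)
    (hF : ∀ A ∈ S, ∃ B ∈ S, IsRankOnePair A B)
    (hΨ : ∀ A ∈ S, ∃ E ∈ S, RootCommutatorCase S A E) {A B : Subgroup G} (hA : A ∈ S)
    (hB : B ∈ S) (hAB : IsRankOnePair A B) : Relation.ReflTransGen (EAdj S S) A B := by
  obtain ⟨E, -, hE⟩ := hΨ A hA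
  obtain ⟨P, hP, hPB⟩ := exists_line_commutator hS hF hA hB hAB hE
  have h1 : EAdj S S A P := ⟨hA, hP.1.1, hP⟩
  have h2 : EAdj S S P ⁅P, B⁆ := ⟨hP.1.1, hPB.1, commutator_mem_linePartners hS hF hP.1.1 hPB⟩
  have h3 : EAdj S S ⁅P, B⁆ B := by
    refine ⟨hPB.1, hB, ?_⟩
    have := CommCase.mem_linePartners hS (CommCase.symm hPB) hB hA (RankOnePair_symm hAB)
    rwa [Subgroup.commutator_comm] at this
  exact ((Relation.ReflTransGen.single h1).tail h2).tail h3

theorem E_connected (hS : IsRootSubgroupSet S) (hconj : IsConjClassOfSubgroups S)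
    (hF : ∀ A ∈ S, ∃ B ∈ S, IsRankOnePair A B)
    (hΨ : ∀ A ∈ S, ∃ E ∈ S, RootCommutatorCase S A E) : IsConnectedFamily (EAdj S S) S := by
  intro A hA B hB
  have hr := connected_of_conjClass hS hconj hF A hA B hB
  induction hr with
  | refl => exact Relation.ReflTransGen.refl
  | @tail b c _ hadj ih =>
    exact (ih hadj.1).trans (E_reach_of_rankOne hS hF hΨ hadj.1 hadj.2.1 hadj.2.2)

theorem D_connected_of_E (h : IsConnectedFamily (EAdj S S) S) :
    IsConnectedFamily (DAdj S) S := by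
  intro A hA B hB
  have hr := h A hA B hB
  induction hr with
  | refl => exact Relation.ReflTransGen.refl
  | @tail b c _ hadj ih =>
    exact (ih hadj.1).tail ⟨hadj.1, hadj.2.1, hadj.2.2.1.2.1.symm, hadj.2.2.1.2.2⟩

end Root

end Cfsg.Agent.Lib.Helper85
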