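import Cfsg.Agent.Lib.Helper85.RootLineThm

set_option autoImplicit false

namespace Cfsg.Agent.Lib.Helper85

open Cfsg

variable {G : Type*} [Group G]

namespace Root

variable {S : Set (Subgroup G)}

theorem linePartners_conj (hS : IsRootSubgroupSet S) (hF : ∀ A ∈ S, ∃ B ∈ S, IsRankOnePair A B)
    {A B : Subgroup G} (hB : B ∈ linePartners S A) (g : G) :
    conjBy B g ∈ linePartners S (conjBy A g) := by
  refine ⟨⟨hS.conj_mem B hB.1.1 g, fun he => hB.1.2.1 (conjBy_inj.1 he), ?_⟩, ?_, ?_, ?_⟩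
  · rw [← conjBy_commutator, hB.1.2.2, conjBy_bot]
  · exact fun C hC => hC.2
  · intro x hx hx1
    rw [← conjBy_sup, mem_conjBy] at hx
    obtain ⟨P, hP, hxP⟩ := hB.2.2.1 _ hx (by
      intro h1
      apply hx1
      have : x = g * (g⁻¹ * x * g) * g⁻¹ := by group
      rw [this, h1]; group)
    refine ⟨conjBy P g, ⟨hS.conj_mem P hP.1 g, ?_⟩, ?_⟩
    · rw [← conjBy_sup]; exact conjBy_mono hP.2 g
    · rw [mem_conjBy]; exact hxP
  · intro C hC D hD hne
    rw [eq_bot_iff]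
    intro x hx
    obtain ⟨h1, h2⟩ := Subgroup.mem_inf.1 hx
    rw [Subgroup.mem_bot]
    by_contra hx1
    exact hne (ti hS hF hC.1 hD.1 h1 h2 hx1)

/-- line partners of `A` are conjugate to `A` under `⟨Λ_A, B⟩` -/
theorem linePartner_conj_of_gen (hS : IsRootSubgroupSet S)
    (hF : ∀ A ∈ S, ∃ B ∈ S, IsRankOnePair A B) {A B C' : Subgroup G} (hA : A ∈ S) (hB : B ∈ S)
    (hAB : IsRankOnePair A B) (hC' : C' ∈ linePartners S A) :
    ∃ r ∈ (⨆ C ∈ linePartners S A, C) ⊔ B, C' = conjBy A r := by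
  obtain ⟨D, hD, G₁, hG, hDA, hDB, hspan, hback, hGD⟩ := line_structure hS hF hA hC' hB hAB
  have hDl : D ∈ linePartners S A := by
    refine ⟨⟨hD, hDA, ?_⟩, ?_⟩
    · rw [commutator_eq_bot_iff]
      intro a ha d hd
      exact line_comm hS hA hC' a (Subgroup.mem_sup_left ha) d
        (by rw [hspan]; exact Subgroup.mem_sup_right hd)
    · rw [← hspan]; exact hC'.2
  have hc2' : RootCommutatorCase S G₁ D := commutatorCase_of_mem hS hG hD (by rw [hGD]; exact hA)
  have hGl : G₁ ∈ linePartners S A := by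
    obtain ⟨T, hT, hGT⟩ := hF G₁ hG
    have := CommCase.mem_linePartners hS hc2' hG hT hGT
    rwa [hGD] at this
  have hle : ∀ C ∈ linePartners S A, C ≤ (⨆ C ∈ linePartners S A, C) ⊔ B := fun C hC =>
    le_trans (le_iSup₂_of_le C hC le_rfl) le_sup_left
  have hFle : ⁅D, B⁆ ≤ (⨆ C ∈ linePartners S A, C) ⊔ B :=
    (commutator_le_sup D B).trans (sup_le (hle D hDl) le_sup_right)
  obtain ⟨F, hFdef⟩ : ∃ F, F = ⁅D, B⁆ := ⟨_, rfl⟩
  have hFS : F ∈ S := hFdef ▸ hDB.1
  rw [← hFdef] at hback hFle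
  clear hDB hDl hc2'
  subst hback
  have hc1 : RootCommutatorCase S A F := commutatorCase_of_mem hS hA hFS hD
  have hc2 : RootCommutatorCase S G₁ ⁅A, F⁆ :=
    commutatorCase_of_mem hS hG hD (by rw [hGD]; exact hA)
  obtain ⟨x, hx, hx'⟩ := opp_point hS hF hA hFS hG hc1 hc2 hGD (P := C')
    ⟨hC'.1.1, by rw [← hspan]; exact le_sup_right⟩
  exact ⟨x, sup_le hFle (hle G₁ hGl) hx, hx'⟩

theorem gen_by_linePartners (hS : IsRootSubgroupSet S)
    (hF : ∀ A ∈ S, ∃ B ∈ S, IsRankOnePair A B) (hE : IsConnectedFamily (EAdj S S) S)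
    {A B : Subgroup G} (hA : A ∈ S) (hB : B ∈ S) (hAB : IsRankOnePair A B) :
    (⨆ C ∈ linePartners S A, C) ⊔ B = ⊤ := by
  set R := (⨆ C ∈ linePartners S A, C) ⊔ B with hR
  have key : ∀ T ∈ S, ∃ r ∈ R, T = conjBy A r := by
    intro T hT
    have hr := hE A hA T hT
    induction hr with
    | refl => exact ⟨1, one_mem _, (conjBy_one A).symm⟩
    | @tail b c _ hadj ih =>
      obtain ⟨r, hr, rfl⟩ := ih hadj.1
      have h1 := linePartners_conj hS hF hadj.2.2 r⁻¹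
      rw [conjBy_conjBy, inv_mul_cancel, conjBy_one] at h1
      obtain ⟨r', hr', he⟩ := linePartner_conj_of_gen hS hF hA hB hAB h1
      refine ⟨r * r', mul_mem hr hr', ?_⟩
      rw [← conjBy_conjBy, ← he, conjBy_conjBy, mul_inv_cancel, conjBy_one]
  have hAR : A ≤ R := by
    obtain ⟨r, hr, he⟩ := key B hB
    have h1 : A = conjBy B r⁻¹ := by
      rw [he, conjBy_conjBy, inv_mul_cancel, conjBy_one]
    rw [h1]
    exact conjBy_le_of_mem le_sup_right (inv_mem hr)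
  rw [eq_top_iff, ← hS.generates]
  refine iSup₂_le fun T hT => ?_
  obtain ⟨r, hr, rfl⟩ := key T hT
  exact conjBy_le_of_mem hAR hr

end Root

end Cfsg.Agent.Lib.Helper85
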