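import Cfsg.Agent.Lib.Helper85.RootGraph
import Cfsg.Agent.Lib.Helper85.SpecialDiag

set_option autoImplicit false

namespace Cfsg.Agent.Lib.Helper85

open Cfsg

variable {G : Type*} [Group G]

theorem isNilpotent_of_comm {H : Type*} [Group H] (h : IsMulCommutative H) :
    Group.IsNilpotent H := by
  let _ : CommGroup H := { (inferInstance : Group H) with mul_comm := h.is_comm.comm }
  infer_instance

theorem eq_top_of_sup_eq_top_of_perfect {N A : Subgroup G} (hN : N.Normal)
    (hA : Group.IsNilpotent A) (hsup : N ⊔ A = ⊤) (hp : Group.IsPerfect G) : N = ⊤ := by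
  have hsurj : Function.Surjective ((QuotientGroup.mk' N).comp A.subtype) := by
    intro q
    obtain ⟨x, rfl⟩ := QuotientGroup.mk'_surjective N q
    have hx : x ∈ N ⊔ A := by rw [hsup]; trivial
    rw [Subgroup.mem_sup_of_normal_left] at hx
    obtain ⟨n, hn, a, ha, rfl⟩ := hx
    refine ⟨⟨a, ha⟩, ?_⟩
    simp only [MonoidHom.comp_apply, Subgroup.subtype_apply, QuotientGroup.mk'_apply]
    rw [QuotientGroup.eq]
    have : a⁻¹ * (n * a) = a⁻¹ * n * a⁻¹⁻¹ := by group
    rw [this]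
    exact hN.conj_mem n hn a⁻¹
  have hnilq : Group.IsNilpotent (G ⧸ N) := Group.nilpotent_of_surjective _ hsurj
  have hsub : Subsingleton (G ⧸ N) := by
    by_contra hcon
    rw [not_subsingleton_iff_nontrivial] at hcon
    exact Group.IsPerfect.not_isNilpotent (G ⧸ N) hnilq
  exact QuotientGroup.subsingleton_iff.1 hsub

theorem commute_sup_sup {K : Type*} [Group K] {A C : Subgroup K}
    (hAA : ∀ a ∈ A, ∀ a' ∈ A, a * a' = a' * a) (hCC : ∀ c ∈ C, ∀ c' ∈ C, c * c' = c' * c)
    (hAC : ∀ a ∈ A, ∀ c ∈ C, a * c = c * a) : ∀ x ∈ A ⊔ C, ∀ y ∈ A ⊔ C, x * y = y * x := by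
  have h1 : ∀ a ∈ A, ∀ y ∈ A ⊔ C, a * y = y * a := fun a ha =>
    RankOne.commute_sup_of (hAA a ha) (hAC a ha)
  have h2 : ∀ c ∈ C, ∀ y ∈ A ⊔ C, c * y = y * c := fun c hc =>
    RankOne.commute_sup_of (fun a ha => (hAC a ha c hc).symm) (hCC c hc)
  intro x hx y hy
  exact (RankOne.commute_sup_of (fun a ha => (h1 a ha y hy).symm)
    (fun c hc => (h2 c hc y hy).symm) x hx).symm

theorem isQuasisimple_of_mulEquiv {H K : Type*} [Group H] [Group K] (e : H ≃* K)
    (h : IsQuasisimple H) : IsQuasisimple K := by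
  obtain ⟨hp, hsimp⟩ := h
  refine ⟨Group.IsPerfect.ofSurjective (f := e.toMonoidHom) e.surjective, ?_⟩
  have hmap : (Subgroup.center H).map e.toMonoidHom = Subgroup.center K := by
    ext y
    constructor
    · rintro ⟨x, hx, rfl⟩
      rw [Subgroup.mem_center_iff]
      intro k
      obtain ⟨k', rfl⟩ := e.surjective k
      have := Subgroup.mem_center_iff.1 hx k'
      change e k' * e x = e x * e k'
      rw [← map_mul, ← map_mul, this]
    · intro hy
      refine ⟨e.symm y, ?_, by simp⟩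
      change e.symm y ∈ Subgroup.center H
      rw [Subgroup.mem_center_iff]
      intro k
      have := Subgroup.mem_center_iff.1 hy (e k)
      apply e.injective
      rw [map_mul, map_mul, e.apply_symm_apply, this]
  exact (QuotientGroup.congr (Subgroup.center H) (Subgroup.center K) e hmap).symm.isSimpleGroup

namespace Root

variable {S : Set (Subgroup G)}

theorem partner_of_connected (h2 : ∃ A ∈ S, ∃ B ∈ S, A ≠ B)
    (h1 : IsConnectedFamily (FAdj S) S) : ∀ A ∈ S, ∃ B ∈ S, IsRankOnePair A B := by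
  intro A hA
  obtain ⟨A0, hA0, B0, hB0, hne⟩ := h2
  obtain ⟨X, hX, hXA⟩ : ∃ X ∈ S, X ≠ A := by
    by_cases h : A0 = A
    · exact ⟨B0, hB0, fun h' => hne (h.trans h'.symm)⟩
    · exact ⟨A0, hA0, h⟩
  obtain ⟨C, hC⟩ := exists_adj_of_reach_ne (h1 A hA X hX) hXA
  exact ⟨C, hC.2.1, hC.2.2⟩

theorem eq_top_of_forall_le (hS : IsRootSubgroupSet S) {N : Subgroup G}
    (h : ∀ A ∈ S, A ≤ N) : N = ⊤ := by
  rw [eq_top_iff, ← hS.generates]
  exact iSup₂_le h

theorem conjBy_le_normal {N F : Subgroup G} (hN : N.Normal) (hF : F ≤ N) (g : G) :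
    conjBy F g ≤ N := by
  intro x hx
  rw [mem_conjBy] at hx
  have := hN.conj_mem _ (hF hx) g
  have e : g * (g⁻¹ * x * g) * g⁻¹ = x := by group
  rwa [e] at this

theorem commutator_eq_top (hS : IsRootSubgroupSet S) (hconj : IsConjClassOfSubgroups S)
    (hF : ∀ A ∈ S, ∃ B ∈ S, IsRankOnePair A B)
    (h3 : IsDegenerateRootSet S → ∀ A ∈ S, 3 < ENat.card A)
    (h4 : ∀ A ∈ S, ∀ B ∈ rankOnePartners S A, IsSpecialRankOnePair A B) :
    commutator G = ⊤ := by
  apply eq_top_of_forall_le hS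
  by_cases hdeg : IsDegenerateRootSet S
  · intro A hA
    obtain ⟨B, hB, hAB⟩ := hF A hA
    refine (Special.le_commutator_of_card (h4 A hA B ⟨hB, hAB⟩)
      ⟨hS.commutative A hA, hS.commutative B hB⟩ (h3 hdeg A hA)).trans ?_
    rw [commutator_def]
    exact Subgroup.commutator_mono le_top le_top
  · unfold IsDegenerateRootSet at hdeg
    push Not at hdeg
    obtain ⟨A0, hA0, B0, hB0, hc⟩ := hdeg
    have hle : ⁅A0, B0⁆ ≤ commutator G := by
      rw [commutator_def]
      exact Subgroup.commutator_mono le_top le_top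
    intro A hA
    obtain ⟨g, rfl⟩ := hconj.2 _ hc.1 A hA
    exact conjBy_le_normal inferInstance hle g

theorem eq_top_of_inf_ne_bot (hS : IsRootSubgroupSet S) (hconn : IsConnectedFamily (FAdj S) S)
    (hperf : commutator G = ⊤) {N : Subgroup G} (hN : N.Normal) {F : Subgroup G} (hF : F ∈ S)
    (hFN : F ⊓ N ≠ ⊥) : N = ⊤ := by
  have hmeet : ∀ A ∈ S, ∃ a ∈ A, a ∈ N ∧ a ≠ 1 := by
    intro A hA
    obtain ⟨g, rfl⟩ := exists_conj_of_reach (hconn F hF A hA)
    obtain ⟨x, hx, hx1⟩ := exists_ne_one_of_ne_bot hFN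
    refine ⟨g * x * g⁻¹, conj_mem_conjBy hx.1 g, hN.conj_mem x hx.2 g, ?_⟩
    intro h
    apply hx1
    have : x = g⁻¹ * (g * x * g⁻¹) * g := by group
    rw [this, h]; group
  have hstep : ∀ A B : Subgroup G, FAdj S A B → A ≤ N ⊔ B := by
    intro A B hadj
    obtain ⟨a, ha, haN, ha1⟩ := hmeet A hadj.1
    obtain ⟨b, hb, -, he⟩ := hadj.2.2.cond_left a ha ha1
    have h1 : conjBy A b⁻¹ ≤ N ⊔ B := by
      rw [he]
      exact conjBy_le_of_mem le_sup_right (Subgroup.mem_sup_left (inv_mem haN))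
    have h2 := conjBy_le_of_mem h1 (Subgroup.mem_sup_right hb : b ∈ N ⊔ B)
    rwa [conjBy_conjBy, mul_inv_cancel, conjBy_one] at h2
  have hreach : ∀ A B : Subgroup G, Relation.ReflTransGen (FAdj S) A B → N ⊔ B ≤ N ⊔ A := by
    intro A B h
    induction h with
    | refl => exact le_rfl
    | tail _ hadj ih =>
      exact (sup_le le_sup_left (hstep _ _ (FAdj_symm hadj))).trans ih
  have hsup : N ⊔ F = ⊤ := by
    apply eq_top_of_forall_le hS
    intro B hB
    exact le_sup_right.trans (hreach F B (hconn F hF B hB))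
  exact eq_top_of_sup_eq_top_of_perfect hN (isNilpotent_of_comm (hS.commutative F hF)) hsup
    (Group.isPerfect_def.2 hperf)

theorem cm_iff {N : Subgroup G} [N.Normal] {x y : G} :
    x * y * x⁻¹ * y⁻¹ ∈ N ↔ (x : G ⧸ N) * (y : G ⧸ N) = (y : G ⧸ N) * (x : G ⧸ N) := by
  rw [← QuotientGroup.eq_one_iff]
  simp only [QuotientGroup.mk_mul, QuotientGroup.mk_inv]
  constructor
  · intro h
    have : (x : G ⧸ N) * y = ((x : G ⧸ N) * y * (x : G ⧸ N)⁻¹ * (y : G ⧸ N)⁻¹) * (y * x) := by
      group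
    rw [this, h, one_mul]
  · intro h
    rw [h]; group

theorem commutator_le_iff_cm {N A C : Subgroup G} [N.Normal] :
    ⁅A, C⁆ ≤ N ↔ ∀ a ∈ A, ∀ c ∈ C, (a : G ⧸ N) * (c : G ⧸ N) = (c : G ⧸ N) * (a : G ⧸ N) := by
  rw [Subgroup.commutator_le]
  constructor
  · intro h a ha c hc
    have := h a ha c hc
    rw [commutatorElement_def] at this
    exact cm_iff.1 this
  · intro h a ha c hc
    rw [commutatorElement_def]
    exact cm_iff.2 (h a ha c hc)

theorem cm_sup (hS : IsRootSubgroupSet S) {N A C : Subgroup G} [N.Normal] (hA : A ∈ S)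
    (hC : C ∈ S) (hle : ⁅A, C⁆ ≤ N) :
    ∀ x ∈ A ⊔ C, ∀ y ∈ A ⊔ C, (x : G ⧸ N) * (y : G ⧸ N) = (y : G ⧸ N) * (x : G ⧸ N) := by
  have hAC := commutator_le_iff_cm.1 hle
  have key := commute_sup_sup (A := A.map (QuotientGroup.mk' N)) (C := C.map (QuotientGroup.mk' N))
    (by
      rintro _ ⟨a, ha, rfl⟩ _ ⟨a', ha', rfl⟩
      rw [← map_mul, ← map_mul, comm_mem hS hA ha ha'])
    (by
      rintro _ ⟨a, ha, rfl⟩ _ ⟨a', ha', rfl⟩
      rw [← map_mul, ← map_mul, comm_mem hS hC ha ha'])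
    (by
      rintro _ ⟨a, ha, rfl⟩ _ ⟨c, hc, rfl⟩
      exact hAC a ha c hc)
  rw [← Subgroup.map_sup] at key
  intro x hx y hy
  exact key _ (Subgroup.mem_map_of_mem _ hx) _ (Subgroup.mem_map_of_mem _ hy)

/-- in a rank one pair commuting modulo `N`, the two members have the same image modulo `N` -/
theorem exists_cong_of_rankOne {N A C : Subgroup G} [N.Normal] (h : IsRankOnePair A C)
    (hX : ∀ x ∈ A ⊔ C, ∀ y ∈ A ⊔ C, (x : G ⧸ N) * (y : G ⧸ N) = (y : G ⧸ N) * (x : G ⧸ N))
    {c : G} (hc : c ∈ C) : ∃ a ∈ A, (c : G ⧸ N) = (a : G ⧸ N) := by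
  obtain ⟨a0, ha0, ha01⟩ := RankOne.exists_ne_one_left h
  obtain ⟨c0, hc0, -, he⟩ := h.cond_left a0 ha0 ha01
  have h1 : a0⁻¹ * c * a0⁻¹⁻¹ ∈ conjBy C a0⁻¹ := conj_mem_conjBy hc _
  rw [← he, mem_conjBy] at h1
  refine ⟨_, h1, ?_⟩
  have e1 := hX c0 (Subgroup.mem_sup_right hc0) (a0⁻¹ * c * a0⁻¹⁻¹)
    (mul_mem (mul_mem (Subgroup.mem_sup_left (inv_mem ha0)) (Subgroup.mem_sup_right hc))
      (Subgroup.mem_sup_left (inv_mem (inv_mem ha0))))
  have e2 := hX a0 (Subgroup.mem_sup_left ha0) c (Subgroup.mem_sup_right hc)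
  simp only [QuotientGroup.mk_mul, QuotientGroup.mk_inv, inv_inv] at e1 ⊢
  rw [e1]
  have : (c : G ⧸ N) = (a0 : G ⧸ N)⁻¹ * ((a0 : G ⧸ N) * c) := by group
  rw [e2] at this
  rw [mul_assoc (a0 : G ⧸ N)⁻¹, ← this]
  group

theorem exists_meet (hS : IsRootSubgroupSet S) (hconj : IsConjClassOfSubgroups S)
    (h3 : IsDegenerateRootSet S → ∀ A ∈ S, 3 < ENat.card A)
    (h4 : ∀ A ∈ S, ∀ B ∈ rankOnePartners S A, IsSpecialRankOnePair A B)
    {N : Subgroup G} [hN : N.Normal] {A C : Subgroup G} (hA : A ∈ S) (hC : C ∈ S)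
    (hne : ⁅A, C⁆ ≠ ⊥) (hle : ⁅A, C⁆ ≤ N) : ∃ F ∈ S, F ⊓ N ≠ ⊥ := by
  rcases hS.pair A hA C hC with h | h | hc
  · exact absurd h hne
  · have hX := cm_sup hS hA hC hle
    by_cases hdeg : IsDegenerateRootSet S
    · refine ⟨A, hA, ?_⟩
      have h1 : A ≤ N := by
        refine (Special.le_commutator_of_card (h4 A hA C ⟨hC, h⟩)
          ⟨hS.commutative A hA, hS.commutative C hC⟩ (h3 hdeg A hA)).trans ?_
        rw [commutator_le_iff_cm]
        intro a ha x hx
        exact hX a (Subgroup.mem_sup_left ha) x hx.1.1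
      rw [inf_eq_left.2 h1]
      exact hS.ne_bot A hA
    · unfold IsDegenerateRootSet at hdeg
      push Not at hdeg
      obtain ⟨A0, hA0, B0, hB0, hc0⟩ := hdeg
      obtain ⟨g, hg⟩ := hconj.2 A0 hA0 A hA
      have hE : conjBy B0 g ∈ S := hS.conj_mem B0 hB0 g
      have hFS : ⁅A, conjBy B0 g⁆ ∈ S := by
        rw [hg, ← conjBy_commutator]
        exact hS.conj_mem _ hc0.1 g
      have hc := commutatorCase_of_mem hS hA hE hFS
      set E := conjBy B0 g
      -- `⁅F, C⁆ ≤ N`
      have hFC : ⁅⁅A, E⁆, C⁆ ≤ N := by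
        rw [commutator_le_iff_cm]
        intro f hf c hc'
        obtain ⟨a, ha, hca⟩ := exists_cong_of_rankOne h hX hc'
        rw [hca, ← QuotientGroup.mk_mul, ← QuotientGroup.mk_mul, CommCase.comm_left hc ha hf]
      obtain ⟨f, hf, hf1⟩ := exists_ne_one_of_ne_bot (hS.ne_bot _ hFS)
      obtain ⟨d, hd, hfd⟩ := CommCase.not_centralizes_partner hS hc hA hC h hf hf1
      rcases hS.pair _ hFS C hC with h' | h' | h'
      · exact absurd (commutator_eq_bot_iff.1 h' f hf d hd) hfd
      · -- rank one pair `(F, C)`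
        have hX' := cm_sup hS hFS hC hFC
        obtain ⟨c, hc', hfc⟩ := exists_cong_of_rankOne (RankOnePair_symm h')
          (by rw [sup_comm]; exact hX') hf
        obtain ⟨a, ha, hca⟩ := exists_cong_of_rankOne h hX hc'
        have hmemN : a⁻¹ * f ∈ N := QuotientGroup.eq.1 (hfc.trans hca).symm
        have hne1 : a⁻¹ * f ≠ 1 := by
          intro h1
          have hfa : f = a := by
            have := inv_mul_eq_one.1 h1
            exact this.symm
          exact CommCase.ne_left hS hc (eq_of_mem_of_mem hS hC hFS h (hfa ▸ ha) hf hf1)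
        have hsup : a⁻¹ * f ∈ A ⊔ ⁅A, E⁆ :=
          mul_mem (Subgroup.mem_sup_left (inv_mem ha)) (Subgroup.mem_sup_right hf)
        rcases CommCase.cover hc hsup with hcov | ⟨e, -, hcov⟩
        · refine ⟨_, hFS, fun hbot => hne1 ?_⟩
          have : a⁻¹ * f ∈ ⁅A, E⁆ ⊓ N := ⟨hcov, hmemN⟩
          rw [hbot] at this
          simpa using this
        · refine ⟨_, hS.conj_mem A hA e, fun hbot => hne1 ?_⟩
          have : a⁻¹ * f ∈ conjBy A e ⊓ N := ⟨hcov, hmemN⟩
          rw [hbot] at this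
          simpa using this
      · refine ⟨_, h'.1, ?_⟩
        rw [inf_eq_left.2 hFC]
        exact hS.ne_bot _ h'.1
  · refine ⟨_, hc.1, ?_⟩
    rw [inf_eq_left.2 hle]
    exact hne

theorem normal_dichotomy (hS : IsRootSubgroupSet S) (h2 : ∃ A ∈ S, ∃ B ∈ S, A ≠ B)
    (h1 : IsConnectedFamily (FAdj S) S)
    (h2' : ∀ A ∈ S, ∀ C ∈ S, A ≠ C → centralizingMembers S A ≠ centralizingMembers S C)
    (h3 : IsDegenerateRootSet S → ∀ A ∈ S, 3 < ENat.card A)
    (h4 : ∀ A ∈ S, ∀ B ∈ rankOnePartners S A, IsSpecialRankOnePair A B)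
    {N : Subgroup G} (hN : N.Normal) : N ≤ Subgroup.center G ∨ N = ⊤ := by
  have hF := partner_of_connected h2 h1
  obtain ⟨A00, hA00, -⟩ := h2
  have hconj := conjClass_of_connected ⟨A00, hA00⟩ h1
  have hperf := commutator_eq_top hS hconj hF h3 h4
  by_cases hall : ∀ A ∈ S, ∀ n ∈ N, conjBy A n = A
  · left
    intro n hn
    apply mem_center_of_commutes hS
    intro A hA a ha
    obtain ⟨B, hB, hAB⟩ := hF A hA
    have hnA := conjBy_eq_self_iff.1 (hall A hA n hn)
    have m1 : n * a * n⁻¹ * a⁻¹ ∈ A :=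
      mul_mem ((Subgroup.mem_normalizer_iff.1 hnA a).1 ha) (inv_mem ha)
    have m2 : n * a * n⁻¹ * a⁻¹ ∈ N := by
      have := mul_mem hn (hN.conj_mem _ (inv_mem hn) a)
      simpa [mul_assoc] using this
    have m3 := RankOne.eq_one_of_normalizes hAB m1 (conjBy_eq_self_iff.1 (hall B hB _ m2))
    have e : n * a = (n * a * n⁻¹ * a⁻¹) * (a * n) := by group
    rw [e, m3, one_mul]
  · right
    push Not at hall
    obtain ⟨A, hA, n, hn, hne⟩ := hall
    have hqn : (n : G ⧸ N) = 1 := (QuotientGroup.eq_one_iff n).2 hn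
    have hA1 : conjBy A n ∈ S := hS.conj_mem A hA n
    obtain ⟨C, hC, hC1, hC2⟩ : ∃ C ∈ S, ⁅A, C⁆ ≠ ⊥ ∧ ⁅A, C⁆ ≤ N := by
      by_cases hc : ⁅A, conjBy A n⁆ = ⊥
      · have hcm := h2' A hA _ hA1 (Ne.symm hne)
        have hex : ∃ C, (C ∈ centralizingMembers S A ∧ C ∉ centralizingMembers S (conjBy A n)) ∨
            (C ∉ centralizingMembers S A ∧ C ∈ centralizingMembers S (conjBy A n)) := by
          by_contra hcon
          push Not at hcon
          apply hcm
          ext C
          constructor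
          · intro h
            exact (hcon C).1 h
          · intro h
            by_contra h'
            exact (hcon C).2 h' h
        obtain ⟨C, hC | hC⟩ := hex
        · -- `C` centralizes `A` but not its conjugate
          have hCS : C ∈ S := hC.1.1
          refine ⟨conjBy C n⁻¹, hS.conj_mem C hCS _, ?_, ?_⟩
          · intro hbot
            apply hC.2
            refine ⟨hCS, ?_⟩
            have h5 : conjBy ⁅A, conjBy C n⁻¹⁆ n = ⊥ := by rw [hbot, conjBy_bot]
            rw [conjBy_commutator, conjBy_conjBy, mul_inv_cancel, conjBy_one,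
              Subgroup.commutator_comm, Subgroup.commutator_eq_bot_iff_le_centralizer] at h5
            exact h5
          · rw [commutator_le_iff_cm]
            intro a ha x hx
            rw [mem_conjBy] at hx
            have hcomm : a * (n⁻¹⁻¹ * x * n⁻¹) = (n⁻¹⁻¹ * x * n⁻¹) * a :=
              Subgroup.mem_centralizer_iff.1 (hC.1.2 hx) a ha
            have h6 := congrArg (fun y : G => (y : G ⧸ N)) hcomm
            simp only [QuotientGroup.mk_mul, QuotientGroup.mk_inv, hqn, inv_one, one_mul,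
              mul_one] at h6
            exact h6
        · have hCS : C ∈ S := hC.2.1
          refine ⟨C, hCS, ?_, ?_⟩
          · intro hbot
            apply hC.1
            refine ⟨hCS, ?_⟩
            rw [Subgroup.commutator_comm, Subgroup.commutator_eq_bot_iff_le_centralizer] at hbot
            exact hbot
          · rw [commutator_le_iff_cm]
            intro a ha c hc'
            have hcomm : (n * a * n⁻¹) * c = c * (n * a * n⁻¹) :=
              Subgroup.mem_centralizer_iff.1 (hC.2.2 hc') _ (conj_mem_conjBy ha n)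
            have h6 := congrArg (fun y : G => (y : G ⧸ N)) hcomm
            simp only [QuotientGroup.mk_mul, QuotientGroup.mk_inv, hqn, inv_one, one_mul,
              mul_one] at h6
            exact h6
      · refine ⟨_, hA1, hc, ?_⟩
        rw [commutator_le_iff_cm]
        intro a ha x hx
        rw [mem_conjBy] at hx
        have hcomm : a * (n⁻¹ * x * n) = (n⁻¹ * x * n) * a := comm_mem hS hA ha hx
        have h6 := congrArg (fun y : G => (y : G ⧸ N)) hcomm
        simp only [QuotientGroup.mk_mul, QuotientGroup.mk_inv, hqn, inv_one, one_mul,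
          mul_one] at h6
        exact h6
    obtain ⟨F, hFS, hFN⟩ := exists_meet hS hconj h3 h4 hA hC hC1 hC2
    exact eq_top_of_inf_ne_bot hS h1 hperf hN hFS hFN

theorem isQuasisimple (hS : IsRootSubgroupSet S) (h2 : ∃ A ∈ S, ∃ B ∈ S, A ≠ B)
    (h1 : IsConnectedFamily (FAdj S) S)
    (h2' : ∀ A ∈ S, ∀ C ∈ S, A ≠ C → centralizingMembers S A ≠ centralizingMembers S C)
    (h3 : IsDegenerateRootSet S → ∀ A ∈ S, 3 < ENat.card A)
    (h4 : ∀ A ∈ S, ∀ B ∈ rankOnePartners S A, IsSpecialRankOnePair A B) :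
    commutator G = ⊤ ∧ IsQuasisimple G := by
  have hF := partner_of_connected h2 h1
  obtain ⟨A00, hA00, -⟩ := id h2
  have hconj := conjClass_of_connected ⟨A00, hA00⟩ h1
  have hperf := commutator_eq_top hS hconj hF h3 h4
  refine ⟨hperf, Group.isPerfect_def.2 hperf, ?_⟩
  have hcne : Subgroup.center G ≠ ⊤ := by
    intro hc
    obtain ⟨B, hB, hAB⟩ := hF A00 hA00
    apply RankOne.commutator_ne_bot hAB
    rw [commutator_eq_bot_iff]
    intro a _ b _
    have : a ∈ Subgroup.center G := by rw [hc]; trivial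
    exact (Subgroup.mem_center_iff.1 this b).symm
  have hnt : Nontrivial (G ⧸ Subgroup.center G) := by
    by_contra hcon
    rw [not_nontrivial_iff_subsingleton] at hcon
    exact hcne (QuotientGroup.subsingleton_iff.1 hcon)
  refine { exists_pair_ne := hnt.exists_pair_ne, eq_bot_or_eq_top_of_normal := ?_ }
  intro H hH
  have hHN : H = (H.comap (QuotientGroup.mk' (Subgroup.center G))).map
      (QuotientGroup.mk' (Subgroup.center G)) := by
    rw [Subgroup.map_comap_eq_self_of_surjective (QuotientGroup.mk'_surjective _)]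
  rcases normal_dichotomy hS h2 h1 h2' h3 h4 (hH.comap (QuotientGroup.mk' (Subgroup.center G)))
    with h | h
  · left
    rw [hHN, eq_bot_iff]
    rintro _ ⟨n, hn, rfl⟩
    rw [Subgroup.mem_bot]
    exact (QuotientGroup.eq_one_iff n).2 (h hn)
  · right
    rw [hHN, h, Subgroup.map_top_of_surjective _ (QuotientGroup.mk'_surjective _)]

end Root

end Cfsg.Agent.Lib.Helper85
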