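import Cfsg.Agent.Lib.Helper85.RootOpp
import Cfsg.Agent.Lib.Helper85.RootSimple

set_option autoImplicit false

namespace Cfsg.Agent.Lib.Helper85

open Cfsg

variable {G : Type*} [Group G]

theorem commute_conjBy {A Q : Subgroup G} (h : ∀ a ∈ A, ∀ q ∈ Q, a * q = q * a) (g : G) :
    ∀ x ∈ conjBy A g, ∀ y ∈ conjBy Q g, x * y = y * x := by
  intro x hx y hy
  rw [mem_conjBy] at hx hy
  have := h _ hx _ hy
  have e : x * y = g * ((g⁻¹ * x * g) * (g⁻¹ * y * g)) * g⁻¹ := by group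
  rw [e, this]; group

namespace Root

variable {S : Set (Subgroup G)}

/-- trivial intersection property, when every member has a rank one partner -/
theorem ti (hS : IsRootSubgroupSet S) (hF : ∀ A ∈ S, ∃ B ∈ S, IsRankOnePair A B)
    {A C : Subgroup G} (hA : A ∈ S) (hC : C ∈ S) {x : G} (hxA : x ∈ A) (hxC : x ∈ C)
    (hx1 : x ≠ 1) : A = C := by
  obtain ⟨B, hB, h⟩ := hF A hA
  exact eq_of_mem_of_mem hS hB hC h hxA hxC hx1

theorem hyper_exists {A Q C : Subgroup G} (hAQ : ∀ a ∈ A, ∀ q ∈ Q, a * q = q * a)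
    (hAC : IsRankOnePair A C) (hQC : IsRankOnePair Q C) {q : G} (hq : q ∈ Q) (hq1 : q ≠ 1) :
    ∃ a ∈ A, a ≠ 1 ∧ ∀ x ∈ conjBy C (a * q), ∀ y ∈ C, x * y = y * x := by
  obtain ⟨c, hc, hc1, hQc⟩ := hQC.cond_left q⁻¹ (inv_mem hq) (by simpa using hq1)
  rw [inv_inv] at hQc
  obtain ⟨a, ha, ha1, hCa⟩ := hAC.cond_right c hc hc1
  refine ⟨a, ha, ha1, ?_⟩
  have h1 := commute_conjBy hAQ c⁻¹
  rw [← hCa, hQc] at h1
  have h2 := commute_conjBy h1 a
  rw [conjBy_conjBy, conjBy_conjBy, mul_inv_cancel, conjBy_one] at h2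
  intro x hx y hy
  exact (h2 y hy x hx).symm

theorem not_rankOne_of_conj_commute {P C : Subgroup G} {n : G} (hn : n ∈ P) (hn1 : n ≠ 1)
    (h : ∀ x ∈ conjBy C n, ∀ y ∈ C, x * y = y * x) : ¬ IsRankOnePair P C := by
  intro hr
  apply RankOne.conj_not_le_normalizer hr hn hn1
  refine le_trans ?_ (Subgroup.centralizer_le_normalizer _)
  intro x hx
  rw [Subgroup.mem_centralizer_iff]
  intro y hy
  exact (h x hx y hy).symm

theorem not_root_of_commute (hS : IsRootSubgroupSet S) {A C : Subgroup G} (hA : A ∈ S)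
    (hC : C ∈ S) (h : IsRankOnePair A C) {z a : G} (hzA : ∀ x ∈ A, z * x = x * z)
    (hzC : ∀ x ∈ C, z * x = x * z) (hz1 : z ≠ 1) (ha : a ∈ A) (ha1 : a ≠ 1) :
    z * a ∉ rootElements S := by
  apply central_translate hS hA hC h _ hz1 ha ha1
  rw [Subgroup.mem_centralizer_iff]
  intro x hx
  exact (RankOne.commute_sup_of hzA hzC x hx).symm

/-- `(A, C)` a rank one pair, `D` commuting with `A`, `⁅D, C⁆ ∈ S`, products of elements of `A`
and `D` root elements: then `⁅A, ⁅D, C⁆⁆ = D`. -/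
theorem comm_back (hS : IsRootSubgroupSet S) (hF : ∀ A ∈ S, ∃ B ∈ S, IsRankOnePair A B)
    {A C D : Subgroup G} (hA : A ∈ S) (hC : C ∈ S) (hD : D ∈ S) (hAC : IsRankOnePair A C)
    (hAD : ∀ a ∈ A, ∀ d ∈ D, a * d = d * a) (hc : RootCommutatorCase S D C)
    (hroot : ∀ a ∈ A, a ≠ 1 → ∀ d ∈ D, d ≠ 1 → d * a ∈ rootElements S) :
    ⁅A, ⁅D, C⁆⁆ = D := by
  obtain ⟨a, ha, ha1⟩ := RankOne.exists_ne_one_left hAC
  obtain ⟨c, hc', hc1, hAc⟩ := hAC.cond_left a ha ha1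
  obtain ⟨d, hd, hd1⟩ := exists_ne_one_of_ne_bot (hS.ne_bot D hD)
  have hstar : ∀ d ∈ D, ∀ y ∈ C, (a * (c⁻¹ * d * c) * a⁻¹) * y = y * (a * (c⁻¹ * d * c) * a⁻¹) := by
    intro d hd y hy
    have h1 : a⁻¹ * y * a⁻¹⁻¹ ∈ conjBy C a⁻¹ := conj_mem_conjBy hy a⁻¹
    rw [← hAc, mem_conjBy] at h1
    have h2 := hAD _ h1 d hd
    calc (a * (c⁻¹ * d * c) * a⁻¹) * y
        = a * c⁻¹ * (d * (c⁻¹⁻¹ * (a⁻¹ * y * a⁻¹⁻¹) * c⁻¹)) * c * a⁻¹ := by group
      _ = a * c⁻¹ * ((c⁻¹⁻¹ * (a⁻¹ * y * a⁻¹⁻¹) * c⁻¹) * d) * c * a⁻¹ := by rw [h2]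
      _ = _ := by group
  have hφ : ∀ d ∈ D, d⁻¹ * c⁻¹ * d * c ∈ ⁅D, C⁆ := by
    intro d hd
    have := commElem_mem (inv_mem hd) (inv_mem hc')
    simpa using this
  have hφC : ∀ d ∈ D, ∀ y ∈ C, (d⁻¹ * c⁻¹ * d * c) * y = y * (d⁻¹ * c⁻¹ * d * c) :=
    fun d hd y hy => (CommCase.comm_right hc hy (hφ d hd)).symm
  rcases hS.pair A hA _ hc.1 with h | h | h
  · exfalso
    obtain ⟨y, hy, hne⟩ := CommCase.exists_not_commute_right hS hc hd hd1
    apply hne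
    have h1 := commutator_eq_bot_iff.1 h a ha _ (hφ d hd)
    have e : a * (c⁻¹ * d * c) * a⁻¹ = d * (d⁻¹ * c⁻¹ * d * c) := by
      calc a * (c⁻¹ * d * c) * a⁻¹ = (a * d) * (d⁻¹ * c⁻¹ * d * c) * a⁻¹ := by group
        _ = d * (a * (d⁻¹ * c⁻¹ * d * c)) * a⁻¹ := by rw [hAD a ha d hd]; group
        _ = _ := by rw [h1]; group
    have h2 : Commute (d * (d⁻¹ * c⁻¹ * d * c)) y := by rw [← e]; exact hstar d hd y hy
    have h3 : Commute (d⁻¹ * c⁻¹ * d * c) y := hφC d hd y hy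
    have h4 := h2.mul_left h3.inv_left
    have e2 : d * (d⁻¹ * c⁻¹ * d * c) * (d⁻¹ * c⁻¹ * d * c)⁻¹ = d := by group
    rw [e2] at h4
    exact h4.eq
  · exfalso
    have hφ1 : d⁻¹ * c⁻¹ * d * c ≠ 1 := by
      intro h1
      apply CommCase.not_commute hS (CommCase.symm hc) hC hA (RankOnePair_symm hAC) hc' hc1 hd hd1
      have : d * c = c * d * (d⁻¹ * c⁻¹ * d * c) := by group
      rw [this, h1, mul_one]
    apply not_root_of_commute hS hc.1 hA (RankOnePair_symm h) (z := d)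
      (fun x hx => CommCase.comm_left hc hd hx) (fun x hx => (hAD x hx d hd).symm) hd1
      (hφ d hd) hφ1
    have e : d * (d⁻¹ * c⁻¹ * d * c) = c⁻¹ * d * c⁻¹⁻¹ := by group
    rw [e]
    refine ⟨?_, _, hS.conj_mem D hD c⁻¹, conj_mem_conjBy hd c⁻¹⟩
    intro h1
    apply hd1
    have : d = c⁻¹⁻¹ * (c⁻¹ * d * c⁻¹⁻¹) * c⁻¹ := by group
    rw [this, h1]; group
  · set φ := d⁻¹ * c⁻¹ * d * c with hφdef
    have hψ : a * φ * a⁻¹ * φ⁻¹ ∈ ⁅A, ⁅D, C⁆⁆ := commElem_mem ha (hφ d hd)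
    set ψ := a * φ * a⁻¹ * φ⁻¹ with hψdef
    have e : a * (c⁻¹ * d * c) * a⁻¹ = d * ψ * φ := by
      calc a * (c⁻¹ * d * c) * a⁻¹ = (a * d) * (d⁻¹ * c⁻¹ * d * c) * a⁻¹ := by group
        _ = d * (a * φ * a⁻¹ * φ⁻¹) * φ := by rw [hAD a ha d hd, ← hφdef]; group
    have hzC : ∀ y ∈ C, (d * ψ) * y = y * (d * ψ) := by
      intro y hy
      have h2 : Commute (d * ψ * φ) y := by rw [← e]; exact hstar d hd y hy
      have h3 : Commute φ y := hφC d hd y hy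
      have h4 := h2.mul_left h3.inv_left
      have e2 : d * ψ * φ * φ⁻¹ = d * ψ := by group
      rw [e2] at h4
      exact h4.eq
    have hzA : ∀ y ∈ A, (d * ψ) * y = y * (d * ψ) := by
      intro y hy
      have h2 : Commute d y := (hAD y hy d hd).symm
      have h3 : Commute ψ y := (CommCase.comm_left h hy hψ).symm
      exact (h2.mul_left h3).eq
    have hz : d * ψ = 1 := by
      by_contra hz1
      apply not_root_of_commute hS hA hC hAC hzA hzC hz1 ha ha1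
      obtain ⟨f₀, hf₀, he⟩ := CommCase.exists_conj h ha ha1 hψ
      obtain ⟨hne, P, hP, hmem⟩ := hroot a ha ha1 d hd hd1
      have e3 : d * ψ * a = f₀ * (d * a) * f₀⁻¹ := by
        rw [mul_assoc, he, ← mul_assoc, ← mul_assoc, CommCase.comm_left hc hd hf₀]; group
      rw [e3]
      refine ⟨?_, _, hS.conj_mem P hP f₀, conj_mem_conjBy hmem f₀⟩
      intro h1
      apply hne
      have : d * a = f₀⁻¹ * (f₀ * (d * a) * f₀⁻¹) * f₀ := by group
      rw [this, h1]; group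
    have hdmem : d ∈ ⁅A, ⁅D, C⁆⁆ := by
      have : d = ψ⁻¹ := eq_inv_of_mul_eq_one_left hz
      rw [this]; exact inv_mem hψ
    exact (ti hS hF hD h.1 hd hdmem hd1).symm

theorem linePartners_symm {A B : Subgroup G} (hA : A ∈ S) (hB : B ∈ linePartners S A) :
    A ∈ linePartners S B := by
  obtain ⟨⟨_, hne, hcomm⟩, hpart⟩ := hB
  refine ⟨⟨hA, hne.symm, ?_⟩, ?_⟩
  · rw [Subgroup.commutator_comm]; exact hcomm
  · rw [sup_comm]; exact hpart

theorem line_comm (hS : IsRootSubgroupSet S) {A B : Subgroup G} (hA : A ∈ S)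
    (hB : B ∈ linePartners S A) : ∀ x ∈ A ⊔ B, ∀ y ∈ A ⊔ B, x * y = y * x :=
  commute_sup_sup (fun _ h _ h' => comm_mem hS hA h h') (fun _ h _ h' => comm_mem hS hB.1.1 h h')
    (commutator_eq_bot_iff.1 hB.1.2.2)

theorem line_root {A B : Subgroup G} (hB : B ∈ linePartners S A) {x : G} (hx : x ∈ A ⊔ B)
    (hx1 : x ≠ 1) : x ∈ rootElements S := by
  obtain ⟨P, hP, hxP⟩ := hB.2.2.1 x hx hx1
  exact ⟨hx1, P, hP.1, hxP⟩

/-- a point of a line through `A` other than `A` does not centralize a rank one partner of `A` -/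
theorem line_not_commute (hS : IsRootSubgroupSet S) (hF : ∀ A ∈ S, ∃ B ∈ S, IsRankOnePair A B)
    {A B C P : Subgroup G} (hA : A ∈ S) (hB : B ∈ linePartners S A) (hC : C ∈ S)
    (hAC : IsRankOnePair A C) (hP : P ∈ membersIn S (A ⊔ B)) (hPA : P ≠ A) : ⁅P, C⁆ ≠ ⊥ := by
  intro hcomm
  obtain ⟨p, hp, hp1⟩ := exists_ne_one_of_ne_bot (hS.ne_bot P hP.1)
  obtain ⟨a, ha, ha1⟩ := RankOne.exists_ne_one_left hAC
  apply not_root_of_commute hS hA hC hAC (z := p)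
    (fun x hx => line_comm hS hA hB p (hP.2 hp) x (Subgroup.mem_sup_left hx))
    (commutator_eq_bot_iff.1 hcomm p hp) hp1 ha ha1
  apply line_root hB (mul_mem (hP.2 hp) (Subgroup.mem_sup_left ha))
  intro h1
  apply hPA
  have hpA : p ∈ A := by
    have : p = a⁻¹ := eq_inv_of_mul_eq_one_left h1
    rw [this]; exact inv_mem ha
  exact ti hS hF hP.1 hA hp hpA hp1

/-- every line through `A` has a point in the commutator case with a given rank one partner -/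
theorem exists_special_point (hS : IsRootSubgroupSet S)
    (hF : ∀ A ∈ S, ∃ B ∈ S, IsRankOnePair A B) {A B C : Subgroup G} (hA : A ∈ S)
    (hB : B ∈ linePartners S A) (hC : C ∈ S) (hAC : IsRankOnePair A C) :
    ∃ D ∈ membersIn S (A ⊔ B), D ≠ A ∧ RootCommutatorCase S D C := by
  have hBm : B ∈ membersIn S (A ⊔ B) := ⟨hB.1.1, le_sup_right⟩
  rcases hS.pair B hB.1.1 C hC with h | h | h
  · exact absurd h (line_not_commute hS hF hA hB hC hAC hBm hB.1.2.1)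
  · obtain ⟨b, hb, hb1⟩ := RankOne.exists_ne_one_left h
    obtain ⟨a, ha, ha1, hcomm⟩ := hyper_exists (commutator_eq_bot_iff.1 hB.1.2.2) hAC h hb hb1
    have hn : a * b ∈ A ⊔ B := mul_mem (Subgroup.mem_sup_left ha) (Subgroup.mem_sup_right hb)
    have hnA : a * b ∉ A := by
      intro hmem
      have hbA : b ∈ A := by
        have := mul_mem (inv_mem ha) hmem
        simpa using this
      exact hB.1.2.1 (ti hS hF hB.1.1 hA hb hbA hb1)
    have hn1 : a * b ≠ 1 := fun h1 => hnA (h1 ▸ one_mem A)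
    obtain ⟨D, hD, hnD⟩ := hB.2.2.1 _ hn hn1
    have hDA : D ≠ A := fun he => hnA (he ▸ hnD)
    refine ⟨D, hD, hDA, ?_⟩
    rcases hS.pair D hD.1 C hC with h' | h' | h'
    · exact absurd h' (line_not_commute hS hF hA hB hC hAC hD hDA)
    · exact absurd h' (not_rankOne_of_conj_commute hnD hn1 hcomm)
    · exact h'
  · exact ⟨B, hBm, hB.1.2.1, h⟩

/-- two points span the line `A ⊔ ⁅A, E⁆` -/
theorem line_eq (hS : IsRootSubgroupSet S) (hF : ∀ A ∈ S, ∃ B ∈ S, IsRankOnePair A B)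
    {A E P : Subgroup G} (hA : A ∈ S) (hc : RootCommutatorCase S A E)
    (hP : P ∈ membersIn S (A ⊔ ⁅A, E⁆)) (hPA : P ≠ A) : A ⊔ P = A ⊔ ⁅A, E⁆ := by
  obtain ⟨D, hD, hAD⟩ := hF A hA
  apply le_antisymm (sup_le le_sup_left hP.2)
  refine sup_le le_sup_left ?_
  have hP' := hP
  rw [CommCase.membersIn_eq hS hc hA hD hAD] at hP'
  rcases hP' with ⟨e, he, rfl⟩ | hP'
  · have he1 : e ≠ 1 := by
      rintro rfl
      exact hPA (conjBy_one A)
    rw [← hc.2.2.2 e he he1, Subgroup.closure_le]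
    rintro _ ⟨a, ha, rfl⟩
    have h1 : e * a⁻¹ * e⁻¹ ∈ conjBy A e := conj_mem_conjBy (inv_mem ha) e
    have := mul_mem (Subgroup.mem_sup_left (T := conjBy A e) ha) (Subgroup.mem_sup_right h1)
    simpa [mul_assoc] using this
  · rw [Set.mem_singleton_iff] at hP'
    rw [hP']; exact le_sup_right

end Root

end Cfsg.Agent.Lib.Helper85
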