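import Cfsg.Agent.Lib.Helper85.RootLineThm

set_option autoImplicit false

namespace Cfsg.Agent.Lib.Helper85

open Cfsg

variable {G : Type*} [Group G]

namespace Root

variable {S : Set (Subgroup G)}

theorem inc_conj {R : Subgroup G → Subgroup G → Prop}
    (hR : ∀ T T' g, R T T' → R (conjBy T g) (conjBy T' g)) {T₁ T₂ : Subgroup G}
    (h : ∀ T', R T₁ T' → R T₂ T') (g : G) : ∀ T', R (conjBy T₁ g) T' → R (conjBy T₂ g) T' := by
  intro T' hT'
  have h1 := hR _ _ g⁻¹ hT'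
  rw [conjBy_conjBy, inv_mul_cancel, conjBy_one] at h1
  have h2 := hR _ _ g (h _ h1)
  rwa [conjBy_conjBy, mul_inv_cancel, conjBy_one] at h2

/-- an inclusion between conjugation-equivariant families attached to two commuting members with
a common rank one partner is an equality -/
theorem inc_symm {R : Subgroup G → Subgroup G → Prop}
    (hR : ∀ T T' g, R T T' → R (conjBy T g) (conjBy T' g)) {A B C : Subgroup G}
    (hAC : ∀ a ∈ A, ∀ c ∈ C, a * c = c * a) (hAB : IsRankOnePair A B) (hCB : IsRankOnePair C B)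
    (hnon : ∀ c ∈ C, c ≠ 1 → ¬ (∀ T', R B T' → R (conjBy B c) T'))
    (hinc : ∀ T', R A T' → R C T') : ∀ T', R C T' → R A T' := by
  obtain ⟨b, hb, hb1⟩ := RankOne.exists_ne_one_right hAB
  obtain ⟨a, ha, ha1, hBa⟩ := hAB.cond_right b hb hb1
  obtain ⟨c, hc, hc1, hBc⟩ := hCB.cond_right b hb hb1
  obtain ⟨b', hb', hb'1, hAb'⟩ := hAB.cond_left a⁻¹ (inv_mem ha) (by simpa using ha1)
  obtain ⟨c', hc', hc'1, hBc'⟩ := hCB.cond_right b' hb' hb'1
  rw [inv_inv] at hAb'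
  -- first inclusion
  have i1 : ∀ T', R B T' → R (conjBy B (a * c⁻¹)) T' := by
    have h1 := inc_conj hR hinc b⁻¹
    rw [← hBa, ← hBc] at h1
    have h2 := inc_conj hR h1 a
    rwa [conjBy_conjBy, conjBy_conjBy, mul_inv_cancel, conjBy_one] at h2
  have i2 : ∀ T', R B T' → R (conjBy B (a⁻¹ * c'⁻¹)) T' := by
    have h1 := inc_conj hR hinc b'⁻¹
    rw [hAb', ← hBc'] at h1
    have h2 := inc_conj hR h1 a⁻¹
    rwa [conjBy_conjBy, conjBy_conjBy, inv_mul_cancel, conjBy_one] at h2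
  have i3 : ∀ T', R B T' → R (conjBy B (c⁻¹ * c'⁻¹)) T' := by
    intro T' hT'
    have h1 := inc_conj hR i2 (a * c⁻¹) T' (i1 T' hT')
    rw [conjBy_conjBy] at h1
    have e : a * c⁻¹ * (a⁻¹ * c'⁻¹) = c⁻¹ * c'⁻¹ := by
      rw [hAC a ha _ (inv_mem hc)]; group
    rwa [e] at h1
  have hcc : c⁻¹ * c'⁻¹ = 1 := by
    by_contra hne
    exact hnon _ (mul_mem (inv_mem hc) (inv_mem hc')) hne i3
  have hc'e : c'⁻¹ = c := by
    have := eq_inv_of_mul_eq_one_right hcc
    rwa [inv_inv] at this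
  rw [hc'e] at i2
  -- reverse the inclusion
  have j1 := inc_conj hR i2 (a * c⁻¹)
  rw [conjBy_conjBy] at j1
  have e : a * c⁻¹ * (a⁻¹ * c) = 1 := by
    rw [hAC a ha _ (inv_mem hc)]; group
  rw [e, conjBy_one] at j1
  have j2 := inc_conj hR j1 a⁻¹
  rw [conjBy_conjBy] at j2
  have e2 : a⁻¹ * (a * c⁻¹) = c⁻¹ := by group
  rw [e2, hBc, hBa] at j2
  have j3 := inc_conj hR j2 b
  rwa [conjBy_conjBy, conjBy_conjBy, mul_inv_cancel, conjBy_one, conjBy_one] at j3

theorem not_commCase_of_central (hS : IsRootSubgroupSet S) {A B C : Subgroup G}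
    (hCB : IsRankOnePair C B) (hAC : ∀ a ∈ A, ∀ c ∈ C, a * c = c * a)
    (hc : RootCommutatorCase S A B) (hFC : ∀ f ∈ ⁅A, B⁆, ∀ c ∈ C, f * c = c * f) : False := by
  obtain ⟨c, hc', hc1⟩ := RankOne.exists_ne_one_left hCB
  obtain ⟨b, hb, -, hCb⟩ := hCB.cond_left c hc' hc1
  apply hS.ne_bot _ hc.1
  rw [commutator_eq_bot_iff]
  intro a ha y hy
  have h1 : c⁻¹ * y * c⁻¹⁻¹ ∈ conjBy B c⁻¹ := conj_mem_conjBy hy c⁻¹
  rw [← hCb, mem_conjBy] at h1
  have h2 := hAC a ha _ h1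
  have hf : a⁻¹ * b⁻¹ * a * b ∈ ⁅A, B⁆ := by
    have := commElem_mem (inv_mem ha) (inv_mem hb)
    simpa using this
  have h3 : (c * (b⁻¹ * a * b) * c⁻¹) * y = y * (c * (b⁻¹ * a * b) * c⁻¹) := by
    calc (c * (b⁻¹ * a * b) * c⁻¹) * y
        = c * b⁻¹ * (a * (b⁻¹⁻¹ * (c⁻¹ * y * c⁻¹⁻¹) * b⁻¹)) * b * c⁻¹ := by group
      _ = c * b⁻¹ * ((b⁻¹⁻¹ * (c⁻¹ * y * c⁻¹⁻¹) * b⁻¹) * a) * b * c⁻¹ := by rw [h2]
      _ = _ := by group
  have e : c * (b⁻¹ * a * b) * c⁻¹ = a * (a⁻¹ * b⁻¹ * a * b) := by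
    calc c * (b⁻¹ * a * b) * c⁻¹ = (c * a) * (a⁻¹ * b⁻¹ * a * b) * c⁻¹ := by group
      _ = a * (c * (a⁻¹ * b⁻¹ * a * b)) * c⁻¹ := by rw [← hAC a ha c hc']; group
      _ = _ := by rw [← hFC _ hf c hc']; group
  rw [e] at h3
  have k1 : Commute (a * (a⁻¹ * b⁻¹ * a * b)) y := h3
  have k2 : Commute (a⁻¹ * b⁻¹ * a * b) y := (CommCase.comm_right hc hy hf).symm
  have k3 := k1.mul_left k2.inv_left
  have e2 : a * (a⁻¹ * b⁻¹ * a * b) * (a⁻¹ * b⁻¹ * a * b)⁻¹ = a := by group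
  rw [e2] at k3
  exact k3.eq

theorem exists_rankOne_of_ne (hS : IsRootSubgroupSet S) (hconj : IsConjClassOfSubgroups S)
    (hdeg : IsDegenerateRootSet S) {A C : Subgroup G} (hA : A ∈ S) (hC : C ∈ S) (hAC : A ≠ C) :
    ∃ A₀ ∈ S, ∃ B₀ ∈ S, IsRankOnePair A₀ B₀ := by
  by_contra hcon
  push Not at hcon
  apply hAC
  obtain ⟨g, rfl⟩ := hconj.2 A hA C hC
  symm
  apply conjBy_eq_of_commute
  intro a ha
  have : a ∈ Subgroup.center G := by
    apply mem_center_of_commutes hS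
    intro T hT t ht
    rcases hS.pair A hA T hT with h | h | h
    · exact commutator_eq_bot_iff.1 h a ha t ht
    · exact absurd h (hcon A hA T hT)
    · exact absurd h (hdeg A hA T hT)
  exact (Subgroup.mem_center_iff.1 this g)

theorem centralizingMembers_eq (hS : IsRootSubgroupSet S)
    (hF : ∀ A ∈ S, ∃ B ∈ S, IsRankOnePair A B) {A C : Subgroup G} (hA : A ∈ S) (hC : C ∈ S)
    (hsub : centralizingMembers S A ⊆ centralizingMembers S C) :
    centralizingMembers S A = centralizingMembers S C := by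
  have mem_iff : ∀ T T' : Subgroup G, T' ∈ centralizingMembers S T ↔
      T' ∈ S ∧ ∀ t ∈ T, ∀ t' ∈ T', t * t' = t' * t := by
    intro T T'
    constructor
    · rintro ⟨h1, h2⟩
      exact ⟨h1, fun t ht t' ht' => Subgroup.mem_centralizer_iff.1 (h2 ht') t ht⟩
    · rintro ⟨h1, h2⟩
      exact ⟨h1, fun t' ht' => Subgroup.mem_centralizer_iff.2 (fun t ht => h2 t ht t' ht')⟩
  have hAC : ∀ a ∈ A, ∀ c ∈ C, a * c = c * a := by
    have h1 : A ∈ centralizingMembers S A :=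
      (mem_iff A A).2 ⟨hA, fun _ h _ h' => comm_mem hS hA h h'⟩
    have h2 := ((mem_iff C A).1 (hsub h1)).2
    exact fun a ha c hc => (h2 c hc a ha).symm
  obtain ⟨B, hB, hCB⟩ := hF C hC
  have hAB : IsRankOnePair A B := by
    rcases hS.pair A hA B hB with h | h | h
    · exfalso
      have h1 : B ∈ centralizingMembers S A := (mem_iff A B).2 ⟨hB, commutator_eq_bot_iff.1 h⟩
      have h2 := ((mem_iff C B).1 (hsub h1)).2
      exact RankOne.commutator_ne_bot hCB (commutator_eq_bot_iff.2 h2)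
    · exact h
    · exfalso
      have h1 : ⁅A, B⁆ ∈ centralizingMembers S A :=
        (mem_iff A _).2 ⟨h.1, fun a ha f hf => CommCase.comm_left h ha hf⟩
      have h2 := ((mem_iff C _).1 (hsub h1)).2
      exact not_commCase_of_central hS hCB hAC h (fun f hf c hc => (h2 c hc f hf).symm)
  apply Set.Subset.antisymm hsub
  refine inc_symm (R := fun T T' => T' ∈ centralizingMembers S T) ?_ hAC hAB hCB ?_ hsub
  · intro T T' g h
    rw [mem_iff] at h ⊢
    exact ⟨hS.conj_mem T' h.1 g, commute_conjBy h.2 g⟩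
  · intro c hc hc1 hcon
    have h1 : B ∈ centralizingMembers S B :=
      (mem_iff B B).2 ⟨hB, fun _ h _ h' => comm_mem hS hB h h'⟩
    have h2 := ((mem_iff _ B).1 (hcon B h1)).2
    apply RankOne.conj_not_le_normalizer hCB hc hc1
    refine le_trans ?_ (Subgroup.centralizer_le_normalizer _)
    intro x hx
    rw [Subgroup.mem_centralizer_iff]
    intro y hy
    exact (h2 x hx y hy).symm

theorem rankOnePartners_eq (hS : IsRootSubgroupSet S)
    (hF : ∀ A ∈ S, ∃ B ∈ S, IsRankOnePair A B) {A C : Subgroup G} (hA : A ∈ S) (hC : C ∈ S)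
    (hsub : rankOnePartners S A ⊆ rankOnePartners S C) :
    ⁅A, C⁆ = ⊥ ∧ rankOnePartners S A = rankOnePartners S C := by
  have hAC' : ⁅A, C⁆ = ⊥ := by
    rcases hS.pair A hA C hC with h | h | h
    · exact h
    · exact absurd rfl (hsub ⟨hC, h⟩).2.ne
    · exfalso
      have hc' := CommCase.symm h
      obtain ⟨G₂, hG, hG'⟩ := exists_opposite_root hS hF hC hc'
      rw [Subgroup.commutator_comm] at hG'
      have hc2 : RootCommutatorCase S G₂ ⁅C, A⁆ :=
        commutatorCase_of_mem hS hG hc'.1 (by rw [hG']; exact hC)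
      have hr := opp_rankOne hS hC hA hG hc' hc2 hG'
      have h2 := (hsub ⟨hG, hr⟩).2
      apply RankOne.commutator_ne_bot h2
      rw [commutator_eq_bot_iff]
      intro c hc g hg
      exact (CommCase.comm_left hc2 hg (hG'.symm ▸ hc)).symm
  refine ⟨hAC', ?_⟩
  obtain ⟨B, hB, hAB⟩ := hF A hA
  have hCB : IsRankOnePair C B := (hsub ⟨hB, hAB⟩).2
  apply Set.Subset.antisymm hsub
  refine inc_symm (R := fun T T' => T' ∈ rankOnePartners S T) ?_
    (commutator_eq_bot_iff.1 hAC') hAB hCB ?_ hsub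
  · intro T T' g h
    exact ⟨hS.conj_mem T' h.1 g, RankOne.conj h.2 g⟩
  · intro c hc hc1 hcon
    have hne : conjBy B c ≠ B := RankOne.conjBy_left_ne (RankOnePair_symm hCB) hc hc1
    have hp := (RankOne.pair_of_mem (RankOnePair_symm hCB) (RankOne.left_mem_unipotent B C)
      (RankOne.conjBy_left_mem (A := B) (B := C) (Subgroup.mem_sup_right hc)) hne.symm).1
    exact absurd rfl (hcon _ ⟨hS.conj_mem B hB c, hp⟩).2.ne

end Root

end Cfsg.Agent.Lib.Helper85
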