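import Mathlib
import Cfsg.Prelude.Def_RootSubgroups
import Cfsg.Prelude.Def_Solvable
import Cfsg.Agent.S0199
import Cfsg.Agent.Lib.Helper5.DihedralIso
import Cfsg.Agent.Lib.Helper1.Cores

set_option autoImplicit false

namespace Cfsg.Agent.Lib.Helper85

open Cfsg

section RootInv
variable {G : Type*} [Group G] {D : Set G}

theorem ri_mul_self (hD : IsRootInvolutionSet D) {a : G} (ha : a ∈ D) : a * a = 1 :=
  Cfsg.Agent.Lib.Helper5.mul_self_of_order_two (hD.orderOf_eq a ha)

theorem ri_inv (hD : IsRootInvolutionSet D) {a : G} (ha : a ∈ D) : a⁻¹ = a :=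
  Cfsg.Agent.Lib.Helper5.inv_eq_self_of_order_two (hD.orderOf_eq a ha)

theorem ri_ne_one (hD : IsRootInvolutionSet D) {a : G} (ha : a ∈ D) : a ≠ 1 :=
  Cfsg.Agent.Lib.Helper5.ne_one_of_order_two (hD.orderOf_eq a ha)

theorem ri_conj (hD : IsRootInvolutionSet D) {a b : G} (ha : a ∈ D) (hb : b ∈ D) :
    a * b * a ∈ D := by
  have := hD.conj_mem b hb a
  rwa [ri_inv hD ha] at this

theorem orderOf_conj' (g x : G) : orderOf (g * x * g⁻¹) = orderOf x := by
  have h : SemiconjBy g x (g * x * g⁻¹) := by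
    show g * x = g * x * g⁻¹ * g
    group
  exact (h.orderOf_eq g).symm

theorem orderOf_mul_comm' (x y : G) : orderOf (x * y) = orderOf (y * x) := by
  have : y * x = x⁻¹ * (x * y) * x⁻¹⁻¹ := by group
  rw [this, orderOf_conj']

theorem ri_eq_of_mul_eq_one (hD : IsRootInvolutionSet D) {a b : G} (hb : b ∈ D)
    (h : a * b = 1) : a = b := by
  rw [← ri_inv hD hb]; exact eq_inv_of_mul_eq_one_left h

theorem ri_sq_of_comm (hD : IsRootInvolutionSet D) {a b : G} (ha : a ∈ D) (hb : b ∈ D)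
    (h1 : a * b = b * a) : (a * b) ^ 2 = 1 := by
  rw [sq]
  calc a * b * (a * b) = a * (b * a) * b := by group
    _ = a * (a * b) * b := by rw [h1]
    _ = (a * a) * (b * b) := by group
    _ = 1 := by rw [ri_mul_self hD ha, ri_mul_self hD hb, one_mul]

theorem ri_no_twice_odd (hD : IsRootInvolutionSet D) {a b : G} (ha : a ∈ D) (hb : b ∈ D) {m : ℕ}
    (hm : Odd m) (h : orderOf (a * b) = 2 * m) : m = 1 := by
  rcases hD.pair a ha b hb with h1 | h1 | ⟨h1, _⟩
  · have h2 := orderOf_dvd_of_pow_eq_one (ri_sq_of_comm hD ha hb h1)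
    rw [h] at h2
    have h3 : 2 * m ∣ 2 * 1 := by simpa using h2
    exact Nat.dvd_one.mp (Nat.dvd_of_mul_dvd_mul_left (by norm_num) h3)
  · rw [h] at h1
    exact absurd h1 (by simp)
  · rw [h] at h1
    obtain ⟨k, rfl⟩ := hm
    omega

theorem ri_not_comm (hD : IsRootInvolutionSet D) {a e f : G} (ha : a ∈ D) (he : e ∈ D)
    (hf : f ∈ D) (hae : a * e ∈ D) (hc : a * e = e * a) (hne : f ≠ e)
    (hodd : Odd (orderOf (f * e))) : f * a ≠ a * f := by
  intro hfa
  have hcomm : Commute a (f * e) := by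
    show a * (f * e) = f * e * a
    calc a * (f * e) = (a * f) * e := by group
      _ = f * a * e := by rw [hfa]
      _ = f * (a * e) := by group
      _ = f * (e * a) := by rw [hc]
      _ = f * e * a := by group
  have hord : orderOf (a * (f * e)) = 2 * orderOf (f * e) := by
    rw [hcomm.orderOf_mul_eq_mul_orderOf_of_coprime, hD.orderOf_eq a ha]
    rw [hD.orderOf_eq a ha]
    exact Nat.coprime_two_left.mpr hodd
  have h2 : f * (a * e) = a * (f * e) := by
    calc f * (a * e) = (f * a) * e := by group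
      _ = a * f * e := by rw [hfa]
      _ = _ := by group
  have h3 := ri_no_twice_odd hD hf hae hodd (by rw [h2]; exact hord)
  rw [orderOf_eq_one_iff] at h3
  exact hne (ri_eq_of_mul_eq_one hD he h3)

theorem inv4_comm {f a : G} (hf : f * f = 1) (ha : a * a = 1) (h4 : (f * a) ^ 4 = 1) :
    Commute f ((f * a) ^ 2) := by
  have hfi : f⁻¹ = f := inv_eq_of_mul_eq_one_left hf
  have hai : a⁻¹ = a := inv_eq_of_mul_eq_one_left ha
  have h : f * a * f * a * f * a * f * a = 1 := by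
    rw [← h4]; simp only [pow_succ, pow_zero, one_mul]; group
  have h5 : f * a * f * a * f = a * f * a := by
    calc f * a * f * a * f = (f * a * f * a * f * a * f * a) * (a * f * a)⁻¹ := by group
      _ = (a * f * a)⁻¹ := by rw [h, one_mul]
      _ = a⁻¹ * f⁻¹ * a⁻¹ := by group
      _ = a * f * a := by rw [hai, hfi]
  show f * (f * a) ^ 2 = (f * a) ^ 2 * f
  calc f * (f * a) ^ 2 = (f * f) * a * f * a := by rw [sq]; group
    _ = a * f * a := by rw [hf, one_mul]
    _ = f * a * f * a * f := h5.symm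
    _ = (f * a) ^ 2 * f := by rw [sq]; group

theorem ri_not_both_four (hD : IsRootInvolutionSet D) {a e f : G} (ha : a ∈ D) (he : e ∈ D)
    (hf : f ∈ D) (hae : a * e ∈ D) (hc : a * e = e * a) (hne : f ≠ e)
    (hodd : Odd (orderOf (f * e))) (h1 : orderOf (f * a) = 4)
    (h2 : orderOf (f * (a * e)) = 4) (h2' : (f * (a * e)) ^ 2 ∈ D) : False := by
  have hff := ri_mul_self hD hf
  have haa := ri_mul_self hD ha
  have hz1 : Commute f ((f * a) ^ 2) :=
    inv4_comm hff haa (by rw [← h1]; exact pow_orderOf_eq_one _)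
  have hz2 : Commute f ((f * (a * e)) ^ 2) :=
    inv4_comm hff (ri_mul_self hD hae) (by rw [← h2]; exact pow_orderOf_eq_one _)
  have hfz1 : f * (f * a) ^ 2 = a * f * a := by
    calc f * (f * a) ^ 2 = (f * f) * a * f * a := by rw [sq]; group
      _ = a * f * a := by rw [hff, one_mul]
  have hw : (f * a) ^ 2 * (f * (a * e)) ^ 2 = a * (f * e) ^ 2 * a⁻¹ := by
    calc (f * a) ^ 2 * (f * (a * e)) ^ 2
        = ((f * a) ^ 2 * f) * ((a * e) * f * (a * e)) := by
          rw [sq (f * (a * e))]; group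
      _ = (a * f * a) * ((a * e) * f * (a * e)) := by rw [← hz1.eq, hfz1]
      _ = a * f * (a * a) * e * f * (a * e) := by group
      _ = a * f * e * f * (e * a) := by rw [haa, hc, mul_one]
      _ = a * (f * e) ^ 2 * a := by rw [sq]; group
      _ = a * (f * e) ^ 2 * a⁻¹ := by rw [ri_inv hD ha]
  have hordw : orderOf ((f * a) ^ 2 * (f * (a * e)) ^ 2) = orderOf (f * e) := by
    rw [hw, orderOf_conj']
    exact Nat.Coprime.orderOf_pow (Nat.coprime_two_right.mpr hodd)
  have hcomm : Commute f ((f * a) ^ 2 * (f * (a * e)) ^ 2) := hz1.mul_right hz2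
  have hord : orderOf (f * ((f * a) ^ 2 * (f * (a * e)) ^ 2)) = 2 * orderOf (f * e) := by
    rw [hcomm.orderOf_mul_eq_mul_orderOf_of_coprime, hD.orderOf_eq f hf, hordw]
    rw [hD.orderOf_eq f hf, hordw]
    exact Nat.coprime_two_left.mpr hodd
  have h3 : (a * f * a) * (f * (a * e)) ^ 2 = f * ((f * a) ^ 2 * (f * (a * e)) ^ 2) := by
    rw [← hfz1, mul_assoc]
  have h4 := ri_no_twice_odd hD (ri_conj hD ha hf) h2' hodd (by rw [h3]; exact hord)
  rw [orderOf_eq_one_iff] at h4
  exact hne (ri_eq_of_mul_eq_one hD he h4)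

theorem oddAdj_symm {a b : G} (h : OddAdj D a b) : OddAdj D b a :=
  ⟨h.2.1, h.1, h.2.2.1.symm, by rw [orderOf_mul_comm']; exact h.2.2.2⟩

theorem oddAdj_rtg_symm {a b : G} (h : Relation.ReflTransGen (OddAdj D) a b) :
    Relation.ReflTransGen (OddAdj D) b a :=
  by
  induction h with
  | refl => exact Relation.ReflTransGen.refl
  | @tail b c _ hadj ih => exact Relation.ReflTransGen.head (oddAdj_symm hadj) ih

/-- Lemma R2: a four-group `{1,a,e,ae}` in `D ∪ 1`, `f ∈ D` with `fe` of odd order `> 1`: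
`f` is odd-adjacent to `a` or to `ae`. -/
theorem ri_R2 (hD : IsRootInvolutionSet D) {a e f : G} (ha : a ∈ D) (he : e ∈ D)
    (hf : f ∈ D) (hae : a * e ∈ D) (hc : a * e = e * a) (hne : f ≠ e)
    (hodd : Odd (orderOf (f * e))) : OddAdj D f a ∨ OddAdj D f (a * e) := by
  have hee := ri_mul_self hD he
  have n1 : f * a ≠ a * f := ri_not_comm hD ha he hf hae hc hne hodd
  have n2 : f * (a * e) ≠ (a * e) * f := by
    refine ri_not_comm hD hae he hf ?_ ?_ hne hodd
    · rw [mul_assoc, hee, mul_one]; exact ha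
    · rw [mul_assoc, hee, mul_one, hc, ← mul_assoc, hee, one_mul]
  rcases hD.pair f hf a ha with h | h | ⟨h, _⟩
  · exact absurd h n1
  · left
    exact ⟨hf, ha, fun h' => n1 (by rw [h']), h⟩
  · rcases hD.pair f hf (a * e) hae with h' | h' | ⟨h', h''⟩
    · exact absurd h' n2
    · right
      exact ⟨hf, hae, fun h'' => n2 (by rw [h'']), h'⟩
    · exact (ri_not_both_four hD ha he hf hae hc hne hodd h h' h'').elim

theorem oddAdj_conj (hD : IsRootInvolutionSet D) {a b : G} (h : OddAdj D a b) (g : G) :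
    OddAdj D (g * a * g⁻¹) (g * b * g⁻¹) := by
  refine ⟨hD.conj_mem a h.1 g, hD.conj_mem b h.2.1 g, ?_, ?_⟩
  · intro h'
    apply h.2.2.1
    simpa using h'
  · have : g * a * g⁻¹ * (g * b * g⁻¹) = g * (a * b) * g⁻¹ := by group
    rw [this, orderOf_conj']
    exact h.2.2.2

theorem isolated_conj (hD : IsRootInvolutionSet D) {w : G}
    (hw : IsIsolatedElem (OddAdj D) D w) (g : G) :
    IsIsolatedElem (OddAdj D) D (g * w * g⁻¹) := by
  refine ⟨hD.conj_mem w hw.1 g, fun b => ?_⟩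
  have key : ¬ OddAdj D (g * w * g⁻¹) b := by
    intro h
    have h1 := oddAdj_conj hD h g⁻¹
    have h2 : g⁻¹ * (g * w * g⁻¹) * g⁻¹⁻¹ = w := by group
    rw [h2] at h1
    exact (hw.2 _).1 h1
  exact ⟨key, fun h => key (oddAdj_symm h)⟩

theorem closure_normal_of_conj {S : Set G} (hS : ∀ s ∈ S, ∀ g : G, g * s * g⁻¹ ∈ S) :
    (Subgroup.closure S).Normal := by
  constructor
  intro n hn g
  induction hn using Subgroup.closure_induction with
  | mem x hx => exact Subgroup.subset_closure (hS x hx g)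
  | one => simp
  | mul x y _ _ hx hy =>
    have : g * (x * y) * g⁻¹ = (g * x * g⁻¹) * (g * y * g⁻¹) := by group
    rw [this]; exact mul_mem hx hy
  | inv x _ hx =>
    have : g * x⁻¹ * g⁻¹ = (g * x * g⁻¹)⁻¹ := by group
    rw [this]; exact inv_mem hx

theorem eq_one_of_odd_of_mem_pCore {x : G} (hx : x ∈ pCore 2 G) (hodd : Odd (orderOf x)) :
    x = 1 := by
  obtain ⟨k, hk⟩ := (Cfsg.Agent.Lib.Helper1.pCore_isPGroup 2 G) ⟨x, hx⟩
  have hk' : x ^ (2 ^ k) = 1 := by
    have := congrArg Subtype.val hk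
    simpa using this
  have h1 : orderOf x ∣ 2 ^ k := orderOf_dvd_of_pow_eq_one hk'
  have h2 : (orderOf x).Coprime (2 ^ k) := Nat.Coprime.pow_right k (Nat.coprime_two_right.mpr hodd)
  have h3 : orderOf x = 1 := Nat.Coprime.eq_one_of_dvd h2 h1
  exact orderOf_eq_one_iff.mp h3

theorem ri_isolated_of_mem_pCore (hD : IsRootInvolutionSet D) {d : G} (hd : d ∈ D)
    (h : d ∈ pCore 2 G) : IsIsolatedElem (OddAdj D) D d := by
  refine ⟨hd, fun b => ?_⟩
  have key : ¬ OddAdj D d b := by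
    intro hadj
    have hn := Cfsg.Agent.Lib.Helper1.pCore_normal 2 G
    have h1 : (d * b) ^ 2 ∈ pCore 2 G := by
      have : (d * b) ^ 2 = d * (b * d * b⁻¹) := by
        rw [ri_inv hD hadj.2.1, sq]; group
      rw [this]
      exact mul_mem h (hn.conj_mem d h b)
    have h2 : Odd (orderOf ((d * b) ^ 2)) := by
      rw [Nat.Coprime.orderOf_pow (Nat.coprime_two_right.mpr hadj.2.2.2)]
      exact hadj.2.2.2
    have h3 := eq_one_of_odd_of_mem_pCore h1 h2
    have h4 : orderOf (d * b) ∣ 2 := orderOf_dvd_of_pow_eq_one h3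
    have h5 : orderOf (d * b) = 1 :=
      Nat.Coprime.eq_one_of_dvd (Nat.coprime_two_right.mpr hadj.2.2.2) h4
    exact hadj.2.2.1 (ri_eq_of_mul_eq_one hD hadj.2.1 (orderOf_eq_one_iff.mp h5))
  exact ⟨key, fun h => key (oddAdj_symm h)⟩

theorem ri_mem_pCore_of_isolated [Finite G] (hD : IsRootInvolutionSet D) {w : G}
    (hw : IsIsolatedElem (OddAdj D) D w) : w ∈ pCore 2 G := by
  have : Fact (Nat.Prime 2) := ⟨Nat.prime_two⟩
  have hw2 := hD.orderOf_eq w hw.1
  have hX : IsPGroup 2 (Subgroup.zpowers w) := by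
    apply IsPGroup.of_card (n := 1)
    rw [Nat.card_zpowers, hw2, pow_one]
  have hpair : ∀ g : G, IsPGroup 2 ↥(Subgroup.zpowers w ⊔
      (Subgroup.zpowers w).map (MulAut.conj g).toMonoidHom) := by
    intro g
    have e1 : Subgroup.zpowers w ⊔ (Subgroup.zpowers w).map (MulAut.conj g).toMonoidHom
        = Subgroup.closure ({w, g * w * g⁻¹} : Set G) := by
      rw [MonoidHom.map_zpowers, Subgroup.zpowers_eq_closure, Subgroup.zpowers_eq_closure,
        ← Subgroup.closure_union]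
      rfl
    rw [e1]
    have hc := hD.conj_mem w hw.1 g
    have hcard := Cfsg.Agent.Lib.Helper5.dih_card hw2 (hD.orderOf_eq _ hc)
    have hdvd : orderOf (w * (g * w * g⁻¹)) ∣ 4 := by
      rcases hD.pair w hw.1 _ hc with h | h | ⟨h, _⟩
      · exact (orderOf_dvd_of_pow_eq_one (ri_sq_of_comm hD hw.1 hc h)).trans (by norm_num)
      · by_cases hne : w = g * w * g⁻¹
        · rw [← hne, ri_mul_self hD hw.1, orderOf_one]; exact one_dvd _
        · exact absurd ⟨hw.1, hc, hne, h⟩ (hw.2 _).1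
      · rw [h]
    have h8 : Nat.card ↥(Subgroup.closure ({w, g * w * g⁻¹} : Set G)) ∣ 2 ^ 3 := by
      rw [hcard]
      exact Nat.mul_dvd_mul_left 2 hdvd
    obtain ⟨k, _, hk⟩ := (Nat.dvd_prime_pow Nat.prime_two).mp h8
    exact IsPGroup.of_card hk
  obtain ⟨N, hN, hNp, hle⟩ := Cfsg.Agent.S0199.result (Subgroup.zpowers w) hX hpair
  exact Cfsg.Agent.Lib.Helper1.le_pCore hN hNp (hle (Subgroup.mem_zpowers w))

theorem oddComp_eq_of_rtg {a b : G} (h : Relation.ReflTransGen (OddAdj D) a b) :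
    elemComponentOf (OddAdj D) D a = elemComponentOf (OddAdj D) D b := by
  ext c
  constructor
  · rintro ⟨hc, h1⟩
    exact ⟨hc, (oddAdj_rtg_symm h).trans h1⟩
  · rintro ⟨hc, h1⟩
    exact ⟨hc, h.trans h1⟩

theorem exists_oddAdj_of_not_isolated {e : G} (he : e ∈ D)
    (h : ¬ IsIsolatedElem (OddAdj D) D e) : ∃ f, OddAdj D f e := by
  by_contra hcon
  push Not at hcon
  exact h ⟨he, fun b => ⟨fun h1 => hcon b (oddAdj_symm h1), hcon b⟩⟩

theorem exists_oddAdj_of_comp {a : G}
    (h : ∃ a' ∈ elemComponentOf (OddAdj D) D a, a' ≠ a) : ∃ f, OddAdj D f a := by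
  obtain ⟨a', ⟨_, h1⟩, hne⟩ := h
  rcases Relation.ReflTransGen.cases_head h1 with h2 | ⟨c, hc, _⟩
  · exact absurd h2.symm hne
  · exact ⟨c, oddAdj_symm hc⟩

theorem ri_partner_mem (hD : IsRootInvolutionSet D) {a e : G} (ha : a ∈ D)
    (ha' : ∃ a' ∈ elemComponentOf (OddAdj D) D a, a' ≠ a) (he : e ∈ productPartners D a) :
    e ∈ elemComponentOf (OddAdj D) D a ∨ IsIsolatedElem (OddAdj D) D e := by
  obtain ⟨⟨heD, hcomm, hne⟩, hprod⟩ := he
  by_cases hiso : IsIsolatedElem (OddAdj D) D e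
  · exact Or.inr hiso
  left
  refine ⟨heD, ?_⟩
  obtain ⟨f, hf⟩ := exists_oddAdj_of_not_isolated heD hiso
  obtain ⟨a'', ha''⟩ := exists_oddAdj_of_comp ha'
  have hae : a * e ∈ D := by rw [← hcomm]; exact hprod
  rcases ri_R2 hD ha heD hf.1 hae hcomm.symm hf.2.2.1 hf.2.2.2 with h1 | h1
  · exact (Relation.ReflTransGen.single (oddAdj_symm h1)).tail hf
  · rcases ri_R2 hD heD ha ha''.1 hprod hcomm ha''.2.2.1 ha''.2.2.2 with h2 | h2
    · exact (Relation.ReflTransGen.single (oddAdj_symm ha'')).tail h2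
    · rw [hcomm] at h2
      exact (((Relation.ReflTransGen.single (oddAdj_symm ha'')).tail h2).tail
        (oddAdj_symm h1)).tail hf

theorem ri_four_partner (hD : IsRootInvolutionSet D) {a b : G} (ha : a ∈ D) (hb : b ∈ D)
    (h4 : orderOf (a * b) = 4) (hc : (a * b) ^ 2 ∈ D) :
    (a * b) ^ 2 ∈ productPartners D a ∧ (a * b) ^ 2 ∈ productPartners D b := by
  have haa := ri_mul_self hD ha
  have hbb := ri_mul_self hD hb
  have c1 : Commute a ((a * b) ^ 2) :=
    inv4_comm haa hbb (by rw [← h4]; exact pow_orderOf_eq_one _)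
  have c2 : Commute ((a * b) ^ 2) (a * b) := (Commute.refl (a * b)).pow_left 2
  have c3 : Commute ((a * b) ^ 2) b := by
    have h5 : a⁻¹ * (a * b) = b := by group
    have h6 := (c1.symm.inv_right).mul_right c2
    rwa [h5] at h6
  have m1 : (a * b) ^ 2 * a ∈ D := by
    have : (a * b) ^ 2 * a = (a * b) * a * (a * b)⁻¹ := by
      rw [mul_inv_rev, ri_inv hD ha, ri_inv hD hb, sq]; group
    rw [this]
    exact hD.conj_mem a ha _
  have m2 : (a * b) ^ 2 * b ∈ D := by
    have : (a * b) ^ 2 * b = a * b * a := by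
      calc (a * b) ^ 2 * b = a * b * a * (b * b) := by rw [sq]; group
        _ = a * b * a := by rw [hbb, mul_one]
    rw [this]
    exact ri_conj hD ha hb
  refine ⟨⟨⟨hc, c1.symm.eq, ?_⟩, m1⟩, ⟨⟨hc, c3.eq, ?_⟩, m2⟩⟩
  · intro h
    rw [h, haa] at m1
    exact ri_ne_one hD m1 rfl
  · intro h
    rw [h, hbb] at m2
    exact ri_ne_one hD m2 rfl

theorem ri_comm_mem_closure_isolated (hD : IsRootInvolutionSet D) {a b : G} (ha : a ∈ D)
    (hb : b ∈ D) (ha' : ∃ a' ∈ elemComponentOf (OddAdj D) D a, a' ≠ a)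
    (hb' : ∃ b' ∈ elemComponentOf (OddAdj D) D b, b' ≠ b)
    (hne : elemComponentOf (OddAdj D) D a ≠ elemComponentOf (OddAdj D) D b) :
    a * b * a⁻¹ * b⁻¹ ∈ Subgroup.closure {w | IsIsolatedElem (OddAdj D) D w} := by
  rcases hD.pair a ha b hb with h | h | ⟨h, hc⟩
  · have : a * b * a⁻¹ * b⁻¹ = 1 := by rw [h]; group
    rw [this]; exact one_mem _
  · exfalso
    by_cases hab : a = b
    · exact hne (by rw [hab])
    · exact hne (oddComp_eq_of_rtg (Relation.ReflTransGen.single ⟨ha, hb, hab, h⟩))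
  · have e1 : a * b * a⁻¹ * b⁻¹ = (a * b) ^ 2 := by
      rw [ri_inv hD ha, ri_inv hD hb, sq]; group
    rw [e1]
    obtain ⟨p1, p2⟩ := ri_four_partner hD ha hb h hc
    rcases ri_partner_mem hD ha ha' p1 with q1 | q1
    · rcases ri_partner_mem hD hb hb' p2 with q2 | q2
      · exact absurd ((oddComp_eq_of_rtg q1.2).trans (oddComp_eq_of_rtg q2.2).symm) hne
      · exact Subgroup.subset_closure q2
    · exact Subgroup.subset_closure q1

end RootInv

end Cfsg.Agent.Lib.Helper85
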