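import Mathlib
import Cfsg.Prelude.Def_RootSubgroups
import Cfsg.Prelude.Def_QuasithinSetup
import Cfsg.Agent.Lib.Helper85.RootInv
import Cfsg.Agent.Lib.Helper85.RootSimple
import Cfsg.Agent.Lib.Helper6.Invol
import Cfsg.Agent.Lib.Helper28.Radical

set_option autoImplicit false

namespace Cfsg.Agent.Lib.Helper85

open Cfsg

section RootInv2
variable {G : Type*} [Group G] {D : Set G}

theorem invol_mem_pCore {K : Type*} [Group K] [Finite K] {t : K} (ht : orderOf t = 2)
    (h : ∀ g : K, orderOf (t * (g * t * g⁻¹)) ∣ 4) : t ∈ pCore 2 K := by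
  have : Fact (Nat.Prime 2) := ⟨Nat.prime_two⟩
  have hX : IsPGroup 2 (Subgroup.zpowers t) := by
    apply IsPGroup.of_card (n := 1)
    rw [Nat.card_zpowers, ht, pow_one]
  have hpair : ∀ g : K, IsPGroup 2 ↥(Subgroup.zpowers t ⊔
      (Subgroup.zpowers t).map (MulAut.conj g).toMonoidHom) := by
    intro g
    have e1 : Subgroup.zpowers t ⊔ (Subgroup.zpowers t).map (MulAut.conj g).toMonoidHom
        = Subgroup.closure ({t, g * t * g⁻¹} : Set K) := by
      rw [MonoidHom.map_zpowers, Subgroup.zpowers_eq_closure, Subgroup.zpowers_eq_closure,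
        ← Subgroup.closure_union]
      rfl
    rw [e1]
    have hc : orderOf (g * t * g⁻¹) = 2 := by rw [orderOf_conj', ht]
    have hcard := Cfsg.Agent.Lib.Helper5.dih_card ht hc
    have h8 : Nat.card ↥(Subgroup.closure ({t, g * t * g⁻¹} : Set K)) ∣ 2 ^ 3 := by
      rw [hcard]
      exact Nat.mul_dvd_mul_left 2 (h g)
    obtain ⟨k, _, hk⟩ := (Nat.dvd_prime_pow Nat.prime_two).mp h8
    exact IsPGroup.of_card hk
  obtain ⟨N, hN, hNp, hle⟩ := Cfsg.Agent.S0199.result (Subgroup.zpowers t) hX hpair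
  exact Cfsg.Agent.Lib.Helper1.le_pCore hN hNp (hle (Subgroup.mem_zpowers t))

theorem isSimpleGroup_quotient_of_dichotomy {N : Subgroup G} [N.Normal] (hne : N ≠ ⊤)
    (h : ∀ K : Subgroup G, K.Normal → K ≤ N ∨ K = ⊤) : IsSimpleGroup (G ⧸ N) := by
  have hnt : Nontrivial (G ⧸ N) := by
    by_contra hcon
    rw [not_nontrivial_iff_subsingleton] at hcon
    exact hne (QuotientGroup.subsingleton_iff.1 hcon)
  refine { exists_pair_ne := hnt.exists_pair_ne, eq_bot_or_eq_top_of_normal := ?_ }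
  intro H hH
  have hHN : H = (H.comap (QuotientGroup.mk' N)).map (QuotientGroup.mk' N) := by
    rw [Subgroup.map_comap_eq_self_of_surjective (QuotientGroup.mk'_surjective _)]
  rcases h _ (hH.comap (QuotientGroup.mk' N)) with h | h
  · left
    rw [hHN, eq_bot_iff]
    rintro _ ⟨n, hn, rfl⟩
    rw [Subgroup.mem_bot]
    exact (QuotientGroup.eq_one_iff n).2 (h hn)
  · right
    rw [hHN, h, Subgroup.map_top_of_surjective _ (QuotientGroup.mk'_surjective _)]

theorem ri_conj_of_oddAdj (hD : IsRootInvolutionSet D) {a b : G} (h : OddAdj D a b) :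
    ∃ g : G, b = g * a * g⁻¹ := by
  have := Cfsg.Agent.Lib.Helper6.invol_isConj_of_odd (hD.orderOf_eq a h.1)
    (hD.orderOf_eq b h.2.1) h.2.2.2
  rw [isConj_iff] at this
  obtain ⟨c, hc⟩ := this
  exact ⟨c, hc.symm⟩

theorem ri_conj_of_rtg (hD : IsRootInvolutionSet D) {a b : G}
    (h : Relation.ReflTransGen (OddAdj D) a b) : ∃ g : G, b = g * a * g⁻¹ := by
  induction h with
  | refl => exact ⟨1, by simp⟩
  | @tail b c _ hadj ih =>
    obtain ⟨g, rfl⟩ := ih
    obtain ⟨g', rfl⟩ := ri_conj_of_oddAdj hD hadj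
    exact ⟨g' * g, by group⟩

theorem ri_normal_eq_top (hD : IsRootInvolutionSet D) (hc : IsConnectedSet (OddAdj D) D)
    {N : Subgroup G} (hN : N.Normal) {d : G} (hd : d ∈ D) (hdN : d ∈ N) : N = ⊤ := by
  rw [eq_top_iff, ← hD.generates, Subgroup.closure_le]
  intro x hx
  obtain ⟨g, rfl⟩ := ri_conj_of_rtg hD (hc d hd x hx)
  exact hN.conj_mem d hdN g

theorem mem_of_sq_mem_of_odd {N : Subgroup G} {x : G} (h : x ^ 2 ∈ N) (ho : Odd (orderOf x)) :
    x ∈ N := by
  obtain ⟨k, hk⟩ := ho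
  have h1 : x = (x ^ 2) ^ (k + 1) := by
    rw [← pow_mul]
    have : 2 * (k + 1) = orderOf x + 1 := by omega
    rw [this, pow_succ, pow_orderOf_eq_one, one_mul]
  rw [h1]
  exact pow_mem h _

theorem mul_mem_of_odd_aux {N : Subgroup G} (hN : N.Normal) {c d y : G} (hc : c ∈ N)
    (hdy : (d * y) * (d * y) = 1) (ho : Odd (orderOf (c * d * y))) : d * y ∈ N := by
  have h1 : (c * d * y) ^ 2 ∈ N := by
    have e : (c * d * y) ^ 2 = c * ((d * y) * c * (d * y)⁻¹) * ((d * y) * (d * y)) := by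
      rw [sq]; group
    rw [e, hdy, mul_one]
    exact mul_mem hc (hN.conj_mem c hc _)
  have h2 := mem_of_sq_mem_of_odd h1 ho
  have e2 : d * y = c⁻¹ * (c * d * y) := by group
  rw [e2]
  exact mul_mem (inv_mem hc) h2

theorem ri_order_dvd_four_of_cong (hD : IsRootInvolutionSet D) {N : Subgroup G} (hN : N.Normal)
    (hDN : ∀ x ∈ D, x ∉ N) {d e f : G} (hd : d ∈ D) (he : e ∈ D) (hde : d * e ∈ D)
    (hcomm : d * e = e * d) (hf : f ∈ D) (hfd : f * d ∈ N) : orderOf (d * f) ∣ 4 := by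
  have hdd := ri_mul_self hD hd
  have hee := ri_mul_self hD he
  rcases hD.pair d hd f hf with h | h | ⟨h, _⟩
  · exact (orderOf_dvd_of_pow_eq_one (ri_sq_of_comm hD hd hf h)).trans (by norm_num)
  · by_cases hne : f = d
    · rw [hne, hdd, orderOf_one]; exact one_dvd _
    exfalso
    have hodd : Odd (orderOf (f * d)) := by rw [orderOf_mul_comm']; exact h
    have hed : e * d ∈ D := by rw [← hcomm]; exact hde
    have ef : f = (f * d) * d := by rw [mul_assoc, hdd, mul_one]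
    rcases ri_R2 hD he hd hf hed hcomm.symm hne hodd with h1 | h1
    · have h2 : d * e ∈ N := by
        apply mul_mem_of_odd_aux hN hfd
        · have := ri_sq_of_comm hD hd he hcomm
          rwa [sq] at this
        · rw [← ef]; exact h1.2.2.2
      exact hDN _ hde h2
    · have e3 : d * (e * d) = e := by
        rw [← hcomm, ← mul_assoc, hdd, one_mul]
      have h2 : d * (e * d) ∈ N := by
        apply mul_mem_of_odd_aux hN hfd
        · rw [e3, hee]
        · rw [← ef]; exact h1.2.2.2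
      rw [e3] at h2
      exact hDN _ he h2
  · rw [h]

theorem ri_comm_mem_pCore [Finite G] (hD : IsRootInvolutionSet D) {N : Subgroup G}
    (hN : N.Normal) (hDN : ∀ x ∈ D, x ∉ N) {d e : G} (hd : d ∈ D) (he : e ∈ D)
    (hde : d * e ∈ D) (hcomm : d * e = e * d) {n : G} (hn : n ∈ N) :
    d * n * d⁻¹ * n⁻¹ ∈ pCore 2 G := by
  have : Fact (Nat.Prime 2) := ⟨Nat.prime_two⟩
  have hdi := ri_inv hD hd
  obtain ⟨H, hH⟩ : ∃ H : Subgroup G, H = N ⊔ Subgroup.zpowers d := ⟨_, rfl⟩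
  have hNH : N ≤ H := by rw [hH]; exact le_sup_left
  have hdH : d ∈ H := by rw [hH]; exact le_sup_right (a := N) (Subgroup.mem_zpowers d)
  have ht : (⟨d, hdH⟩ : ↥H) ∈ pCore 2 ↥H := by
    apply invol_mem_pCore
    · rw [Subgroup.orderOf_mk]; exact hD.orderOf_eq d hd
    · intro g
      rw [← Subgroup.orderOf_coe]
      show orderOf (d * ((g : G) * d * (g : G)⁻¹)) ∣ 4
      have hg : (g : G) ∈ N ⊔ Subgroup.zpowers d := by rw [← hH]; exact g.2
      obtain ⟨y, hy, z, hz, hyz⟩ := Subgroup.mem_sup_of_normal_left.mp hg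
      obtain ⟨i, rfl⟩ := Subgroup.mem_zpowers_iff.mp hz
      have e1 : (g : G) * d * (g : G)⁻¹ = y * d * y⁻¹ := by
        rw [← hyz]
        have : d ^ i * d * (d ^ i)⁻¹ = d := by
          rw [← zpow_add_one, add_comm, zpow_add, zpow_one]; group
        calc y * d ^ i * d * (y * d ^ i)⁻¹ = y * (d ^ i * d * (d ^ i)⁻¹) * y⁻¹ := by group
          _ = y * d * y⁻¹ := by rw [this]
      rw [e1]
      apply ri_order_dvd_four_of_cong hD hN hDN hd he hde hcomm (hD.conj_mem d hd y)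
      have e2 : y * d * y⁻¹ * d = y * (d * y⁻¹ * d⁻¹) := by rw [hdi]; group
      rw [e2]
      exact mul_mem hy (hN.conj_mem _ (inv_mem hy) d)
  have hTn := Cfsg.Agent.Lib.Helper1.pCore_normal 2 ↥H
  obtain ⟨X, hX⟩ : ∃ X : Subgroup G, X = ((pCore 2 ↥H).map H.subtype) ⊓ N := ⟨_, rfl⟩
  have hXp : IsPGroup 2 X := by
    rw [hX]
    exact ((Cfsg.Agent.Lib.Helper1.pCore_isPGroup 2 ↥H).map H.subtype).to_le inf_le_left
  have hXN : X ≤ N := by rw [hX]; exact inf_le_right
  have hcX : d * n * d⁻¹ * n⁻¹ ∈ X := by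
    rw [hX]
    constructor
    · refine ⟨(⟨d, hdH⟩ : ↥H) * ((⟨n, hNH hn⟩ : ↥H) * (⟨d, hdH⟩ : ↥H)⁻¹ * (⟨n, hNH hn⟩ : ↥H)⁻¹),
        mul_mem ht (hTn.conj_mem _ (inv_mem ht) _), ?_⟩
      simp [mul_assoc]
    · exact N.mul_mem (hN.conj_mem n hn d) (N.inv_mem hn)
  have hconjX : ∀ y ∈ N, ∀ h ∈ X, y * h * y⁻¹ ∈ X := by
    intro y hy h hh
    rw [hX] at hh ⊢
    obtain ⟨⟨h', hh', rfl⟩, hhN⟩ := hh
    constructor
    · exact ⟨(⟨y, hNH hy⟩ : ↥H) * h' * (⟨y, hNH hy⟩ : ↥H)⁻¹, hTn.conj_mem _ hh' _, by simp⟩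
    · exact hN.conj_mem _ hhN y
  have hNnorm : N ≤ Subgroup.normalizer (X : Set G) := by
    intro y hy
    rw [Subgroup.mem_normalizer_iff]
    intro h
    constructor
    · exact hconjX y hy h
    · intro hh
      have := hconjX y⁻¹ (inv_mem hy) _ hh
      have e3 : y⁻¹ * (y * h * y⁻¹) * y⁻¹⁻¹ = h := by group
      rwa [e3] at this
  have hpair : ∀ g : G, IsPGroup 2 ↥(X ⊔ X.map (MulAut.conj g).toMonoidHom) := by
    intro g
    rw [sup_comm]
    apply IsPGroup.to_sup_of_normal_right' (hXp.map _) hXp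
    refine le_trans ?_ hNnorm
    rintro _ ⟨x, hx, rfl⟩
    exact hN.conj_mem x (hXN hx) g
  obtain ⟨N', hN', hN'p, hle⟩ := Cfsg.Agent.S0199.result X hXp hpair
  exact Cfsg.Agent.Lib.Helper1.le_pCore hN' hN'p (hle hcX)

theorem mem_twoZCore_iff {G : Type*} [Group G] {n : G} :
    n ∈ twoZCore G ↔ ∀ g : G, g * n * g⁻¹ * n⁻¹ ∈ pCore 2 G := by
  unfold twoZCore
  rw [Subgroup.mem_comap, Subgroup.mem_center_iff]
  constructor
  · intro h g
    rw [Root.cm_iff]
    exact h (g : G ⧸ pCore 2 G)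
  · intro h g
    obtain ⟨g, rfl⟩ := QuotientGroup.mk'_surjective _ g
    exact Root.cm_iff.mp (h g)

theorem mem_twoZCore_of_gen {G : Type*} [Group G] {D : Set G} (hgen : Subgroup.closure D = ⊤)
    {n : G} (h : ∀ d ∈ D, d * n * d⁻¹ * n⁻¹ ∈ pCore 2 G) : n ∈ twoZCore G := by
  rw [mem_twoZCore_iff]
  have hle : Subgroup.closure D ≤
      (Subgroup.centralizer {(n : G ⧸ pCore 2 G)}).comap (QuotientGroup.mk' (pCore 2 G)) := by
    rw [Subgroup.closure_le]
    intro d hd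
    show QuotientGroup.mk' (pCore 2 G) d ∈ Subgroup.centralizer {(n : G ⧸ pCore 2 G)}
    rw [Subgroup.mem_centralizer_singleton_iff]
    exact Root.cm_iff.mp (h d hd)
  intro g
  have hg : g ∈ Subgroup.closure D := by rw [hgen]; trivial
  have := hle hg
  rw [Subgroup.mem_comap, Subgroup.mem_centralizer_singleton_iff] at this
  exact Root.cm_iff.mpr this

theorem ri_exists_four (hD : IsRootInvolutionSet D) (hc : IsConnectedSet (OddAdj D) D)
    (hDD : (D ∩ commutingProducts D).Nonempty) {d : G} (hd : d ∈ D) :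
    ∃ e ∈ D, d * e ∈ D ∧ d * e = e * d := by
  obtain ⟨x, hx, a, ha, b, hb, hab, _, rfl⟩ := hDD
  obtain ⟨g, rfl⟩ := ri_conj_of_rtg hD (hc a ha d hd)
  refine ⟨g * b * g⁻¹, hD.conj_mem b hb g, ?_, ?_⟩
  · have : g * a * g⁻¹ * (g * b * g⁻¹) = g * (a * b) * g⁻¹ := by group
    rw [this]
    exact hD.conj_mem _ hx g
  · calc g * a * g⁻¹ * (g * b * g⁻¹) = g * (a * b) * g⁻¹ := by group
      _ = g * (b * a) * g⁻¹ := by rw [hab]
      _ = _ := by group

theorem ri_exists_oddAdj (hD : IsRootInvolutionSet D) (hc : IsConnectedSet (OddAdj D) D)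
    (hDD : (D ∩ commutingProducts D).Nonempty) {d : G} (hd : d ∈ D) : ∃ f, OddAdj D d f := by
  obtain ⟨e, he, hde, _⟩ := ri_exists_four hD hc hDD hd
  have hne : d ≠ e := by
    intro h
    rw [← h, ri_mul_self hD hd] at hde
    exact ri_ne_one hD hde rfl
  rcases Relation.ReflTransGen.cases_head (hc d hd e he) with h | ⟨c, hc', _⟩
  · exact absurd h hne
  · exact ⟨c, hc'⟩

theorem ri_not_mem_twoZCore (hD : IsRootInvolutionSet D) (hc : IsConnectedSet (OddAdj D) D)
    (hDD : (D ∩ commutingProducts D).Nonempty) {d : G} (hd : d ∈ D) : d ∉ twoZCore G := by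
  intro hdZ
  obtain ⟨f, hf⟩ := ri_exists_oddAdj hD hc hDD hd
  obtain ⟨g, hg⟩ := ri_conj_of_oddAdj hD hf
  have h1 := mem_twoZCore_iff.mp hdZ g
  -- g d g⁻¹ d⁻¹ = f d
  have e1 : g * d * g⁻¹ * d⁻¹ = f * d := by rw [hg, ri_inv hD hd]
  rw [e1] at h1
  have h2 : Odd (orderOf (f * d)) := by rw [orderOf_mul_comm']; exact hf.2.2.2
  have h3 := eq_one_of_odd_of_mem_pCore h1 h2
  exact hf.2.2.1 (ri_eq_of_mul_eq_one hD hd h3).symm

theorem ri_normal_dichotomy [Finite G] (hD : IsRootInvolutionSet D)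
    (hc : IsConnectedSet (OddAdj D) D) (hDD : (D ∩ commutingProducts D).Nonempty)
    (N : Subgroup G) (hN : N.Normal) : N ≤ twoZCore G ∨ N = ⊤ := by
  by_cases h : ∃ d ∈ D, d ∈ N
  · obtain ⟨d, hd, hdN⟩ := h
    exact Or.inr (ri_normal_eq_top hD hc hN hd hdN)
  · push Not at h
    left
    intro n hn
    apply mem_twoZCore_of_gen hD.generates
    intro d hd
    obtain ⟨e, he, hde, hcomm⟩ := ri_exists_four hD hc hDD hd
    exact ri_comm_mem_pCore hD hN h hd he hde hcomm hn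

theorem twoZCore_isSolvable (G : Type*) [Group G] [Finite G] :
    Group.IsSolvable ↥(twoZCore G) := by
  have : Fact (Nat.Prime 2) := ⟨Nat.prime_two⟩
  have hQn := Cfsg.Agent.Lib.Helper1.pCore_normal 2 G
  have hn : ((pCore 2 G).subgroupOf (twoZCore G)).Normal := hQn.subgroupOf _
  rw [Group.isSolvable_iff_subgroup_quotient ((pCore 2 G).subgroupOf (twoZCore G))]
  constructor
  · have hp : IsPGroup 2 ↥((pCore 2 G).subgroupOf (twoZCore G)) :=
      (Cfsg.Agent.Lib.Helper1.pCore_isPGroup 2 G).comap_subtype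
    have := hp.isNilpotent
    infer_instance
  · apply Group.isSolvable_of_comm
    intro a b
    obtain ⟨a, rfl⟩ := QuotientGroup.mk'_surjective _ a
    obtain ⟨b, rfl⟩ := QuotientGroup.mk'_surjective _ b
    apply Root.cm_iff.mp
    rw [Subgroup.mem_subgroupOf]
    exact mem_twoZCore_iff.mp b.2 a

theorem solvableRadical_spec (G : Type*) [Group G] [Finite G] :
    (solvableRadical G).Normal ∧ Group.IsSolvable ↥(solvableRadical G) := by
  unfold solvableRadical
  apply Cfsg.Agent.Lib.Helper28.sSup_induction_finite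
    (fun A : Subgroup G => A.Normal ∧ Group.IsSolvable ↥A)
  · exact ⟨inferInstance, inferInstance⟩
  · rintro A B ⟨hA, hA'⟩ ⟨hB, hB'⟩
    exact ⟨inferInstance, Cfsg.Agent.Lib.Helper28.isSolvable_sup_of_normal A B hA' hB'⟩
  · intro A hA
    exact hA

end RootInv2

end Cfsg.Agent.Lib.Helper85
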