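import Cfsg.Agent.Lib.Helper85.RootComm

set_option autoImplicit false

namespace Cfsg.Agent.Lib.Helper85

open Cfsg

variable {G : Type*} [Group G]

namespace Root

variable {S : Set (Subgroup G)}

namespace CommCase

variable {A B D : Subgroup G}

theorem conjBy_le {b : G} (hb : b ∈ B) : conjBy A b ≤ A ⊔ ⁅A, B⁆ := by
  intro x hx
  rw [mem_conjBy] at hx
  have e : x = ((b⁻¹ * x * b) * b * (b⁻¹ * x * b)⁻¹ * b⁻¹)⁻¹ * (b⁻¹ * x * b) := by group
  rw [e]
  exact mul_mem (Subgroup.mem_sup_right (inv_mem (commElem_mem hx hb))) (Subgroup.mem_sup_left hx)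

/-- `n * a` is a conjugate of `a` under `B` -/
theorem exists_conj (hc : RootCommutatorCase S A B) {a n : G} (ha : a ∈ A) (ha1 : a ≠ 1)
    (hn : n ∈ ⁅A, B⁆) : ∃ b ∈ B, n * a = b * a * b⁻¹ := by
  obtain ⟨b, hb, hbn⟩ := exists_right hc ha ha1 (inv_mem hn)
  refine ⟨b, hb, ?_⟩
  have e : b * a * b⁻¹ = (a * b * a⁻¹ * b⁻¹)⁻¹ * a := by group
  rw [e, hbn, inv_inv]

theorem cover (hc : RootCommutatorCase S A B) {x : G} (hx : x ∈ A ⊔ ⁅A, B⁆) :
    x ∈ ⁅A, B⁆ ∨ ∃ b ∈ B, x ∈ conjBy A b := by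
  rw [mem_sup_of_commute (fun a ha n hn => comm_left hc ha hn)] at hx
  obtain ⟨a, ha, n, hn, rfl⟩ := hx
  by_cases ha1 : a = 1
  · left; rw [ha1, one_mul]; exact hn
  · right
    obtain ⟨b, hb, hbe⟩ := exists_conj hc ha ha1 hn
    refine ⟨b, hb, ?_⟩
    rw [comm_left hc ha hn, hbe]
    exact conj_mem_conjBy ha b

theorem not_centralizes_partner (hS : IsRootSubgroupSet S) (hc : RootCommutatorCase S A B)
    (hA : A ∈ S) (hD : D ∈ S) (hAD : IsRankOnePair A D) {n : G} (hn : n ∈ ⁅A, B⁆) (hn1 : n ≠ 1) :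
    ∃ d ∈ D, n * d ≠ d * n := by
  by_contra hcon
  push Not at hcon
  obtain ⟨a, ha, ha1⟩ := RankOne.exists_ne_one_left hAD
  have hcen : n ∈ Subgroup.centralizer ((A ⊔ D : Subgroup G) : Set G) := by
    rw [Subgroup.mem_centralizer_iff]
    intro x hx
    exact (RankOne.commute_sup_of (fun a ha => (comm_left hc ha hn).symm) hcon x hx).symm
  apply central_translate hS hA hD hAD hcen hn1 ha ha1
  obtain ⟨b, hb, hbe⟩ := exists_conj hc ha ha1 hn
  rw [hbe]
  refine ⟨?_, conjBy A b, hS.conj_mem A hA b, conj_mem_conjBy ha b⟩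
  intro h1
  apply ha1
  have : a = b⁻¹ * (b * a * b⁻¹) * b := by group
  rw [this, h1]; group

theorem eq_of_le_commutator (hS : IsRootSubgroupSet S) (hc : RootCommutatorCase S A B)
    (hA : A ∈ S) (hD : D ∈ S) (hAD : IsRankOnePair A D) {E : Subgroup G} (hE : E ∈ S)
    (hle : E ≤ ⁅A, B⁆) : E = ⁅A, B⁆ := by
  obtain ⟨e, he, he1⟩ := exists_ne_one_of_ne_bot (hS.ne_bot E hE)
  obtain ⟨d0, hd0, hne0⟩ := not_centralizes_partner hS hc hA hD hAD (hle he) he1
  rcases hS.pair _ hc.1 D hD with h | h | hND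
  · exact absurd (commutator_eq_bot_iff.1 h e (hle he) d0 hd0) hne0
  · exact (eq_of_mem_of_mem hS hD hE h (hle he) he he1).symm
  · have hnr : ¬ IsRankOnePair ⁅A, B⁆ D := not_rankOne_of_commutator_mem hS hc.1 hND.1
    rcases hS.pair E hE D hD with h | h | hED
    · exact absurd (commutator_eq_bot_iff.1 h e he d0 hd0) hne0
    · exact absurd (conj_le_normalizer hS hc.1 hD hnr (hle he))
        (RankOne.conj_not_le_normalizer h he he1)
    · have hF : ⁅E, D⁆ = ⁅⁅A, B⁆, D⁆ := by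
        rw [← hED.2.2.1 e he he1, ← hND.2.2.1 e (hle he) he1]
      obtain ⟨d, hd, hd1⟩ := RankOne.exists_ne_one_right hAD
      apply le_antisymm hle
      intro n hn
      have h1 : n * d * n⁻¹ * d⁻¹ ∈ ⁅E, D⁆ := by rw [hF]; exact commElem_mem hn hd
      obtain ⟨e', he', hee⟩ := exists_left hED hd hd1 h1
      have h2 : (n * e'⁻¹) * d * (n * e'⁻¹)⁻¹ * d⁻¹ = 1 := by
        rw [mul_left hND hn (inv_mem (hle he')) hd, inv_left hND (hle he') hd, hee]
        group
      have h3 : d * (n * e'⁻¹) = (n * e'⁻¹) * d := by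
        have : (n * e'⁻¹) * d = ((n * e'⁻¹) * d * (n * e'⁻¹)⁻¹ * d⁻¹) * (d * (n * e'⁻¹)) := by
          group
        rw [this, h2, one_mul]
      by_cases hm : n * e'⁻¹ = 1
      · have : n = e' := by
          have := mul_inv_eq_one.1 hm
          exact this
        rw [this]; exact he'
      · exact absurd h3 (not_commute hS (symm hND) hD hA (RankOnePair_symm hAD) hd hd1
          (mul_mem hn (inv_mem (hle he'))) hm)

theorem membersIn_eq (hS : IsRootSubgroupSet S) (hc : RootCommutatorCase S A B)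
    (hA : A ∈ S) (hD : D ∈ S) (hAD : IsRankOnePair A D) :
    membersIn S (A ⊔ ⁅A, B⁆) = (fun b : G => conjBy A b) '' (B : Set G) ∪ {⁅A, B⁆} := by
  ext E
  constructor
  · rintro ⟨hE, hle⟩
    by_cases hcase : ∃ e ∈ E, e ≠ 1 ∧ ∃ b ∈ B, e ∈ conjBy A b
    · obtain ⟨e, he, he1, b, hb, heb⟩ := hcase
      left
      refine ⟨b, hb, ?_⟩
      exact eq_of_mem_of_mem hS (hS.conj_mem D hD b) hE (RankOne.conj hAD b) heb he he1
    · right
      push Not at hcase
      apply eq_of_le_commutator hS hc hA hD hAD hE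
      intro e he
      by_cases he1 : e = 1
      · rw [he1]; exact one_mem _
      · rcases cover hc (hle he) with h | ⟨b, hb, h⟩
        · exact h
        · exact absurd h (hcase e he he1 b hb)
  · rintro (⟨b, hb, rfl⟩ | h)
    · exact ⟨hS.conj_mem A hA b, conjBy_le hb⟩
    · rw [Set.mem_singleton_iff] at h
      rw [h]
      exact ⟨hc.1, le_sup_right⟩

theorem isSubgroupPartition (hS : IsRootSubgroupSet S) (hc : RootCommutatorCase S A B)
    (hA : A ∈ S) (hD : D ∈ S) (hAD : IsRankOnePair A D) :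
    IsSubgroupPartition (A ⊔ ⁅A, B⁆) (membersIn S (A ⊔ ⁅A, B⁆)) := by
  refine ⟨fun C hC => hC.2, ?_, ?_⟩
  · intro x hx _
    rcases cover hc hx with h | ⟨b, hb, h⟩
    · exact ⟨_, ⟨hc.1, le_sup_right⟩, h⟩
    · exact ⟨_, ⟨hS.conj_mem A hA b, conjBy_le hb⟩, h⟩
  · intro C hC E hE hne
    have hC' := hC
    have hE' := hE
    rw [membersIn_eq hS hc hA hD hAD] at hC' hE'
    rcases hC' with ⟨b, hb, rfl⟩ | hC'
    · rcases inf_eq_bot_or_eq hS (hS.conj_mem D hD b) hE.1 (RankOne.conj hAD b) with h | h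
      · exact h
      · exact absurd h hne
    · rcases hE' with ⟨b, hb, rfl⟩ | hE'
      · rcases inf_eq_bot_or_eq hS (hS.conj_mem D hD b) hC.1 (RankOne.conj hAD b) with h | h
        · rw [inf_comm]; exact h
        · exact absurd h.symm hne
      · rw [Set.mem_singleton_iff] at hC' hE'
        exact absurd (hC'.trans hE'.symm) hne

theorem mem_linePartners (hS : IsRootSubgroupSet S) (hc : RootCommutatorCase S A B)
    (hA : A ∈ S) (hD : D ∈ S) (hAD : IsRankOnePair A D) : A ∈ linePartners S ⁅A, B⁆ := by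
  refine ⟨⟨hA, ne_left hS hc, ?_⟩, ?_⟩
  · rw [commutator_eq_bot_iff]
    intro n hn a ha
    exact (comm_left hc ha hn).symm
  · rw [sup_comm]
    exact isSubgroupPartition hS hc hA hD hAD

theorem exists_mulEquiv (hS : IsRootSubgroupSet S) (hc : RootCommutatorCase S A B)
    (hA : A ∈ S) (hD : D ∈ S) (hAD : IsRankOnePair A D) {a : G} (ha : a ∈ A) (ha1 : a ≠ 1) :
    ∃ φ : ↥B ≃* ↥⁅A, B⁆, ∀ b : ↥B, (φ b : G) = a⁻¹ * (b : G)⁻¹ * a * b := by
  have hmem : ∀ b : ↥B, a⁻¹ * (b : G)⁻¹ * a * b ∈ ⁅A, B⁆ := by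
    intro b
    have := commElem_mem (inv_mem ha) (inv_mem b.2)
    simpa using this
  let f : ↥B →* ↥⁅A, B⁆ :=
    { toFun := fun b => ⟨a⁻¹ * (b : G)⁻¹ * a * b, hmem b⟩
      map_one' := by
        apply Subtype.ext
        simp
      map_mul' := by
        intro b b'
        apply Subtype.ext
        have h := mul_right hc (inv_mem ha) (inv_mem b'.2) (inv_mem b.2)
        have h2 := hc.2.1 _ (hmem b') _ (commutator_le_sup A B (hmem b))
        simp only [Subgroup.coe_mul, mul_inv_rev, inv_inv] at h ⊢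
        rw [h, h2] }
  refine ⟨MulEquiv.ofBijective f ⟨?_, ?_⟩, fun b => rfl⟩
  · rw [injective_iff_map_eq_one]
    intro b hb
    have h1 : a⁻¹ * (b : G)⁻¹ * a * b = 1 := congrArg Subtype.val hb
    by_contra hb1
    have hb1' : (b : G) ≠ 1 := fun h => hb1 (Subtype.ext h)
    apply not_commute hS hc hA hD hAD ha ha1 b.2 hb1'
    have : a * (b : G) = (b : G) * a * (a⁻¹ * (b : G)⁻¹ * a * b) := by group
    rw [this, h1, mul_one]
  · rintro ⟨n, hn⟩
    obtain ⟨b, hb, hbn⟩ := exists_right hc (inv_mem ha) (by simpa using ha1) hn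
    refine ⟨⟨b⁻¹, inv_mem hb⟩, ?_⟩
    apply Subtype.ext
    change a⁻¹ * (b⁻¹)⁻¹ * a * b⁻¹ = n
    rw [← hbn]; group

end CommCase

end Root

end Cfsg.Agent.Lib.Helper85
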