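import Cfsg.Agent.Lib.Helper85.RootEGraph

set_option autoImplicit false

namespace Cfsg.Agent.Lib.Helper85

open Cfsg

variable {G : Type*} [Group G]

namespace Root

variable {S : Set (Subgroup G)}

theorem line_mul_root (hS : IsRootSubgroupSet S) (hF : ∀ A ∈ S, ∃ B ∈ S, IsRankOnePair A B)
    {A B P : Subgroup G} (hA : A ∈ S) (hB : B ∈ linePartners S A)
    (hP : P ∈ membersIn S (A ⊔ B)) (hPA : P ≠ A) :
    ∀ a ∈ A, a ≠ 1 → ∀ p ∈ P, p ≠ 1 → p * a ∈ rootElements S := by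
  intro a ha _ p hp hp1
  apply line_root hB (mul_mem (hP.2 hp) (Subgroup.mem_sup_left ha))
  intro h1
  apply hPA
  have hpA : p ∈ A := by
    have : p = a⁻¹ := eq_inv_of_mul_eq_one_left h1
    rw [this]; exact inv_mem ha
  exact ti hS hF hP.1 hA hp hpA hp1

theorem line_step (hS : IsRootSubgroupSet S) (hF : ∀ A ∈ S, ∃ B ∈ S, IsRankOnePair A B)
    {A B C : Subgroup G} (hA : A ∈ S) (hB : B ∈ linePartners S A) (hC : C ∈ S)
    (hAC : IsRankOnePair A C) :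
    ∃ D ∈ membersIn S (A ⊔ B), D ≠ A ∧ RootCommutatorCase S D C ∧ ⁅A, ⁅D, C⁆⁆ = D := by
  obtain ⟨D, hD, hDA, hDC⟩ := exists_special_point hS hF hA hB hC hAC
  refine ⟨D, hD, hDA, hDC, ?_⟩
  exact comm_back hS hF hA hC hD.1 hAC
    (fun a ha d hd => line_comm hS hA hB a (Subgroup.mem_sup_left ha) d (hD.2 hd)) hDC
    (line_mul_root hS hF hA hB hD hDA)

/-- for `D = ⁅A, F⁆ ∈ S` there is `G₁ ∈ S` with `⁅D, G₁⁆ = A` -/
theorem exists_opposite_root (hS : IsRootSubgroupSet S)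
    (hF : ∀ A ∈ S, ∃ B ∈ S, IsRankOnePair A B) {A F : Subgroup G} (hA : A ∈ S)
    (hc : RootCommutatorCase S A F) : ∃ G₁ ∈ S, ⁅⁅A, F⁆, G₁⁆ = A := by
  obtain ⟨C, hC, hAC⟩ := hF A hA
  obtain ⟨T, hT, hDT⟩ := hF _ hc.1
  have hl : A ∈ linePartners S ⁅A, F⁆ := CommCase.mem_linePartners hS hc hA hC hAC
  obtain ⟨A', hA', hA'D, hA'T, hback⟩ := line_step hS hF hc.1 hl hT hDT
  have hA'' := hA'
  rw [sup_comm, CommCase.membersIn_eq hS hc hA hC hAC] at hA''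
  rcases hA'' with ⟨f, hf, rfl⟩ | hA''
  · refine ⟨conjBy ⁅conjBy A f, T⁆ f⁻¹, hS.conj_mem _ hA'T.1 _, ?_⟩
    have h1 := congrArg (fun K => conjBy K f⁻¹) hback
    simp only [conjBy_commutator, conjBy_conjBy, inv_mul_cancel, conjBy_one] at h1
    have h2 : conjBy F f⁻¹ = F := conjBy_of_mem (inv_mem hf)
    have h3 : ⁅conjBy A f⁻¹, F⁆ = ⁅A, F⁆ := by
      have := conjBy_commutator A F f⁻¹
      rw [h2] at this
      rw [← this]
      exact conjBy_eq_of_commute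
        (fun n hn => CommCase.comm_right hc (inv_mem hf) hn)
    rw [h2, h3] at h1
    rw [conjBy_commutator, conjBy_conjBy, inv_mul_cancel, conjBy_one]
    exact h1
  · rw [Set.mem_singleton_iff] at hA''
    exact absurd hA'' hA'D

theorem line_span (hS : IsRootSubgroupSet S) (hF : ∀ A ∈ S, ∃ B ∈ S, IsRankOnePair A B)
    {A B D G₁ : Subgroup G} (hA : A ∈ S) (hB : B ∈ linePartners S A)
    (hD : D ∈ membersIn S (A ⊔ B)) (hDA : D ≠ A) (hG : G₁ ∈ S) (hDG : ⁅D, G₁⁆ = A) :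
    A ⊔ B = A ⊔ D := by
  apply le_antisymm _ (sup_le le_sup_left hD.2)
  refine sup_le le_sup_left ?_
  have hcDG : RootCommutatorCase S D G₁ :=
    commutatorCase_of_mem hS hD.1 hG (by rw [hDG]; exact hA)
  have hAB := commutator_eq_bot_iff.1 hB.1.2.2
  have hGA : ∀ g ∈ G₁, ∀ a ∈ A, g * a = a * g := fun g hg a ha =>
    CommCase.comm_right hcDG hg (hDG.symm ▸ ha)
  obtain ⟨d, hd, hd1⟩ := exists_ne_one_of_ne_bot (hS.ne_bot D hD.1)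
  obtain ⟨g, hg, hg1⟩ := exists_ne_one_of_ne_bot (hS.ne_bot G₁ hG)
  obtain ⟨a, ha, b, hb, hdab⟩ := (mem_sup_of_commute hAB).1 (hD.2 hd)
  have hb1 : b ≠ 1 := by
    rintro rfl
    rw [mul_one] at hdab
    exact hDA (ti hS hF hD.1 hA hd (hdab ▸ ha) hd1)
  obtain ⟨T, hT, hDT⟩ := hF D hD.1
  obtain ⟨T', hT', hBT⟩ := hF B hB.1.1
  -- the commutator of g and b
  have hαA : g * d * g⁻¹ * d⁻¹ ∈ A := by
    have := inv_mem (commElem_mem hd hg)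
    rw [hDG] at this
    have e : (d * g * d⁻¹ * g⁻¹)⁻¹ = g * d * g⁻¹ * d⁻¹ := by group
    rwa [e] at this
  have hα1 : g * d * g⁻¹ * d⁻¹ ≠ 1 := by
    intro h1
    apply CommCase.not_commute hS hcDG hD.1 hT hDT hd hd1 hg hg1
    have : g * d = (g * d * g⁻¹ * d⁻¹) * (d * g) := by group
    rw [h1, one_mul] at this
    exact this.symm
  have hαe : g * b * g⁻¹ * b⁻¹ = g * d * g⁻¹ * d⁻¹ := by
    have e1 : g * d * g⁻¹ * d⁻¹ = a * (g * b * g⁻¹ * b⁻¹) * a⁻¹ := by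
      rw [hdab]
      calc g * (a * b) * g⁻¹ * (a * b)⁻¹ = (g * a) * b * g⁻¹ * b⁻¹ * a⁻¹ := by group
        _ = _ := by rw [hGA g hg a ha]; group
    have e2 : g * b * g⁻¹ * b⁻¹ = a⁻¹ * (g * d * g⁻¹ * d⁻¹) * a := by rw [e1]; group
    rw [e2, mul_assoc, comm_mem hS hA hαA ha]; group
  set α := g * b * g⁻¹ * b⁻¹ with hαdef
  rw [← hαe] at hαA hα1
  have hcBG : RootCommutatorCase S B G₁ := by
    rcases hS.pair B hB.1.1 G₁ hG with h | h | h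
    · exfalso
      apply hα1
      rw [hαdef, ← commutator_eq_bot_iff.1 h b hb g hg]; group
    · exfalso
      apply not_root_of_commute hS hB.1.1 hG h (z := α) (fun x hx => hAB α hαA x hx)
        (fun x hx => (hGA x hx α hαA).symm) hα1 hb hb1
      have e : α * b = g * b * g⁻¹ := by rw [hαdef]; group
      rw [e]
      refine ⟨?_, _, hS.conj_mem B hB.1.1 g, conj_mem_conjBy hb g⟩
      intro h1
      apply hb1
      have : b = g⁻¹ * (g * b * g⁻¹) * g := by group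
      rw [this, h1]; group
    · exact h
  have hBG : ⁅B, G₁⁆ = A := by
    have hmem : α ∈ ⁅B, G₁⁆ := by
      have := inv_mem (commElem_mem hb hg)
      have e : (b * g * b⁻¹ * g⁻¹)⁻¹ = α := by rw [hαdef]; group
      rwa [e] at this
    exact ti hS hF hcBG.1 hA hmem hαA hα1
  intro b' hb'
  have hβ : b' * g * b'⁻¹ * g⁻¹ ∈ ⁅D, G₁⁆ := by
    rw [hDG, ← hBG]; exact commElem_mem hb' hg
  obtain ⟨d', hd', hd'e⟩ := CommCase.exists_left hcDG hg hg1 hβ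
  have hn : d'⁻¹ * b' ∈ A ⊔ B := mul_mem (inv_mem (hD.2 hd')) (Subgroup.mem_sup_right hb')
  obtain ⟨a'', ha'', b'', hb'', hne⟩ := (mem_sup_of_commute hAB).1 hn
  have hcomm : (d'⁻¹ * b') * g = g * (d'⁻¹ * b') := by
    have e1 : b' * g * b'⁻¹ = d' * g * d'⁻¹ := by
      have : b' * g * b'⁻¹ = (b' * g * b'⁻¹ * g⁻¹) * g := by group
      rw [this, ← hd'e]; group
    calc (d'⁻¹ * b') * g = d'⁻¹ * (b' * g * b'⁻¹) * b' := by group
      _ = _ := by rw [e1]; group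
  have hb''1 : b'' = 1 := by
    by_contra hb''1
    apply CommCase.not_commute hS hcBG hB.1.1 hT' hBT hb'' hb''1 hg hg1
    rw [hne] at hcomm
    have h1 : Commute (a'' * b'') g := hcomm
    have h2 : Commute a'' g := (hGA g hg a'' ha'').symm
    have h3 := h2.inv_left.mul_left h1
    have e : a''⁻¹ * (a'' * b'') = b'' := by group
    rw [e] at h3
    exact h3.eq
  rw [hb''1, mul_one] at hne
  have : b' = d' * a'' := by rw [← hne]; group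
  rw [this]
  exact mul_mem (Subgroup.mem_sup_right hd') (Subgroup.mem_sup_left ha'')

/-- structure of a line through `A`, relative to a rank one partner `C` of `A` -/
theorem line_structure (hS : IsRootSubgroupSet S) (hF : ∀ A ∈ S, ∃ B ∈ S, IsRankOnePair A B)
    {A B C : Subgroup G} (hA : A ∈ S) (hB : B ∈ linePartners S A) (hC : C ∈ S)
    (hAC : IsRankOnePair A C) :
    ∃ D ∈ S, ∃ G₁ ∈ S, D ≠ A ∧ RootCommutatorCase S D C ∧ A ⊔ B = A ⊔ D ∧ ⁅A, ⁅D, C⁆⁆ = D ∧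
      ⁅G₁, D⁆ = A := by
  obtain ⟨D, hD, hDA, hDC, hback⟩ := line_step hS hF hA hB hC hAC
  have hc : RootCommutatorCase S A ⁅D, C⁆ :=
    commutatorCase_of_mem hS hA hDC.1 (by rw [hback]; exact hD.1)
  obtain ⟨G₁, hG, hG'⟩ := exists_opposite_root hS hF hA hc
  rw [hback] at hG'
  refine ⟨D, hD.1, G₁, hG, hDA, hDC, line_span hS hF hA hB hD hDA hG hG', hback, ?_⟩
  rw [Subgroup.commutator_comm]; exact hG'

theorem opp_conj_eq (hS : IsRootSubgroupSet S) {A B D : Subgroup G}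
    (hc1 : RootCommutatorCase S A B) (hc2 : RootCommutatorCase S D ⁅A, B⁆)
    (hDC : ⁅D, ⁅A, B⁆⁆ = A) {u v : G} (hu : u ∈ B ⊔ D) (hv : v ∈ B ⊔ D)
    (h : conjBy D u = conjBy D v) : conjBy A u = conjBy A v := by
  have h2 : conjBy D (v⁻¹ * u) = D := by
    rw [← conjBy_conjBy, h, conjBy_conjBy, inv_mul_cancel, conjBy_one]
  have h3 := opp_conj_D hS hc1 hc2 hDC (mul_mem (inv_mem hv) hu) h2
  rw [← conjBy_conjBy, conjBy_eq_iff, inv_inv] at h3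
  exact h3

theorem opp_two_transitive (hS : IsRootSubgroupSet S) {A B D : Subgroup G} (hA : A ∈ S)
    (hB : B ∈ S) (hD : D ∈ S)
    (hc1 : RootCommutatorCase S A B) (hc2 : RootCommutatorCase S D ⁅A, B⁆)
    (hDC : ⁅D, ⁅A, B⁆⁆ = A) {x₁ x₂ y₁ y₂ : G} (hx₁ : x₁ ∈ B ⊔ D) (hx₂ : x₂ ∈ B ⊔ D)
    (hy₁ : y₁ ∈ B ⊔ D) (hy₂ : y₂ ∈ B ⊔ D) (hx : conjBy A x₁ ≠ conjBy A x₂)
    (hy : conjBy A y₁ ≠ conjBy A y₂) :
    ∃ x ∈ B ⊔ D, conjBy (conjBy A x₁) x = conjBy A y₁ ∧ conjBy (conjBy A x₂) x = conjBy A y₂ := by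
  have h := RankOnePair_symm (opp_rankOne hS hA hB hD hc1 hc2 hDC)
  have hmem : ∀ u ∈ B ⊔ D, conjBy D u ∈ unipotentSubgroups D B := fun u hu =>
    ⟨u, by rwa [sup_comm], rfl⟩
  obtain ⟨x, hx', h1, h2⟩ := RankOne.two_transitive h (hmem x₁ hx₁) (hmem x₂ hx₂) (hmem y₁ hy₁)
    (hmem y₂ hy₂) (fun he => hx (opp_conj_eq hS hc1 hc2 hDC hx₁ hx₂ he))
    (fun he => hy (opp_conj_eq hS hc1 hc2 hDC hy₁ hy₂ he))
  rw [sup_comm] at hx'
  rw [conjBy_conjBy] at h1 h2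
  refine ⟨x, hx', ?_, ?_⟩
  · rw [conjBy_conjBy]
    exact opp_conj_eq hS hc1 hc2 hDC (mul_mem hx' hx₁) hy₁ h1
  · rw [conjBy_conjBy]
    exact opp_conj_eq hS hc1 hc2 hDC (mul_mem hx' hx₂) hy₂ h2

theorem opp_point (hS : IsRootSubgroupSet S) (hF : ∀ A ∈ S, ∃ B ∈ S, IsRankOnePair A B)
    {A B D P : Subgroup G} (hA : A ∈ S)
    (hB : B ∈ S) (hD : D ∈ S)
    (hc1 : RootCommutatorCase S A B) (hc2 : RootCommutatorCase S D ⁅A, B⁆)
    (hDC : ⁅D, ⁅A, B⁆⁆ = A) (hP : P ∈ membersIn S (A ⊔ ⁅A, B⁆)) :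
    ∃ x ∈ B ⊔ D, P = conjBy A x := by
  obtain ⟨T, hT, hAT⟩ := hF A hA
  rw [CommCase.membersIn_eq hS hc1 hA hT hAT] at hP
  rcases hP with ⟨b, hb, rfl⟩ | hP
  · exact ⟨b, Subgroup.mem_sup_left hb, rfl⟩
  · rw [Set.mem_singleton_iff] at hP
    obtain ⟨z, hz, hzA⟩ := opp_exists hS hA hB hD hc1 hc2 hDC
    exact ⟨z⁻¹, inv_mem hz, hP.trans (conjBy_eq_iff.1 hzA)⟩

theorem line_two_transitive (hS : IsRootSubgroupSet S)
    (hF : ∀ A ∈ S, ∃ B ∈ S, IsRankOnePair A B) {A B : Subgroup G} (hA : A ∈ S)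
    (hB : B ∈ linePartners S A) :
    ∀ C₁ ∈ membersIn S (A ⊔ B), ∀ C₂ ∈ membersIn S (A ⊔ B), ∀ D₁ ∈ membersIn S (A ⊔ B),
      ∀ D₂ ∈ membersIn S (A ⊔ B), C₁ ≠ C₂ → D₁ ≠ D₂ →
        ∃ x ∈ ⨆ E ∈ normalizingMembers S (A ⊔ B), E, conjBy C₁ x = D₁ ∧ conjBy C₂ x = D₂ := by
  obtain ⟨C, hC, hAC⟩ := hF A hA
  obtain ⟨D, hD, G₁, hG, -, hDC, hspan, hback, hGD⟩ := line_structure hS hF hA hB hC hAC
  obtain ⟨F, hFdef⟩ : ∃ F, F = ⁅D, C⁆ := ⟨_, rfl⟩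
  have hFS : F ∈ S := hFdef ▸ hDC.1
  rw [← hFdef] at hback
  clear hDC
  subst hback
  rw [hspan]
  have hc1 : RootCommutatorCase S A F := commutatorCase_of_mem hS hA hFS hD
  have hc2 : RootCommutatorCase S G₁ ⁅A, F⁆ :=
    commutatorCase_of_mem hS hG hD (by rw [hGD]; exact hA)
  have hle : F ⊔ G₁ ≤ ⨆ E ∈ normalizingMembers S (A ⊔ ⁅A, F⁆), E := by
    refine sup_le ?_ ?_
    · refine le_iSup₂_of_le F ⟨hFS, fun x hx => ?_⟩ le_rfl
      exact conjBy_eq_self_iff.1 (opp_norm hc2 hc1 hGD (Subgroup.mem_sup_left hx))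
    · refine le_iSup₂_of_le G₁ ⟨hG, fun x hx => ?_⟩ le_rfl
      exact conjBy_eq_self_iff.1 (opp_norm hc2 hc1 hGD (Subgroup.mem_sup_right hx))
  intro C₁ hC₁ C₂ hC₂ D₁ hD₁ D₂ hD₂ hCne hDne
  obtain ⟨x₁, hx₁, rfl⟩ := opp_point hS hF hA hFS hG hc1 hc2 hGD hC₁
  obtain ⟨x₂, hx₂, rfl⟩ := opp_point hS hF hA hFS hG hc1 hc2 hGD hC₂
  obtain ⟨y₁, hy₁, rfl⟩ := opp_point hS hF hA hFS hG hc1 hc2 hGD hD₁
  obtain ⟨y₂, hy₂, rfl⟩ := opp_point hS hF hA hFS hG hc1 hc2 hGD hD₂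
  obtain ⟨x, hx, h1, h2⟩ := opp_two_transitive hS hA hFS hG hc1 hc2 hGD hx₁ hx₂ hy₁ hy₂ hCne hDne
  exact ⟨x, hle hx, h1, h2⟩

end Root

end Cfsg.Agent.Lib.Helper85
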