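import Cfsg.Agent.Lib.Helper85.RootHyper

set_option autoImplicit false

namespace Cfsg.Agent.Lib.Helper85

open Cfsg

variable {G : Type*} [Group G]

theorem commutator_le_iff' {H K V : Subgroup G} :
    ⁅H, K⁆ ≤ V ↔ ∀ h ∈ H, ∀ k ∈ K, h * k * h⁻¹ * k⁻¹ ∈ V := Subgroup.commutator_le

theorem comm_sup_left {W₁ W₂ R V : Subgroup G} (hV : ∀ w ∈ W₁ ⊔ W₂, ∀ v ∈ V, w * v * w⁻¹ ∈ V)
    (h1 : ⁅W₁, R⁆ ≤ V) (h2 : ⁅W₂, R⁆ ≤ V) : ⁅W₁ ⊔ W₂, R⁆ ≤ V := by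
  rw [commutator_le_iff'] at h1 h2 ⊢
  intro w hw r hr
  have key : ∀ w ∈ W₁ ⊔ W₂, w * r * w⁻¹ * r⁻¹ ∈ V := by
    intro w hw
    have hw' := hw
    rw [Subgroup.sup_eq_closure] at hw'
    induction hw' using Subgroup.closure_induction with
    | mem x hx =>
      rcases hx with hx | hx
      · exact h1 x hx r hr
      · exact h2 x hx r hr
    | one => simp
    | mul x y hx hy ihx ihy =>
      rw [← Subgroup.sup_eq_closure] at hx hy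
      have e : (x * y) * r * (x * y)⁻¹ * r⁻¹
          = (x * (y * r * y⁻¹ * r⁻¹) * x⁻¹) * (x * r * x⁻¹ * r⁻¹) := by group
      rw [e]
      exact mul_mem (hV x hx _ (ihy hy)) (ihx hx)
    | inv x hx ihx =>
      rw [← Subgroup.sup_eq_closure] at hx
      have e : x⁻¹ * r * x⁻¹⁻¹ * r⁻¹ = x⁻¹ * (x * r * x⁻¹ * r⁻¹)⁻¹ * x⁻¹⁻¹ := by group
      rw [e]
      exact hV x⁻¹ (inv_mem hx) _ (inv_mem (ihx hx))
  exact key w hw

theorem comm_sup_right {W R₁ R₂ V : Subgroup G} (hV : ∀ w ∈ R₁ ⊔ R₂, ∀ v ∈ V, w * v * w⁻¹ ∈ V)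
    (h1 : ⁅W, R₁⁆ ≤ V) (h2 : ⁅W, R₂⁆ ≤ V) : ⁅W, R₁ ⊔ R₂⁆ ≤ V := by
  rw [Subgroup.commutator_comm] at h1 h2 ⊢
  exact comm_sup_left hV h1 h2

theorem normalized_of_comm_le {V R : Subgroup G} (h : ⁅V, R⁆ ≤ V) :
    ∀ r ∈ R, ∀ v ∈ V, r * v * r⁻¹ ∈ V := by
  rw [commutator_le_iff'] at h
  intro r hr v hv
  have e : r * v * r⁻¹ = (v * r * v⁻¹ * r⁻¹)⁻¹ * v := by group
  rw [e]
  exact mul_mem (inv_mem (h v hv r hr)) hv

theorem normalized_of_commute {V R : Subgroup G} (h : ∀ v ∈ V, ∀ r ∈ R, v * r = r * v) :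
    ∀ r ∈ R, ∀ v ∈ V, r * v * r⁻¹ ∈ V := by
  intro r hr v hv
  rw [← h v hv r hr]
  simpa using hv

theorem comm_le_of_commute {H K V : Subgroup G} (h : ∀ x ∈ H, ∀ y ∈ K, x * y = y * x) :
    ⁅H, K⁆ ≤ V := by
  rw [commutator_eq_bot_iff.2 h]; exact bot_le

theorem comm_triple_right {W V A B C : Subgroup G}
    (hV : ∀ r ∈ A ⊔ B ⊔ C, ∀ v ∈ V, r * v * r⁻¹ ∈ V) (hA : ⁅W, A⁆ ≤ V) (hB : ⁅W, B⁆ ≤ V)
    (hC : ⁅W, C⁆ ≤ V) : ⁅W, A ⊔ B ⊔ C⁆ ≤ V :=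
  comm_sup_right hV (comm_sup_right (fun w hw => hV w (le_sup_left (a := A ⊔ B) hw)) hA hB) hC

theorem commute_triple {A B C : Subgroup G} {n : G} (hA : ∀ a ∈ A, n * a = a * n)
    (hB : ∀ b ∈ B, n * b = b * n) (hC : ∀ c ∈ C, n * c = c * n) :
    ∀ x ∈ A ⊔ B ⊔ C, n * x = x * n :=
  RankOne.commute_sup_of (RankOne.commute_sup_of hA hB) hC

namespace Root

variable {S : Set (Subgroup G)}

section Nilp

variable {A B C : Subgroup G}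

/-- `A` centralizing `C` and `b⁻¹ C b` implies `b⁻¹ A b` centralizes `C` -/
theorem comm_transfer (hAC : ∀ a ∈ A, ∀ c ∈ C, a * c = c * a) (hc2 : RootCommutatorCase S B C)
    {b : G} (hb : b ∈ B) (hb1 : b ≠ 1)
    (h : ∀ a ∈ A, ∀ x ∈ conjBy C b⁻¹, a * x = x * a) :
    ∀ y ∈ conjBy A b⁻¹, ∀ c ∈ C, y * c = c * y := by
  have h1 : ∀ a ∈ A, ∀ n ∈ ⁅B, C⁆, a * n = n * a := by
    intro a ha n hn
    obtain ⟨c, hc, rfl⟩ := CommCase.exists_right hc2 (inv_mem hb) (by simpa using hb1) hn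
    have k1 : Commute a (b⁻¹ * c * b⁻¹⁻¹) := h a ha _ (conj_mem_conjBy hc b⁻¹)
    have k2 : Commute a c⁻¹ := hAC a ha _ (inv_mem hc)
    exact (k1.mul_right k2).eq
  have h2 : ∀ a ∈ A, ∀ x ∈ conjBy C b, a * x = x * a := by
    intro a ha x hx
    rw [mem_conjBy] at hx
    have k1 : Commute a (b * (b⁻¹ * x * b) * b⁻¹ * (b⁻¹ * x * b)⁻¹) :=
      h1 a ha _ (commElem_mem hb hx)
    have k2 : Commute a (b⁻¹ * x * b) := hAC a ha _ hx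
    have k3 := k1.mul_right k2
    have e : b * (b⁻¹ * x * b) * b⁻¹ * (b⁻¹ * x * b)⁻¹ * (b⁻¹ * x * b) = x := by group
    rw [e] at k3
    exact k3.eq
  have h3 := commute_conjBy h2 b⁻¹
  rwa [conjBy_conjBy, inv_mul_cancel, conjBy_one] at h3

theorem conj_comm_self (hS : IsRootSubgroupSet S) (hA : A ∈ S) (hc1 : RootCommutatorCase S A B)
    {b : G} (hb : b ∈ B) : ∀ a ∈ A, ∀ y ∈ conjBy A b, a * y = y * a := by
  intro a ha y hy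
  have hy' := CommCase.conjBy_le (A := A) hb hy
  exact RankOne.commute_sup_of (fun x hx => comm_mem hS hA ha hx)
    (fun n hn => CommCase.comm_left hc1 ha hn) y hy'

theorem nilp_not_rankOne (hS : IsRootSubgroupSet S) (hA : A ∈ S) (hC : C ∈ S)
    (hAC : ∀ a ∈ A, ∀ c ∈ C, a * c = c * a) (hc1 : RootCommutatorCase S A B)
    {b : G} (hb : b ∈ B) (hb1 : b ≠ 1) : ¬ IsRankOnePair A (conjBy C b⁻¹) := by
  intro hr
  obtain ⟨a', ha', hne⟩ :=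
    CommCase.exists_not_commute_left hS hc1 (inv_mem hb) (by simpa using hb1 : b⁻¹ ≠ 1)
  have ha'1 : a' ≠ 1 := by
    rintro rfl
    exact hne (by simp)
  have hz : b⁻¹ * a' * b⁻¹⁻¹ ∈ conjBy A b⁻¹ := conj_mem_conjBy ha' b⁻¹
  apply not_root_of_commute hS hA (hS.conj_mem C hC b⁻¹) hr (z := b⁻¹ * a' * b⁻¹⁻¹) (a := a'⁻¹)
    (fun x hx => (conj_comm_self hS hA hc1 (inv_mem hb) x hx _ hz).symm)
    (fun x hx => commute_conjBy hAC b⁻¹ _ hz x hx) ?_ (inv_mem ha') (by simpa using ha'1)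
  · refine ⟨?_, ⁅A, B⁆, hc1.1, ?_⟩
    · intro h1
      apply hne
      have : b⁻¹ * a' = (b⁻¹ * a' * b⁻¹⁻¹ * a'⁻¹) * (a' * b⁻¹) := by group
      rw [h1, one_mul] at this
      exact this.symm
    · have := inv_mem (commElem_mem ha' (inv_mem hb))
      have e : (a' * b⁻¹ * a'⁻¹ * b⁻¹⁻¹)⁻¹ = b⁻¹ * a' * b⁻¹⁻¹ * a'⁻¹ := by group
      rwa [e] at this
  · intro h1
    apply ha'1
    have : a' = b⁻¹⁻¹ * (b⁻¹ * a' * b⁻¹⁻¹) * b⁻¹ := by group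
    rw [this, h1]; group

theorem commutator_le_sup_conj (hc1 : RootCommutatorCase S A B) {b : G} (hb : b ∈ B)
    (hb1 : b ≠ 1) : ⁅A, B⁆ ≤ A ⊔ conjBy A b⁻¹ := by
  intro n hn
  obtain ⟨a, ha, rfl⟩ := CommCase.exists_left hc1 (inv_mem hb) (by simpa using hb1) hn
  have h1 : b⁻¹ * a⁻¹ * b⁻¹⁻¹ ∈ conjBy A b⁻¹ := conj_mem_conjBy (inv_mem ha) b⁻¹
  have := mul_mem (Subgroup.mem_sup_left (T := conjBy A b⁻¹) ha) (Subgroup.mem_sup_right h1)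
  simpa [mul_assoc] using this

theorem nilp_XY (hS : IsRootSubgroupSet S) (hA : A ∈ S) (hC : C ∈ S)
    (hAC : ∀ a ∈ A, ∀ c ∈ C, a * c = c * a) (hc1 : RootCommutatorCase S A B)
    (hc2 : RootCommutatorCase S B C) {b : G} (hb : b ∈ B) :
    ∀ x ∈ A ⊔ conjBy C b⁻¹, ∀ y ∈ conjBy A b⁻¹ ⊔ C, x * y = y * x := by
  have h1 : ∀ a ∈ A, ∀ y ∈ conjBy A b⁻¹ ⊔ C, a * y = y * a := fun a ha =>
    RankOne.commute_sup_of (conj_comm_self hS hA hc1 (inv_mem hb) a ha) (hAC a ha)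
  have h2 : ∀ x ∈ conjBy C b⁻¹, ∀ y ∈ conjBy A b⁻¹ ⊔ C, x * y = y * x := fun x hx =>
    RankOne.commute_sup_of (fun y hy => (commute_conjBy hAC b⁻¹ y hy x hx).symm)
      (fun c hc => (conj_comm_self hS hC (CommCase.symm hc2) (inv_mem hb) c hc x hx).symm)
  intro x hx y hy
  exact (RankOne.commute_sup_of (fun a ha => (h1 a ha y hy).symm)
    (fun c hc => (h2 c hc y hy).symm) x hx).symm

theorem nilp_dich (hS : IsRootSubgroupSet S) (hA : A ∈ S) (hC : C ∈ S)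
    (hAC : ∀ a ∈ A, ∀ c ∈ C, a * c = c * a) (hc1 : RootCommutatorCase S A B)
    {b : G} (hb : b ∈ B) (hb1 : b ≠ 1) :
    ⁅A, conjBy C b⁻¹⁆ = ⊥ ∨ RootCommutatorCase S A (conjBy C b⁻¹) := by
  rcases hS.pair A hA _ (hS.conj_mem C hC b⁻¹) with h | h | h
  · exact Or.inl h
  · exact absurd h (nilp_not_rankOne hS hA hC hAC hc1 hb hb1)
  · exact Or.inr h

theorem class_two (hS : IsRootSubgroupSet S) {P Q : Subgroup G} (hP : P ∈ S) (hQ : Q ∈ S)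
    (hc : RootCommutatorCase S P Q) :
    ¬ IsMulCommutative ↥(P ⊔ Q) ∧ ⁅⁅P ⊔ Q, P ⊔ Q⁆, P ⊔ Q⁆ = ⊥ := by
  constructor
  · intro hcomm
    apply hS.ne_bot _ hc.1
    rw [commutator_eq_bot_iff]
    intro p hp q hq
    exact comm_of_isMulCommutative hcomm (Subgroup.mem_sup_left hp) (Subgroup.mem_sup_right hq)
  · have hV : ∀ w ∈ P ⊔ Q, ∀ v ∈ ⁅P, Q⁆, w * v * w⁻¹ ∈ ⁅P, Q⁆ :=
      normalized_of_commute (fun v hv r hr => hc.2.1 v hv r hr)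
    have h1 : ⁅P ⊔ Q, P ⊔ Q⁆ ≤ ⁅P, Q⁆ := by
      apply comm_sup_left hV
      · exact comm_sup_right hV (comm_le_of_commute (fun _ h _ h' => comm_mem hS hP h h')) le_rfl
      · exact comm_sup_right hV (by rw [Subgroup.commutator_comm])
          (comm_le_of_commute (fun _ h _ h' => comm_mem hS hQ h h'))
    rw [eq_bot_iff]
    refine (Subgroup.commutator_mono h1 le_rfl).trans ?_
    exact comm_le_of_commute (fun v hv r hr => hc.2.1 v hv r hr)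

/-- elements of `K = ⁅A, b⁻¹ C b⁆` centralize all conjugates of `A` and `C` under `B` -/
theorem nilp_K_comm (hS : IsRootSubgroupSet S) (hA : A ∈ S) (hC : C ∈ S)
    (hAC : ∀ a ∈ A, ∀ c ∈ C, a * c = c * a) (hc1 : RootCommutatorCase S A B)
    (hc2 : RootCommutatorCase S B C) {b : G} (hb : b ∈ B) (hb1 : b ≠ 1) {k : G}
    (hk : k ∈ ⁅A, conjBy C b⁻¹⁆) {g : G} (hg : g ∈ B) :
    (∀ x ∈ conjBy A g, k * x = x * k) ∧ (∀ x ∈ conjBy C g, k * x = x * k) := by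
  have hkX : k ∈ A ⊔ conjBy C b⁻¹ := commutator_le_sup _ _ hk
  have hY := nilp_XY hS hA hC hAC hc1 hc2 hb k hkX
  have hX : ∀ x ∈ A ⊔ conjBy C b⁻¹, k * x = x * k := by
    rcases nilp_dich hS hA hC hAC hc1 hb hb1 with h | h
    · rw [h, Subgroup.mem_bot] at hk
      intro x _
      rw [hk]; simp
    · exact h.2.1 k hk
  constructor
  · intro x hx
    have h1 : x ∈ A ⊔ conjBy A b⁻¹ :=
      sup_le le_sup_left (commutator_le_sup_conj hc1 hb hb1) (CommCase.conjBy_le (A := A) hg hx)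
    exact RankOne.commute_sup_of (fun a ha => hX a (Subgroup.mem_sup_left ha))
      (fun y hy => hY y (Subgroup.mem_sup_left hy)) x h1
  · intro x hx
    have h1 : x ∈ C ⊔ conjBy C b⁻¹ :=
      sup_le le_sup_left (commutator_le_sup_conj (CommCase.symm hc2) hb hb1)
        (CommCase.conjBy_le (A := C) hg hx)
    exact RankOne.commute_sup_of (fun c hc => hY c (Subgroup.mem_sup_right hc))
      (fun y hy => hX y (Subgroup.mem_sup_right hy)) x h1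

theorem nilp_K_conj_comm (hS : IsRootSubgroupSet S) (hA : A ∈ S) (hC : C ∈ S)
    (hAC : ∀ a ∈ A, ∀ c ∈ C, a * c = c * a) (hc1 : RootCommutatorCase S A B)
    (hc2 : RootCommutatorCase S B C) {b : G} (hb : b ∈ B) (hb1 : b ≠ 1) {k : G}
    (hk : k ∈ ⁅A, conjBy C b⁻¹⁆) {β g : G} (hβ : β ∈ B) (hg : g ∈ B) :
    (∀ x ∈ conjBy A g, (β * k * β⁻¹) * x = x * (β * k * β⁻¹)) ∧
      (∀ x ∈ conjBy C g, (β * k * β⁻¹) * x = x * (β * k * β⁻¹)) := by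
  have h := nilp_K_comm hS hA hC hAC hc1 hc2 hb hb1 hk (mul_mem (inv_mem hβ) hg)
  constructor
  · intro x hx
    have hx' : β⁻¹ * x * β⁻¹⁻¹ ∈ conjBy A (β⁻¹ * g) := by
      rw [← conjBy_conjBy]; exact conj_mem_conjBy hx β⁻¹
    have := h.1 _ hx'
    calc (β * k * β⁻¹) * x = β * (k * (β⁻¹ * x * β⁻¹⁻¹)) * β⁻¹ := by group
      _ = β * ((β⁻¹ * x * β⁻¹⁻¹) * k) * β⁻¹ := by rw [this]
      _ = _ := by group
  · intro x hx
    have hx' : β⁻¹ * x * β⁻¹⁻¹ ∈ conjBy C (β⁻¹ * g) := by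
      rw [← conjBy_conjBy]; exact conj_mem_conjBy hx β⁻¹
    have := h.2 _ hx'
    calc (β * k * β⁻¹) * x = β * (k * (β⁻¹ * x * β⁻¹⁻¹)) * β⁻¹ := by group
      _ = β * ((β⁻¹ * x * β⁻¹⁻¹) * k) * β⁻¹ := by rw [this]
      _ = _ := by group

/-- `L = ⁅K, B⁆` is central in `⟨A, B, C⟩` -/
theorem nilp_L_comm (hS : IsRootSubgroupSet S) (hA : A ∈ S) (hB : B ∈ S) (hC : C ∈ S)
    (hAC : ∀ a ∈ A, ∀ c ∈ C, a * c = c * a) (hc1 : RootCommutatorCase S A B)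
    (hc2 : RootCommutatorCase S B C) {b : G} (hb : b ∈ B) (hb1 : b ≠ 1) {l : G}
    (hl : l ∈ ⁅⁅A, conjBy C b⁻¹⁆, B⁆) : ∀ x ∈ A ⊔ B ⊔ C, l * x = x * l := by
  have key : ∀ (T : Subgroup G), (∀ k ∈ ⁅A, conjBy C b⁻¹⁆, ∀ β ∈ B, ∀ x ∈ T,
      (β * k * β⁻¹) * x = x * (β * k * β⁻¹)) → ∀ x ∈ T, l * x = x * l := by
    intro T hT
    have hle : ⁅⁅A, conjBy C b⁻¹⁆, B⁆ ≤ Subgroup.centralizer (T : Set G) := by
      rw [commutator_le_iff']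
      intro k hk β hβ
      rw [Subgroup.mem_centralizer_iff]
      intro x hx
      have k1 : Commute (1 * k * 1⁻¹) x := hT k hk 1 (one_mem _) x hx
      have k2 : Commute (β * k⁻¹ * β⁻¹) x := hT _ (inv_mem hk) β hβ x hx
      have k3 := k1.mul_left k2
      have e : 1 * k * 1⁻¹ * (β * k⁻¹ * β⁻¹) = k * β * k⁻¹ * β⁻¹ := by group
      rw [e] at k3
      exact k3.eq.symm
    intro x hx
    exact (Subgroup.mem_centralizer_iff.1 (hle hl) x hx).symm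
  apply commute_triple
  · apply key A
    intro k hk β hβ x hx
    have := (nilp_K_conj_comm hS hA hC hAC hc1 hc2 hb hb1 hk hβ (one_mem B)).1 x
    rw [conjBy_one] at this
    exact this hx
  · rcases nilp_dich hS hA hC hAC hc1 hb hb1 with h | h
    · rw [h] at hl
      have : (⁅(⊥ : Subgroup G), B⁆ : Subgroup G) = ⊥ := Subgroup.commutator_bot_left B
      rw [this, Subgroup.mem_bot] at hl
      intro x _
      rw [hl]; simp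
    · rcases hS.pair _ h.1 B hB with h' | h' | h'
      · rw [h', Subgroup.mem_bot] at hl
        intro x _
        rw [hl]; simp
      · exfalso
        apply RankOne.conj_not_le_normalizer (RankOnePair_symm h') hb hb1
        refine le_trans ?_ (Subgroup.centralizer_le_normalizer _)
        intro y hy
        rw [mem_conjBy] at hy
        rw [Subgroup.mem_centralizer_iff]
        intro k hk
        have hkX : k ∈ A ⊔ conjBy C b⁻¹ := commutator_le_sup _ _ hk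
        have h1 := nilp_K_conj_comm hS hA hC hAC hc1 hc2 hb hb1 hy hb (one_mem B)
        have h2 := nilp_K_conj_comm hS hA hC hAC hc1 hc2 hb hb1 hy hb (inv_mem hb)
        rw [conjBy_one] at h1
        have e : b * (b⁻¹ * y * b) * b⁻¹ = y := by group
        rw [e] at h1 h2
        exact (RankOne.commute_sup_of h1.1 h2.2 k hkX).symm
      · intro x hx
        exact h'.2.1 l hl x (Subgroup.mem_sup_right hx)
  · apply key C
    intro k hk β hβ x hx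
    have := (nilp_K_conj_comm hS hA hC hAC hc1 hc2 hb hb1 hk hβ (one_mem B)).2 x
    rw [conjBy_one] at this
    exact this hx

theorem nilp_K_comm' (hS : IsRootSubgroupSet S) (hA : A ∈ S) (hC : C ∈ S)
    (hAC : ∀ a ∈ A, ∀ c ∈ C, a * c = c * a) (hc1 : RootCommutatorCase S A B)
    (hc2 : RootCommutatorCase S B C) {b : G} (hb : b ∈ B) (hb1 : b ≠ 1) :
    (∀ k ∈ ⁅A, conjBy C b⁻¹⁆, ∀ x ∈ A, k * x = x * k) ∧
    (∀ k ∈ ⁅A, conjBy C b⁻¹⁆, ∀ x ∈ C, k * x = x * k) ∧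
    (∀ k ∈ ⁅A, conjBy C b⁻¹⁆, ∀ x ∈ conjBy A b⁻¹, k * x = x * k) ∧
    (∀ k ∈ ⁅A, conjBy C b⁻¹⁆, ∀ x ∈ conjBy C b⁻¹, k * x = x * k) := by
  refine ⟨?_, ?_, ?_, ?_⟩
  · intro k hk x hx
    have := (nilp_K_comm hS hA hC hAC hc1 hc2 hb hb1 hk (one_mem B)).1 x
    rw [conjBy_one] at this
    exact this hx
  · intro k hk x hx
    have := (nilp_K_comm hS hA hC hAC hc1 hc2 hb hb1 hk (one_mem B)).2 x
    rw [conjBy_one] at this
    exact this hx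
  · intro k hk x hx
    exact (nilp_K_comm hS hA hC hAC hc1 hc2 hb hb1 hk (inv_mem hb)).1 x hx
  · intro k hk x hx
    exact (nilp_K_comm hS hA hC hAC hc1 hc2 hb hb1 hk (inv_mem hb)).2 x hx

theorem nilp_isNilpotent (hS : IsRootSubgroupSet S) (hA : A ∈ S) (hB : B ∈ S) (hC : C ∈ S)
    (hAC : ∀ a ∈ A, ∀ c ∈ C, a * c = c * a) (hc1 : RootCommutatorCase S A B)
    (hc2 : RootCommutatorCase S B C) {b : G} (hb : b ∈ B) (hb1 : b ≠ 1) :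
    Group.IsNilpotent ↥(A ⊔ B ⊔ C) := by
  have hCA : ∀ c ∈ C, ∀ a ∈ A, c * a = a * c := fun c hc a ha => (hAC a ha c hc).symm
  have hc1' := CommCase.symm hc1
  have hc2' := CommCase.symm hc2
  have hR' : C ⊔ B ⊔ A = A ⊔ B ⊔ C := by rw [sup_comm C B, sup_comm (B ⊔ C) A, sup_assoc]
  obtain ⟨k1A, k1C, k1Ab, k1Cb⟩ := nilp_K_comm' hS hA hC hAC hc1 hc2 hb hb1
  obtain ⟨k2C, k2A, k2Cb, k2Ab⟩ := nilp_K_comm' hS hC hA hCA hc2' hc1' hb hb1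
  have l1 : ∀ l ∈ ⁅⁅A, conjBy C b⁻¹⁆, B⁆, ∀ x ∈ A ⊔ B ⊔ C, l * x = x * l := fun l hl =>
    nilp_L_comm hS hA hB hC hAC hc1 hc2 hb hb1 hl
  have l2 : ∀ l ∈ ⁅⁅C, conjBy A b⁻¹⁆, B⁆, ∀ x ∈ A ⊔ B ⊔ C, l * x = x * l := fun l hl => by
    have := nilp_L_comm hS hC hB hA hCA hc2' hc1' hb hb1 hl
    rwa [hR'] at this
  have hAR : A ≤ A ⊔ B ⊔ C := le_sup_left.trans le_sup_left
  have hBR : B ≤ A ⊔ B ⊔ C := le_sup_right.trans le_sup_left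
  have hCR : C ≤ A ⊔ B ⊔ C := le_sup_right
  have hbR : b⁻¹ ∈ A ⊔ B ⊔ C := hBR (inv_mem hb)
  have hK1R : ⁅A, conjBy C b⁻¹⁆ ≤ A ⊔ B ⊔ C :=
    (commutator_le_sup _ _).trans (sup_le hAR (conjBy_le_of_mem hCR hbR))
  have hK2R : ⁅C, conjBy A b⁻¹⁆ ≤ A ⊔ B ⊔ C :=
    (commutator_le_sup _ _).trans (sup_le hCR (conjBy_le_of_mem hAR hbR))
  obtain ⟨R, hRdef⟩ : ∃ R, R = A ⊔ B ⊔ C := ⟨_, rfl⟩
  obtain ⟨K1, hK1def⟩ : ∃ K, K = ⁅A, conjBy C b⁻¹⁆ := ⟨_, rfl⟩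
  obtain ⟨K2, hK2def⟩ : ∃ K, K = ⁅C, conjBy A b⁻¹⁆ := ⟨_, rfl⟩
  rw [← hK1def] at k1A k1C k1Ab k1Cb l1 hK1R
  rw [← hK2def] at k2A k2C k2Ab k2Cb l2 hK2R
  -- level one
  have hW1c : ∀ w ∈ ⁅K1, B⁆ ⊔ ⁅K2, B⁆, ∀ r ∈ A ⊔ B ⊔ C, w * r = r * w := by
    intro w hw r hr
    exact (RankOne.commute_sup_of (fun l hl => (l1 l hl r hr).symm)
      (fun l hl => (l2 l hl r hr).symm) w hw).symm
  have hW1R : ⁅K1, B⁆ ⊔ ⁅K2, B⁆ ≤ A ⊔ B ⊔ C :=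
    sup_le ((commutator_le_sup _ _).trans (sup_le hK1R hBR))
      ((commutator_le_sup _ _).trans (sup_le hK2R hBR))
  obtain ⟨W1, hW1def⟩ : ∃ W, W = ⁅K1, B⁆ ⊔ ⁅K2, B⁆ := ⟨_, rfl⟩
  have hL1W : ⁅K1, B⁆ ≤ W1 := hW1def ▸ le_sup_left
  have hL2W : ⁅K2, B⁆ ≤ W1 := hW1def ▸ le_sup_right
  rw [← hW1def] at hW1c hW1R
  have e1 : ⁅W1, A ⊔ B ⊔ C⁆ ≤ ⊥ := comm_le_of_commute hW1c
  have n1 : ∀ r ∈ A ⊔ B ⊔ C, ∀ v ∈ W1, r * v * r⁻¹ ∈ W1 := normalized_of_commute hW1c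
  -- level two
  have hK1 : ⁅K1, A ⊔ B ⊔ C⁆ ≤ W1 :=
    comm_triple_right n1 (comm_le_of_commute k1A) hL1W (comm_le_of_commute k1C)
  have hK2 : ⁅K2, A ⊔ B ⊔ C⁆ ≤ W1 :=
    comm_triple_right n1 (comm_le_of_commute k2A) hL2W (comm_le_of_commute k2C)
  have hW2R : W1 ⊔ (K1 ⊔ K2) ≤ A ⊔ B ⊔ C := sup_le hW1R (sup_le hK1R hK2R)
  have e2 : ⁅W1 ⊔ (K1 ⊔ K2), A ⊔ B ⊔ C⁆ ≤ W1 :=
    comm_sup_left (fun w hw => n1 w (hW2R hw)) (e1.trans bot_le)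
      (comm_sup_left (fun w hw => n1 w (sup_le hK1R hK2R hw)) hK1 hK2)
  obtain ⟨W2, hW2def⟩ : ∃ W, W = W1 ⊔ (K1 ⊔ K2) := ⟨_, rfl⟩
  have hW1W2 : W1 ≤ W2 := hW2def ▸ le_sup_left
  have hK1W2 : K1 ≤ W2 := hW2def ▸ (le_sup_left.trans le_sup_right)
  have hK2W2 : K2 ≤ W2 := hW2def ▸ (le_sup_right.trans le_sup_right)
  rw [← hW2def] at e2 hW2R
  have n2 : ∀ r ∈ A ⊔ B ⊔ C, ∀ v ∈ W2, r * v * r⁻¹ ∈ W2 :=
    normalized_of_comm_le (e2.trans hW1W2)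
  -- level three
  have hN1C : ⁅⁅A, B⁆, C⁆ ≤ K2 := by
    refine (Subgroup.commutator_mono (commutator_le_sup_conj hc1 hb hb1) le_rfl).trans ?_
    apply comm_sup_left
    · apply normalized_of_commute
      intro v hv r hr
      exact RankOne.commute_sup_of (k2A v hv) (k2Ab v hv) r hr
    · exact comm_le_of_commute hAC
    · rw [Subgroup.commutator_comm, hK2def]
  have hN2A : ⁅⁅B, C⁆, A⁆ ≤ K1 := by
    have hle : ⁅B, C⁆ ≤ C ⊔ conjBy C b⁻¹ := by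
      rw [Subgroup.commutator_comm]; exact commutator_le_sup_conj hc2' hb hb1
    refine (Subgroup.commutator_mono hle le_rfl).trans ?_
    apply comm_sup_left
    · apply normalized_of_commute
      intro v hv r hr
      exact RankOne.commute_sup_of (k1C v hv) (k1Cb v hv) r hr
    · exact comm_le_of_commute hCA
    · rw [Subgroup.commutator_comm, hK1def]
  have hN1 : ⁅⁅A, B⁆, A ⊔ B ⊔ C⁆ ≤ W2 :=
    comm_triple_right n2
      (comm_le_of_commute (fun n hn a ha => (CommCase.comm_left hc1 ha hn).symm))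
      (comm_le_of_commute (fun n hn a ha => (CommCase.comm_right hc1 ha hn).symm))
      (hN1C.trans hK2W2)
  have hN2 : ⁅⁅B, C⁆, A ⊔ B ⊔ C⁆ ≤ W2 :=
    comm_triple_right n2 (hN2A.trans hK1W2)
      (comm_le_of_commute (fun n hn a ha => (CommCase.comm_left hc2 ha hn).symm))
      (comm_le_of_commute (fun n hn a ha => (CommCase.comm_right hc2 ha hn).symm))
  have hN1R : ⁅A, B⁆ ≤ A ⊔ B ⊔ C := (commutator_le_sup _ _).trans (sup_le hAR hBR)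
  have hN2R : ⁅B, C⁆ ≤ A ⊔ B ⊔ C := (commutator_le_sup _ _).trans (sup_le hBR hCR)
  have hW3R : W2 ⊔ (⁅A, B⁆ ⊔ ⁅B, C⁆) ≤ A ⊔ B ⊔ C := sup_le hW2R (sup_le hN1R hN2R)
  have e3 : ⁅W2 ⊔ (⁅A, B⁆ ⊔ ⁅B, C⁆), A ⊔ B ⊔ C⁆ ≤ W2 :=
    comm_sup_left (fun w hw => n2 w (hW3R hw)) (e2.trans hW1W2)
      (comm_sup_left (fun w hw => n2 w (sup_le hN1R hN2R hw)) hN1 hN2)
  obtain ⟨W3, hW3def⟩ : ∃ W, W = W2 ⊔ (⁅A, B⁆ ⊔ ⁅B, C⁆) := ⟨_, rfl⟩
  have hW2W3 : W2 ≤ W3 := hW3def ▸ le_sup_left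
  have hN1W3 : ⁅A, B⁆ ≤ W3 := hW3def ▸ (le_sup_left.trans le_sup_right)
  have hN2W3 : ⁅B, C⁆ ≤ W3 := hW3def ▸ (le_sup_right.trans le_sup_right)
  rw [← hW3def] at e3 hW3R
  have n3 : ∀ r ∈ A ⊔ B ⊔ C, ∀ v ∈ W3, r * v * r⁻¹ ∈ W3 :=
    normalized_of_comm_le (e3.trans hW2W3)
  -- level four
  have hAA : ⁅A, A ⊔ B ⊔ C⁆ ≤ W3 :=
    comm_triple_right n3 (comm_le_of_commute (fun _ h _ h' => comm_mem hS hA h h')) hN1W3
      (comm_le_of_commute hAC)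
  have hBB : ⁅B, A ⊔ B ⊔ C⁆ ≤ W3 :=
    comm_triple_right n3 (by rw [Subgroup.commutator_comm]; exact hN1W3)
      (comm_le_of_commute (fun _ h _ h' => comm_mem hS hB h h')) hN2W3
  have hCC : ⁅C, A ⊔ B ⊔ C⁆ ≤ W3 :=
    comm_triple_right n3 (comm_le_of_commute hCA) (by rw [Subgroup.commutator_comm]; exact hN2W3)
      (comm_le_of_commute (fun _ h _ h' => comm_mem hS hC h h'))
  have e4 : ⁅A ⊔ B ⊔ C, A ⊔ B ⊔ C⁆ ≤ W3 :=
    comm_sup_left n3 (comm_sup_left (fun w hw => n3 w (le_sup_left (a := A ⊔ B) hw)) hAA hBB) hCC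
  apply Subgroup.isNilpotent_of_lowerCentralSeries_eq_bot (n := 4)
  rw [eq_bot_iff]
  simp only [Subgroup.lowerCentralSeries_succ, Subgroup.lowerCentralSeries_zero]
  calc ⁅⁅⁅⁅A ⊔ B ⊔ C, A ⊔ B ⊔ C⁆, A ⊔ B ⊔ C⁆, A ⊔ B ⊔ C⁆, A ⊔ B ⊔ C⁆
      ≤ ⁅⁅⁅W3, A ⊔ B ⊔ C⁆, A ⊔ B ⊔ C⁆, A ⊔ B ⊔ C⁆ :=
        Subgroup.commutator_mono (Subgroup.commutator_mono
          (Subgroup.commutator_mono e4 le_rfl) le_rfl) le_rfl
    _ ≤ ⁅⁅W2, A ⊔ B ⊔ C⁆, A ⊔ B ⊔ C⁆ :=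
        Subgroup.commutator_mono (Subgroup.commutator_mono e3 le_rfl) le_rfl
    _ ≤ ⁅W1, A ⊔ B ⊔ C⁆ := Subgroup.commutator_mono e2 le_rfl
    _ ≤ ⊥ := e1

theorem nilp_normal (hc1 : RootCommutatorCase S A B)
    (hc2 : RootCommutatorCase S B C) {b : G} (hb : b ∈ B) (hb1 : b ≠ 1) :
    ∀ r ∈ A ⊔ B ⊔ C, conjBy ((A ⊔ conjBy C b⁻¹) ⊔ (conjBy A b⁻¹ ⊔ C)) r =
      (A ⊔ conjBy C b⁻¹) ⊔ (conjBy A b⁻¹ ⊔ C) := by
  obtain ⟨M, hM⟩ : ∃ M, M = (A ⊔ conjBy C b⁻¹) ⊔ (conjBy A b⁻¹ ⊔ C) := ⟨_, rfl⟩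
  have hAM : A ≤ M := hM ▸ (le_sup_left.trans le_sup_left)
  have hCbM : conjBy C b⁻¹ ≤ M := hM ▸ (le_sup_right.trans le_sup_left)
  have hAbM : conjBy A b⁻¹ ≤ M := hM ▸ (le_sup_left.trans le_sup_right)
  have hCM : C ≤ M := hM ▸ (le_sup_right.trans le_sup_right)
  have hA' : ∀ g ∈ B, conjBy A g ≤ M := fun g hg =>
    (CommCase.conjBy_le (A := A) hg).trans
      (sup_le hAM ((commutator_le_sup_conj hc1 hb hb1).trans (sup_le hAM hAbM)))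
  have hC' : ∀ g ∈ B, conjBy C g ≤ M := fun g hg =>
    (CommCase.conjBy_le (A := C) hg).trans
      (sup_le hCM ((commutator_le_sup_conj (CommCase.symm hc2) hb hb1).trans (sup_le hCM hCbM)))
  have hB : ∀ β ∈ B, conjBy M β = M := by
    apply conjBy_eq_self_of_le
    intro β hβ
    rw [hM, conjBy_sup, conjBy_sup, conjBy_sup, conjBy_conjBy, conjBy_conjBy, ← hM]
    exact sup_le (sup_le (hA' β hβ) (hC' _ (mul_mem hβ (inv_mem hb))))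
      (sup_le (hA' _ (mul_mem hβ (inv_mem hb))) (hC' β hβ))
  rw [← hM]
  intro r hr
  rw [conjBy_eq_self_iff]
  revert r
  change A ⊔ B ⊔ C ≤ _
  refine sup_le (sup_le (hAM.trans Subgroup.le_normalizer) ?_) (hCM.trans Subgroup.le_normalizer)
  intro β hβ
  exact conjBy_eq_self_iff.1 (hB β hβ)

theorem nilp_sup {b : G} (hb : b ∈ B) :
    ((A ⊔ conjBy C b⁻¹) ⊔ (conjBy A b⁻¹ ⊔ C)) ⊔ B = A ⊔ B ⊔ C := by
  have hAR : A ≤ A ⊔ B ⊔ C := le_sup_left.trans le_sup_left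
  have hBR : B ≤ A ⊔ B ⊔ C := le_sup_right.trans le_sup_left
  have hCR : C ≤ A ⊔ B ⊔ C := le_sup_right
  have hbR : b⁻¹ ∈ A ⊔ B ⊔ C := hBR (inv_mem hb)
  apply le_antisymm
  · exact sup_le (sup_le (sup_le hAR (conjBy_le_of_mem hCR hbR))
      (sup_le (conjBy_le_of_mem hAR hbR) hCR)) hBR
  · exact sup_le (sup_le ((le_sup_left.trans le_sup_left).trans le_sup_left) le_sup_right)
      ((le_sup_right.trans le_sup_right).trans le_sup_left)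

theorem nilp_alternative (hS : IsRootSubgroupSet S) (hA : A ∈ S) (hC : C ∈ S)
    (hAC : ∀ a ∈ A, ∀ c ∈ C, a * c = c * a) (hc1 : RootCommutatorCase S A B)
    (hc2 : RootCommutatorCase S B C) {b : G} (hb : b ∈ B) (hb1 : b ≠ 1) :
    (IsMulCommutative ↥(A ⊔ conjBy C b⁻¹) ∧ IsMulCommutative ↥(conjBy A b⁻¹ ⊔ C)) ∨
      ((¬ IsMulCommutative ↥(A ⊔ conjBy C b⁻¹) ∧
          ⁅⁅A ⊔ conjBy C b⁻¹, A ⊔ conjBy C b⁻¹⁆, A ⊔ conjBy C b⁻¹⁆ = ⊥) ∧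
        (¬ IsMulCommutative ↥(conjBy A b⁻¹ ⊔ C) ∧
          ⁅⁅conjBy A b⁻¹ ⊔ C, conjBy A b⁻¹ ⊔ C⁆, conjBy A b⁻¹ ⊔ C⁆ = ⊥)) := by
  have hCA : ∀ c ∈ C, ∀ a ∈ A, c * a = a * c := fun c hc a ha => (hAC a ha c hc).symm
  have hAb := hS.conj_mem A hA b⁻¹
  have hCb := hS.conj_mem C hC b⁻¹
  have mk : ∀ {P Q : Subgroup G}, P ∈ S → Q ∈ S → (∀ p ∈ P, ∀ q ∈ Q, p * q = q * p) →
      IsMulCommutative ↥(P ⊔ Q) := by
    intro P Q hP hQ h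
    refine ⟨⟨?_⟩⟩
    rintro ⟨x, hx⟩ ⟨y, hy⟩
    apply Subtype.ext
    exact commute_sup_sup (fun _ h _ h' => comm_mem hS hP h h')
      (fun _ h _ h' => comm_mem hS hQ h h') h x hx y hy
  rcases nilp_dich hS hA hC hAC hc1 hb hb1 with h | h
  · left
    have h1 := commutator_eq_bot_iff.1 h
    exact ⟨mk hA hCb h1, mk hAb hC (comm_transfer hAC hc2 hb hb1 h1)⟩
  · right
    refine ⟨class_two hS hA hCb h, ?_⟩
    rcases nilp_dich hS hC hA hCA (CommCase.symm hc2) hb hb1 with h' | h'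
    · exfalso
      have h1 := commutator_eq_bot_iff.1 h'
      have h2 := comm_transfer hCA (CommCase.symm hc1) hb hb1 h1
      apply hS.ne_bot _ h.1
      rw [commutator_eq_bot_iff]
      intro a ha x hx
      exact (h2 x hx a ha).symm
    · have := class_two hS hC hAb h'
      rwa [sup_comm] at this

end Nilp

end Root

end Cfsg.Agent.Lib.Helper85
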