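import Cfsg.Agent.Lib.Helper85.RootLine

set_option autoImplicit false

namespace Cfsg.Agent.Lib.Helper85

open Cfsg

variable {G : Type*} [Group G]

/-- transport of "centralizer in `N`" under conjugation -/
theorem conjBy_cent_le {N U U' P P' : Subgroup G} {z : G} (hz : conjBy N z = N)
    (hU : conjBy U z = U') (hPN : P ≤ N) (hPU : ∀ p ∈ P, ∀ u ∈ U, p * u = u * p)
    (hP' : ∀ n ∈ N, (∀ u ∈ U', n * u = u * n) → n ∈ P') : conjBy P z ≤ P' := by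
  intro x hx
  apply hP'
  · rw [← hz]
    exact conjBy_mono hPN z hx
  · intro u hu
    rw [← hU, mem_conjBy] at hu
    rw [mem_conjBy] at hx
    have := hPU _ hx _ hu
    have e1 : x * u = z * ((z⁻¹ * x * z) * (z⁻¹ * u * z)) * z⁻¹ := by group
    rw [e1, this]; group

theorem conjBy_cent_eq {N U U' P P' : Subgroup G} {z : G} (hz : conjBy N z = N)
    (hU : conjBy U z = U') (hPN : P ≤ N) (hPU : ∀ p ∈ P, ∀ u ∈ U, p * u = u * p)
    (hP : ∀ n ∈ N, (∀ u ∈ U, n * u = u * n) → n ∈ P)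
    (hPN' : P' ≤ N) (hPU' : ∀ p ∈ P', ∀ u ∈ U', p * u = u * p)
    (hP' : ∀ n ∈ N, (∀ u ∈ U', n * u = u * n) → n ∈ P') : conjBy P z = P' := by
  apply le_antisymm (conjBy_cent_le hz hU hPN hPU hP')
  have hz' : conjBy N z⁻¹ = N := (conjBy_eq_iff.1 hz).symm
  have hU' : conjBy U' z⁻¹ = U := (conjBy_eq_iff.1 hU).symm
  have := conjBy_mono (conjBy_cent_le hz' hU' hPN' hPU' hP) z
  rwa [conjBy_conjBy, mul_inv_cancel, conjBy_one] at this

theorem conjBy_eq_self_of_le {N K : Subgroup G} (h : ∀ k ∈ K, conjBy N k ≤ N) :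
    ∀ k ∈ K, conjBy N k = N := by
  intro k hk
  apply le_antisymm (h k hk)
  have := conjBy_mono (h k⁻¹ (inv_mem hk)) k
  rwa [conjBy_conjBy, mul_inv_cancel, conjBy_one] at this

theorem conjBy_eq_of_commute {C : Subgroup G} {g : G} (h : ∀ c ∈ C, g * c = c * g) :
    conjBy C g = C := by
  apply Root.conjBy_of_centralizes (U := C) _ le_rfl
  rw [Subgroup.mem_centralizer_iff]
  intro c hc
  exact (h c hc).symm

namespace Root

variable {S : Set (Subgroup G)}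

namespace CommCase

variable {A B : Subgroup G}

theorem exists_not_commute_left (hS : IsRootSubgroupSet S) (hc : RootCommutatorCase S A B) {b : G}
    (hb : b ∈ B) (hb1 : b ≠ 1) : ∃ a ∈ A, a * b ≠ b * a := by
  by_contra hcon
  push Not at hcon
  apply hS.ne_bot _ hc.1
  rw [← hc.2.2.2 b hb hb1, Subgroup.closure_eq_bot_iff]
  rintro _ ⟨a, ha, rfl⟩
  rw [Set.mem_singleton_iff]
  change a * b * a⁻¹ * b⁻¹ = 1
  rw [hcon a ha]; group

theorem exists_not_commute_right (hS : IsRootSubgroupSet S) (hc : RootCommutatorCase S A B) {a : G}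
    (ha : a ∈ A) (ha1 : a ≠ 1) : ∃ b ∈ B, a * b ≠ b * a := by
  by_contra hcon
  push Not at hcon
  apply hS.ne_bot _ hc.1
  rw [← hc.2.2.1 a ha ha1, Subgroup.closure_eq_bot_iff]
  rintro _ ⟨b, hb, rfl⟩
  rw [Set.mem_singleton_iff]
  change a * b * a⁻¹ * b⁻¹ = 1
  rw [hcon b hb]; group

theorem inf_commutator_eq_bot (hS : IsRootSubgroupSet S) (hc : RootCommutatorCase S A B) :
    A ⊓ ⁅A, B⁆ = ⊥ := by
  rw [eq_bot_iff]
  intro x hx
  rw [Subgroup.mem_bot]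
  by_contra hx1
  obtain ⟨b, hb, hne⟩ := exists_not_commute_right hS hc hx.1 hx1
  exact hne (comm_right hc hb hx.2).symm

/-- elements of `A ⊔ ⁅A, B⁆` centralized by `B` lie in `⁅A, B⁆` -/
theorem mem_commutator_of_commute (hS : IsRootSubgroupSet S) (hc : RootCommutatorCase S A B)
    {n : G} (hn : n ∈ A ⊔ ⁅A, B⁆) (hcomm : ∀ b ∈ B, n * b = b * n) : n ∈ ⁅A, B⁆ := by
  rw [mem_sup_of_commute (fun a ha n hn => comm_left hc ha hn)] at hn
  obtain ⟨a, ha, c, hc', rfl⟩ := hn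
  by_cases ha1 : a = 1
  · rw [ha1, one_mul]; exact hc'
  · exfalso
    obtain ⟨b, hb, hne⟩ := exists_not_commute_right hS hc ha ha1
    apply hne
    have h1 := hcomm b hb
    have h2 := comm_right hc hb hc'
    calc a * b = a * c * b * c⁻¹ := by rw [mul_assoc a c b, ← h2]; group
      _ = b * a := by rw [h1]; group

end CommCase

section Opp

variable {A B D : Subgroup G}

theorem opp_rankOne (hS : IsRootSubgroupSet S) (hA : A ∈ S) (hB : B ∈ S) (hD : D ∈ S)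
    (hc1 : RootCommutatorCase S A B) (hc2 : RootCommutatorCase S D ⁅A, B⁆)
    (hDC : ⁅D, ⁅A, B⁆⁆ = A) : IsRankOnePair B D := by
  have hDA : ∀ d ∈ D, ∀ a ∈ A, d * a = a * d := fun d hd a ha =>
    CommCase.comm_left hc2 hd (hDC.symm ▸ ha)
  obtain ⟨b, hb, hb1⟩ := exists_ne_one_of_ne_bot (hS.ne_bot B hB)
  obtain ⟨d, hd, hd1⟩ := exists_ne_one_of_ne_bot (hS.ne_bot D hD)
  rcases hS.pair B hB D hD with h | h | h
  · exfalso
    apply hS.ne_bot A hA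
    rw [← hDC, commutator_eq_bot_iff]
    intro d hd c hc
    obtain ⟨a, ha, rfl⟩ := CommCase.exists_left hc1 hb hb1 hc
    have e1 : Commute d a := hDA d hd a ha
    have e2 : Commute d b := (commutator_eq_bot_iff.1 h b hb d hd).symm
    exact (((e1.mul_right e2).mul_right e1.inv_right).mul_right e2.inv_right).eq
  · exact h
  · exfalso
    obtain ⟨a, ha, hne⟩ := CommCase.exists_not_commute_left hS hc1 hb hb1
    apply hne
    -- choose c₁ and a'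
    obtain ⟨c₁, hc₁, hc₁e⟩ := CommCase.exists_right hc2 hd hd1 (hDC.symm ▸ ha : a ∈ ⁅D, ⁅A, B⁆⁆)
    obtain ⟨a'', ha'', ha''e⟩ := CommCase.exists_left hc1 (inv_mem hb) (by simpa using hb1) hc₁
    have E1 : d * c₁ * d⁻¹ = c₁ * a := by
      rw [← CommCase.comm_left hc1 ha hc₁, ← hc₁e]; group
    have E2 : b * (a''⁻¹ * c₁) * b⁻¹ = a''⁻¹ := by
      rw [← ha''e]; group
    have E2' : b⁻¹ * a''⁻¹ * b = a''⁻¹ * c₁ := by
      rw [← ha''e]; group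
    have E3 : d⁻¹ * a''⁻¹ * d = a''⁻¹ := by
      rw [mul_assoc, ← hDA d hd _ (inv_mem ha'')]; group
    have E4 : d * a''⁻¹ * d⁻¹ = a''⁻¹ := by
      rw [hDA d hd _ (inv_mem ha'')]; group
    have key : (b * d * b⁻¹ * d⁻¹) * a''⁻¹ * (b * d * b⁻¹ * d⁻¹)⁻¹ = a''⁻¹ * (b * a * b⁻¹) := by
      calc (b * d * b⁻¹ * d⁻¹) * a''⁻¹ * (b * d * b⁻¹ * d⁻¹)⁻¹
          = b * d * (b⁻¹ * (d⁻¹ * a''⁻¹ * d) * b) * d⁻¹ * b⁻¹ := by group
        _ = b * ((d * a''⁻¹ * d⁻¹) * (d * c₁ * d⁻¹)) * b⁻¹ := by rw [E3, E2']; group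
        _ = (b * (a''⁻¹ * c₁) * b⁻¹) * (b * a * b⁻¹) := by rw [E4, E1]; group
        _ = _ := by rw [E2]
    have hγ : a⁻¹ * b * a * b⁻¹ ∈ ⁅A, B⁆ := by
      have := commElem_mem (inv_mem ha) hb
      rwa [inv_inv] at this
    have hγD : ∀ d' ∈ D, d' * (a⁻¹ * b * a * b⁻¹) = (a⁻¹ * b * a * b⁻¹) * d' := by
      intro d' hd'
      have c1 : Commute d' (b * d * b⁻¹ * d⁻¹) :=
        (CommCase.central h hb hd (Subgroup.mem_sup_right hd')).symm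
      have c2 : Commute d' a''⁻¹ := hDA d' hd' _ (inv_mem ha'')
      have c3 : Commute d' (a''⁻¹ * (b * a * b⁻¹)) := by
        rw [← key]
        exact (c1.mul_right c2).mul_right c1.inv_right
      have c4 : Commute d' a⁻¹ := hDA d' hd' _ (inv_mem ha)
      have c5 : Commute d' (a⁻¹ * (a''⁻¹⁻¹ * (a''⁻¹ * (b * a * b⁻¹)))) :=
        c4.mul_right (c2.inv_right.mul_right c3)
      have e : a⁻¹ * (a''⁻¹⁻¹ * (a''⁻¹ * (b * a * b⁻¹))) = a⁻¹ * b * a * b⁻¹ := by group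
      rw [e] at c5
      exact c5.eq
    by_contra hab
    have hγ1 : a⁻¹ * b * a * b⁻¹ ≠ 1 := by
      intro h1
      apply hab
      have : b * a = a * (a⁻¹ * b * a * b⁻¹) * b := by group
      rw [this, h1]; group
    obtain ⟨d', hd', hne'⟩ := CommCase.exists_not_commute_left hS hc2 hγ hγ1
    exact hne' (hγD d' hd')

theorem opp_norm (hc2 : RootCommutatorCase S D ⁅A, B⁆)
    (hc1 : RootCommutatorCase S A B) (hDC : ⁅D, ⁅A, B⁆⁆ = A) {x : G} (hx : x ∈ B ⊔ D) :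
    conjBy (A ⊔ ⁅A, B⁆) x = A ⊔ ⁅A, B⁆ := by
  rw [conjBy_eq_self_iff]
  revert x
  change B ⊔ D ≤ _
  refine sup_le ?_ ?_
  · intro b hb
    rw [← conjBy_eq_self_iff]
    refine conjBy_eq_self_of_le (K := B) ?_ b hb
    intro b hb
    rw [conjBy_sup]
    refine sup_le (CommCase.conjBy_le hb) ?_
    rw [conjBy_eq_of_commute (fun c hc => CommCase.comm_right hc1 hb hc)]
    exact le_sup_right
  · intro d hd
    rw [← conjBy_eq_self_iff]
    refine conjBy_eq_self_of_le (K := D) ?_ d hd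
    intro d hd
    rw [conjBy_sup]
    refine sup_le ?_ ?_
    · rw [conjBy_eq_of_commute (fun a ha => CommCase.comm_left hc2 hd (hDC.symm ▸ ha))]
      exact le_sup_left
    · refine (CommCase.conjBy_le (A := ⁅A, B⁆) (B := D) hd).trans ?_
      rw [Subgroup.commutator_comm ⁅A, B⁆ D, hDC, sup_comm]

theorem opp_cent_D (hS : IsRootSubgroupSet S) (hc2 : RootCommutatorCase S D ⁅A, B⁆)
    (hDC : ⁅D, ⁅A, B⁆⁆ = A) {n : G} (hn : n ∈ A ⊔ ⁅A, B⁆) (hcomm : ∀ d ∈ D, n * d = d * n) :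
    n ∈ A := by
  have h := CommCase.mem_commutator_of_commute hS (CommCase.symm hc2) (n := n)
  rw [Subgroup.commutator_comm ⁅A, B⁆ D, hDC, sup_comm] at h
  exact h hn hcomm

theorem opp_conj (hS : IsRootSubgroupSet S)
    (hc1 : RootCommutatorCase S A B) (hc2 : RootCommutatorCase S D ⁅A, B⁆)
    (hDC : ⁅D, ⁅A, B⁆⁆ = A) {z : G} (hz : z ∈ B ⊔ D) (hBD : conjBy B z = D) :
    conjBy ⁅A, B⁆ z = A :=
  conjBy_cent_eq (opp_norm hc2 hc1 hDC hz) hBD le_sup_right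
    (fun _ hc _ hb => (CommCase.comm_right hc1 hb hc).symm)
    (fun _ hn h => CommCase.mem_commutator_of_commute hS hc1 hn h) le_sup_left
    (fun _ ha _ hd => (CommCase.comm_left hc2 hd (hDC.symm ▸ ha)).symm)
    (fun _ hn h => opp_cent_D hS hc2 hDC hn h)

theorem opp_conj_D (hS : IsRootSubgroupSet S)
    (hc1 : RootCommutatorCase S A B) (hc2 : RootCommutatorCase S D ⁅A, B⁆)
    (hDC : ⁅D, ⁅A, B⁆⁆ = A) {z : G} (hz : z ∈ B ⊔ D) (hBD : conjBy D z = D) :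
    conjBy A z = A :=
  conjBy_cent_eq (opp_norm hc2 hc1 hDC hz) hBD le_sup_left
    (fun _ ha _ hd => (CommCase.comm_left hc2 hd (hDC.symm ▸ ha)).symm)
    (fun _ hn h => opp_cent_D hS hc2 hDC hn h) le_sup_left
    (fun _ ha _ hd => (CommCase.comm_left hc2 hd (hDC.symm ▸ ha)).symm)
    (fun _ hn h => opp_cent_D hS hc2 hDC hn h)

theorem opp_exists (hS : IsRootSubgroupSet S) (hA : A ∈ S) (hB : B ∈ S) (hD : D ∈ S)
    (hc1 : RootCommutatorCase S A B) (hc2 : RootCommutatorCase S D ⁅A, B⁆)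
    (hDC : ⁅D, ⁅A, B⁆⁆ = A) : ∃ z ∈ B ⊔ D, conjBy ⁅A, B⁆ z = A := by
  obtain ⟨z, hz, hDz⟩ := RankOne.right_mem_unipotent (opp_rankOne hS hA hB hD hc1 hc2 hDC)
  exact ⟨z, hz, opp_conj hS hc1 hc2 hDC hz hDz.symm⟩

theorem opp_orbit_B (hS : IsRootSubgroupSet S) (hA : A ∈ S) (hB : B ∈ S) (hD : D ∈ S)
    (hc1 : RootCommutatorCase S A B) (hc2 : RootCommutatorCase S D ⁅A, B⁆)
    (hDC : ⁅D, ⁅A, B⁆⁆ = A) {x : G} (hx : x ∈ B ⊔ D) :
    conjBy A x = ⁅A, B⁆ ∨ ∃ b ∈ B, conjBy A x = conjBy A b := by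
  have h := opp_rankOne hS hA hB hD hc1 hc2 hDC
  rcases (RankOne.mem_unipotent_iff h).1
    (RankOne.conjBy_mem_unipotent (RankOne.right_mem_unipotent h) hx) with h1 | ⟨b, hb, h1⟩
  · left
    have h2 : conjBy B x⁻¹ = D := (conjBy_eq_iff.1 h1).symm
    have h3 := opp_conj hS hc1 hc2 hDC (inv_mem hx) h2
    rw [conjBy_eq_iff, inv_inv] at h3
    exact h3.symm
  · right
    refine ⟨b, hb, ?_⟩
    have h2 : conjBy D (b⁻¹ * x) = D := by
      rw [← conjBy_conjBy, h1, conjBy_conjBy, inv_mul_cancel, conjBy_one]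
    have h3 := opp_conj_D hS hc1 hc2 hDC
      (mul_mem (Subgroup.mem_sup_left (inv_mem hb)) hx) h2
    rw [← conjBy_conjBy, conjBy_eq_iff, inv_inv] at h3
    exact h3

theorem opp_orbit_D (hS : IsRootSubgroupSet S) (hA : A ∈ S) (hB : B ∈ S) (hD : D ∈ S)
    (hc1 : RootCommutatorCase S A B) (hc2 : RootCommutatorCase S D ⁅A, B⁆)
    (hDC : ⁅D, ⁅A, B⁆⁆ = A) {x : G} (hx : x ∈ B ⊔ D) :
    conjBy A x = A ∨ ∃ d ∈ D, conjBy A x = conjBy ⁅A, B⁆ d := by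
  have h := opp_rankOne hS hA hB hD hc1 hc2 hDC
  rcases (RankOne.mem_unipotent_iff (RankOnePair_symm h)).1
    (⟨x, by rwa [sup_comm], rfl⟩ : conjBy D x ∈ unipotentSubgroups D B) with h1 | ⟨d, hd, h1⟩
  · left
    exact opp_conj_D hS hc1 hc2 hDC hx h1
  · right
    refine ⟨d, hd, ?_⟩
    have h2 : conjBy B (x⁻¹ * d) = D := by
      rw [← conjBy_conjBy, ← h1, conjBy_conjBy, inv_mul_cancel, conjBy_one]
    have h3 := opp_conj hS hc1 hc2 hDC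
      (mul_mem (inv_mem hx) (Subgroup.mem_sup_right hd)) h2
    rw [← conjBy_conjBy, conjBy_eq_iff, inv_inv] at h3
    exact h3.symm

/-- `A` meets its conjugates under `B` trivially -/
theorem opp_inf_conj (hS : IsRootSubgroupSet S) (hA : A ∈ S) (hB : B ∈ S) (hD : D ∈ S)
    (hc1 : RootCommutatorCase S A B) (hc2 : RootCommutatorCase S D ⁅A, B⁆)
    (hDC : ⁅D, ⁅A, B⁆⁆ = A) {b : G} (hb : b ∈ B) (hb1 : b ≠ 1) : A ⊓ conjBy A b = ⊥ := by
  have h := opp_rankOne hS hA hB hD hc1 hc2 hDC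
  rw [eq_bot_iff]
  intro x hx'
  obtain ⟨hx1, hx2⟩ := Subgroup.mem_inf.1 hx'
  rw [mem_conjBy] at hx2
  rw [Subgroup.mem_bot]
  by_contra hx
  have h1 : x * b⁻¹ * x⁻¹ * b⁻¹⁻¹ ∈ A ⊓ ⁅A, B⁆ := by
    refine Subgroup.mem_inf.2 ⟨?_, commElem_mem hx1 (inv_mem hb)⟩
    have := mul_mem hx1 (inv_mem hx2)
    have e : x * (b⁻¹ * x * b)⁻¹ = x * b⁻¹ * x⁻¹ * b⁻¹⁻¹ := by group
    rwa [e] at this
  rw [CommCase.inf_commutator_eq_bot hS hc1, Subgroup.mem_bot] at h1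
  apply CommCase.not_commute hS (CommCase.symm hc1) hB hD h hb hb1 hx1 hx
  have e : x * b = (x * b⁻¹ * x⁻¹ * b⁻¹⁻¹)⁻¹ * (b * x) * 1 := by
    rw [h1]
    have e2 : x = (x * b⁻¹ * x⁻¹ * b⁻¹⁻¹) * (b⁻¹ * x * b) := by group
    rw [h1, one_mul] at e2
    have e3 : b * x = b * (b⁻¹ * x * b) := by rw [← e2]
    rw [e3]; group
  rw [h1] at e
  simpa using e.symm

theorem opp_partition (hS : IsRootSubgroupSet S) (hA : A ∈ S) (hB : B ∈ S) (hD : D ∈ S)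
    (hc1 : RootCommutatorCase S A B) (hc2 : RootCommutatorCase S D ⁅A, B⁆)
    (hDC : ⁅D, ⁅A, B⁆⁆ = A) :
    IsSubgroupPartition (A ⊔ ⁅A, B⁆) {E | ∃ x ∈ B ⊔ D, E = conjBy A x} := by
  refine ⟨?_, ?_, ?_⟩
  · rintro _ ⟨x, hx, rfl⟩
    rw [← opp_norm hc2 hc1 hDC hx]
    exact conjBy_mono le_sup_left x
  · intro x hx _
    rcases CommCase.cover hc1 hx with h | ⟨b, hb, h⟩
    · obtain ⟨z, hz, hz'⟩ := opp_exists hS hA hB hD hc1 hc2 hDC
      refine ⟨_, ⟨z⁻¹, inv_mem hz, rfl⟩, ?_⟩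
      rw [← conjBy_eq_iff.1 hz']; exact h
    · exact ⟨_, ⟨b, Subgroup.mem_sup_left hb, rfl⟩, h⟩
  · rintro _ ⟨x₁, hx₁, rfl⟩ _ ⟨x₂, hx₂, rfl⟩ hne
    have hW : A ⊓ conjBy A (x₁⁻¹ * x₂) = ⊥ := by
      rcases opp_orbit_B hS hA hB hD hc1 hc2 hDC (mul_mem (inv_mem hx₁) hx₂) with h | ⟨b, hb, h⟩
      · rw [h]; exact CommCase.inf_commutator_eq_bot hS hc1
      · rw [h]
        apply opp_inf_conj hS hA hB hD hc1 hc2 hDC hb
        rintro rfl
        apply hne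
        rw [conjBy_one, ← conjBy_conjBy, conjBy_eq_iff, inv_inv] at h
        exact h.symm
    rw [eq_bot_iff]
    intro y hy
    obtain ⟨hy1, hy2⟩ := Subgroup.mem_inf.1 hy
    rw [mem_conjBy] at hy1 hy2
    have : x₁⁻¹ * y * x₁ ∈ A ⊓ conjBy A (x₁⁻¹ * x₂) := by
      refine Subgroup.mem_inf.2 ⟨hy1, ?_⟩
      rw [mem_conjBy]
      have e : (x₁⁻¹ * x₂)⁻¹ * (x₁⁻¹ * y * x₁) * (x₁⁻¹ * x₂) = x₂⁻¹ * y * x₂ := by group
      rw [e]; exact hy2
    rw [hW, Subgroup.mem_bot] at this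
    rw [Subgroup.mem_bot]
    have e : y = x₁ * (x₁⁻¹ * y * x₁) * x₁⁻¹ := by group
    rw [e, this]; group

theorem opp_centralizer (hS : IsRootSubgroupSet S) (hA : A ∈ S) (hB : B ∈ S) (hD : D ∈ S)
    (hc1 : RootCommutatorCase S A B) (hc2 : RootCommutatorCase S D ⁅A, B⁆)
    (hDC : ⁅D, ⁅A, B⁆⁆ = A) :
    ∀ x ∈ (B ⊔ D) ⊓ Subgroup.centralizer ((A ⊔ ⁅A, B⁆ : Subgroup G) : Set G),
      ∀ y ∈ B ⊔ D, x * y = y * x := by
  have h := opp_rankOne hS hA hB hD hc1 hc2 hDC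
  have hnorm : ∀ x ∈ B ⊔ D,
      ∀ n ∈ (B ⊔ D) ⊓ Subgroup.centralizer ((A ⊔ ⁅A, B⁆ : Subgroup G) : Set G),
      x * n * x⁻¹ ∈ (B ⊔ D) ⊓ Subgroup.centralizer ((A ⊔ ⁅A, B⁆ : Subgroup G) : Set G) := by
    intro x hx n hn
    obtain ⟨hn1, hn2⟩ := Subgroup.mem_inf.1 hn
    refine Subgroup.mem_inf.2 ⟨mul_mem (mul_mem hx hn1) (inv_mem hx), ?_⟩
    rw [Subgroup.mem_centralizer_iff] at hn2 ⊢
    intro m hm
    have hm' : x⁻¹ * m * x ∈ A ⊔ ⁅A, B⁆ := by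
      have := opp_norm hc2 hc1 hDC hx
      rw [← mem_conjBy, this]; exact hm
    have := hn2 _ hm'
    calc m * (x * n * x⁻¹) = x * ((x⁻¹ * m * x) * n) * x⁻¹ := by group
      _ = x * (n * (x⁻¹ * m * x)) * x⁻¹ := by rw [this]
      _ = _ := by group
  rcases RankOne.normal_dichotomy h inf_le_left hnorm with h1 | h1
  · exfalso
    obtain ⟨n, hn, hDn⟩ := h1
    obtain ⟨hn1, hn2⟩ := Subgroup.mem_inf.1 hn
    have h2 := opp_conj hS hc1 hc2 hDC hn1 hDn.symm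
    rw [conjBy_of_centralizes hn2 le_sup_right] at h2
    exact CommCase.ne_left hS hc1 h2.symm
  · exact h1

end Opp

end Root

end Cfsg.Agent.Lib.Helper85
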