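import Cfsg.Agent.Lib.Helper85.RankOneConj

set_option autoImplicit false

namespace Cfsg.Agent.Lib.Helper85

open Cfsg

variable {G : Type*} [Group G]

namespace Special

variable {A B : Subgroup G}

/-- the partner relation `b = b(a)` of a rank one pair -/
def Par (A B : Subgroup G) (a b : G) : Prop :=
  a ∈ A ∧ a ≠ 1 ∧ b ∈ B ∧ b ≠ 1 ∧ conjBy A b⁻¹ = conjBy B a⁻¹

theorem Par.symm {a b : G} (h : Par A B a b) : Par B A b a :=
  ⟨h.2.2.1, h.2.2.2.1, h.1, h.2.1, h.2.2.2.2.symm⟩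

theorem exists_par_right (h : IsRankOnePair A B) {a : G} (ha : a ∈ A) (ha1 : a ≠ 1) :
    ∃ b, Par A B a b := by
  obtain ⟨b, hb, hb1, he⟩ := h.cond_left a ha ha1
  exact ⟨b, ha, ha1, hb, hb1, he⟩

theorem exists_par_left (h : IsRankOnePair A B) {b : G} (hb : b ∈ B) (hb1 : b ≠ 1) :
    ∃ a, Par A B a b := by
  obtain ⟨a, ha, ha1, he⟩ := h.cond_right b hb hb1
  exact ⟨a, ha, ha1, hb, hb1, he.symm⟩

theorem par_unique_left (h : IsRankOnePair A B) {a a' b : G} (h1 : Par A B a b)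
    (h2 : Par A B a' b) : a = a' :=
  inv_injective (RankOne.eq_of_conjBy_eq h (inv_mem h1.1) (inv_mem h2.1)
    (h1.2.2.2.2.symm.trans h2.2.2.2.2))

theorem par_unique_right (h : IsRankOnePair A B) {a b b' : G} (h1 : Par A B a b)
    (h2 : Par A B a b') : b = b' :=
  par_unique_left (RankOnePair_symm h) h1.symm h2.symm

theorem symm (hs : IsSpecialRankOnePair A B) : IsSpecialRankOnePair B A := by
  refine ⟨RankOnePair_symm hs.1, ?_⟩
  intro b hb hb1 a ha ha1 he
  have h := hs.2 a ha ha1 b hb hb1 he.symm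
  have h2 := congrArg (fun x => x⁻¹) h
  simp only [mul_inv_rev, inv_inv] at h2
  rw [mul_assoc, mul_assoc]
  exact h2.symm

theorem braid (hs : IsSpecialRankOnePair A B) {a b : G} (hp : Par A B a b) :
    a * b⁻¹ * a = b⁻¹ * a * b⁻¹ := by
  have h := hs.2 a hp.1 hp.2.1 b hp.2.2.1 hp.2.2.2.1 hp.2.2.2.2
  calc a * b⁻¹ * a = a * (b⁻¹ * a * b) * b⁻¹ := by group
    _ = a * (a⁻¹ * b⁻¹ * a) * b⁻¹ := by rw [h]
    _ = b⁻¹ * a * b⁻¹ := by group

/-- the element `n(a) = a b(a)⁻¹ a` -/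
def nn (a b : G) : G := a * b⁻¹ * a

theorem nn_mem {a b : G} (hp : Par A B a b) : nn a b ∈ A ⊔ B :=
  mul_mem (mul_mem (Subgroup.mem_sup_left hp.1) (Subgroup.mem_sup_right (inv_mem hp.2.2.1)))
    (Subgroup.mem_sup_left hp.1)

theorem nn_conj_left (hs : IsSpecialRankOnePair A B) {a b : G} (hp : Par A B a b) :
    nn a b * a * (nn a b)⁻¹ = b⁻¹ := by
  have h := braid hs hp
  have h1 : nn a b * a = b⁻¹ * nn a b := by
    unfold nn
    calc a * b⁻¹ * a * a = (b⁻¹ * a * b⁻¹) * a := by rw [h]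
      _ = b⁻¹ * (a * b⁻¹ * a) := by group
  rw [h1]; group

theorem nn_conj_right (hs : IsSpecialRankOnePair A B) {a b : G} (hp : Par A B a b) :
    nn a b * b⁻¹ * (nn a b)⁻¹ = a := by
  have h := braid hs hp
  have h1 : nn a b * b⁻¹ = a * nn a b := by
    unfold nn
    calc a * b⁻¹ * a * b⁻¹ = a * (b⁻¹ * a * b⁻¹) := by group
      _ = a * (a * b⁻¹ * a) := by rw [h]
  rw [h1]; group

theorem conjBy_left_nn {a b : G} (hp : Par A B a b) : conjBy A (nn a b) = B := by
  unfold nn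
  rw [← conjBy_conjBy, conjBy_of_mem hp.1, ← conjBy_conjBy, hp.2.2.2.2, conjBy_conjBy,
    mul_inv_cancel, conjBy_one]

theorem conjBy_right_nn (hs : IsSpecialRankOnePair A B) {a b : G} (hp : Par A B a b) :
    conjBy B (nn a b) = A := by
  by_contra hne
  have h1 : conjBy B (nn a b) ∈ unipotentSubgroups A B :=
    RankOne.conjBy_mem_unipotent (RankOne.right_mem_unipotent hs.1) (nn_mem hp)
  have hbot := RankOne.inf_eq_bot_of_mem hs.1 h1 (RankOne.left_mem_unipotent A B) hne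
  have hmem : a ∈ conjBy B (nn a b) ⊓ A := by
    refine Subgroup.mem_inf.2 ⟨?_, hp.1⟩
    have h2 : nn a b * b⁻¹ * (nn a b)⁻¹ ∈ conjBy B (nn a b) :=
      conj_mem_conjBy (inv_mem hp.2.2.1) _
    rwa [nn_conj_right hs hp] at h2
  rw [hbot] at hmem
  exact hp.2.1 (by simpa using hmem)

theorem par_inv (hs : IsSpecialRankOnePair A B) {a b : G} (hp : Par A B a b) :
    Par A B a⁻¹ b⁻¹ := by
  refine ⟨inv_mem hp.1, by simpa using hp.2.1, inv_mem hp.2.2.1, by simpa using hp.2.2.2.1, ?_⟩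
  have h := conjBy_right_nn hs hp
  unfold nn at h
  rw [braid hs hp, ← conjBy_conjBy, conjBy_of_mem (inv_mem hp.2.2.1), ← conjBy_conjBy,
    conjBy_eq_iff] at h
  rw [inv_inv] at h
  rw [inv_inv, inv_inv]
  exact h.symm

theorem nn_conj_pow (hs : IsSpecialRankOnePair A B) {a b : G} (hp : Par A B a b) (k : ℕ) :
    nn a b * a ^ k * (nn a b)⁻¹ = (b ^ k)⁻¹ := by
  rw [← conj_pow, nn_conj_left hs hp, inv_pow]

theorem pow_eq_one_iff (hs : IsSpecialRankOnePair A B) {a b : G} (hp : Par A B a b) (k : ℕ) :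
    a ^ k = 1 ↔ b ^ k = 1 := by
  have h := nn_conj_pow hs hp k
  constructor
  · intro h1
    rw [h1] at h
    simpa using h.symm
  · intro h1
    rw [h1] at h
    have h2 : a ^ k = (nn a b)⁻¹ * (nn a b * a ^ k * (nn a b)⁻¹) * nn a b := by group
    rw [h2, h]; group

/-- building a partner pair from the conjugation equation -/
theorem par_of_eq (h : IsRankOnePair A B) {x y : G} (hx : x ∈ A) (hy : y ∈ B)
    (he : conjBy A y⁻¹ = conjBy B x⁻¹) : Par A B x y := by
  refine ⟨hx, ?_, hy, ?_, he⟩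
  · rintro rfl
    rw [inv_one, conjBy_one] at he
    exact RankOne.conjBy_right_ne_left (RankOnePair_symm h) (inv_mem hy) he
  · rintro rfl
    rw [inv_one, conjBy_one] at he
    exact RankOne.conjBy_right_ne_left h (inv_mem hx) he.symm

theorem key_step (hs : IsSpecialRankOnePair A B) (hab : HasAbelianUnipotents A B) {a b c w : G}
    {m : ℕ} (hp : Par A B a b) (hc : Par A B (a ^ m) c) (hw : Par A B w (b ^ (m + 1))) :
    Par A B (a * w⁻¹) (c * b) := by
  apply par_of_eq hs.1 (mul_mem hp.1 (inv_mem hw.1)) (mul_mem hc.2.2.1 hp.2.2.1)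
  have hw' := (par_inv hs hw).2.2.2.2
  rw [inv_inv, inv_inv] at hw'
  have e1 : (c * b)⁻¹ = b⁻¹ * c⁻¹ := by group
  have e2 : b⁻¹ * (a ^ m)⁻¹ = a⁻¹ * (nn a b * (a ^ (m + 1))⁻¹ * (nn a b)⁻¹) * nn a b := by
    unfold nn
    rw [pow_succ]; group
  have e3 : nn a b * (a ^ (m + 1))⁻¹ * (nn a b)⁻¹ = b ^ (m + 1) := by
    have := nn_conj_pow hs hp (m + 1)
    have h2 : nn a b * (a ^ (m + 1))⁻¹ * (nn a b)⁻¹ = (nn a b * a ^ (m + 1) * (nn a b)⁻¹)⁻¹ := by
      group
    rw [h2, this, inv_inv]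
  have e4 : (a * w⁻¹)⁻¹ = a⁻¹ * w := by
    rw [mul_inv_rev, inv_inv]
    exact comm_of_isMulCommutative hab.1 hw.1 (inv_mem hp.1)
  rw [e1, ← conjBy_conjBy, hc.2.2.2.2, conjBy_conjBy, e2, e3, ← conjBy_conjBy,
    conjBy_right_nn hs hp, ← conjBy_conjBy, hw', conjBy_conjBy, e4]

/-- `b(w) = b(a)^m` implies `w^m = a` -/
theorem root_aux (m : ℕ) : ∀ (A B : Subgroup G), IsSpecialRankOnePair A B →
    HasAbelianUnipotents A B → ∀ a b w : G, Par A B a b → Par A B w (b ^ (m + 1)) →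
    w ^ (m + 1) = a := by
  induction m with
  | zero =>
    intro A B hs _ a b w hp hw
    rw [zero_add, pow_one] at hw ⊢
    exact par_unique_left hs.1 hw hp
  | succ m ih =>
    intro A B hs hab a b w hp hw
    by_cases ham : a ^ (m + 1) = 1
    · have hbm : b ^ (m + 1) = 1 := (pow_eq_one_iff hs hp _).1 ham
      rw [pow_succ, hbm, one_mul] at hw
      have : w = a := par_unique_left hs.1 hw hp
      rw [this, pow_succ, ham, one_mul]
    · obtain ⟨c, hc⟩ := exists_par_right hs.1 (pow_mem hp.1 (m + 1)) ham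
      have hcm : c ^ (m + 1) = b := ih B A (symm hs) ⟨hab.2, hab.1⟩ b a c hp.symm hc.symm
      have hk := key_step hs hab hp hc hw
      have hcomm : Commute c b := comm_of_isMulCommutative hab.2 hc.2.2.1 hp.2.2.1
      have hpow : (c * b) ^ (m + 1) = b ^ (m + 1 + 1) := by
        rw [hcomm.mul_pow, hcm, pow_succ' b (m + 1)]
      have h2 := ih A B hs hab (a * w⁻¹) (c * b) w hk (by rw [hpow]; exact hw)
      rw [pow_succ, h2]; group

theorem root_left (hs : IsSpecialRankOnePair A B) (hab : HasAbelianUnipotents A B) {a b w : G}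
    {m : ℕ} (hm : 0 < m) (hp : Par A B a b) (hw : Par A B w (b ^ m)) : w ^ m = a := by
  obtain ⟨k, rfl⟩ : ∃ k, m = k + 1 := ⟨m - 1, by omega⟩
  exact root_aux k A B hs hab a b w hp hw

theorem root_right (hs : IsSpecialRankOnePair A B) (hab : HasAbelianUnipotents A B) {a b c : G}
    {m : ℕ} (hm : 0 < m) (hp : Par A B a b) (hc : Par A B (a ^ m) c) : c ^ m = b :=
  root_left (symm hs) ⟨hab.2, hab.1⟩ hm hp.symm hc.symm

end Special

end Cfsg.Agent.Lib.Helper85
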