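import Cfsg.Agent.Lib.Helper85.RootHyper
import Cfsg.Agent.Lib.Helper85.Special
import Cfsg.Agent.Lib.Helper85.RootMap

set_option autoImplicit false

namespace Cfsg.Agent.Lib.Helper85

open Cfsg

variable {G : Type*} [Group G]

/-- two subgroups commute elementwise -/
def Cm (X Y : Subgroup G) : Prop := ∀ x ∈ X, ∀ y ∈ Y, x * y = y * x

theorem Cm.symm {X Y : Subgroup G} (h : Cm X Y) : Cm Y X := fun y hy x hx => (h x hx y hy).symm

theorem Cm.conj {X Y : Subgroup G} (h : Cm X Y) (g : G) : Cm (conjBy X g) (conjBy Y g) :=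
  commute_conjBy h g

theorem Cm.of_conj {X Y : Subgroup G} {g : G} (h : Cm (conjBy X g) (conjBy Y g)) : Cm X Y := by
  have := h.conj g⁻¹
  rwa [conjBy_conjBy, conjBy_conjBy, inv_mul_cancel, conjBy_one, conjBy_one] at this

theorem cm_iff_commutator {X Y : Subgroup G} : Cm X Y ↔ ⁅X, Y⁆ = ⊥ :=
  Cfsg.Agent.Lib.Helper85.commutator_eq_bot_iff.symm

/-- `e` centralizes `B` and the conjugate `e⁻¹ A e` commutes with `A` -/
def Sw (A B : Subgroup G) (e : G) : Prop := (∀ b ∈ B, e * b = b * e) ∧ Cm (conjBy A e⁻¹) A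

theorem conjBy_eq_of_comm {C : Subgroup G} {g : G} (h : ∀ c ∈ C, g * c = c * g) :
    conjBy C g = C ∧ conjBy C g⁻¹ = C := by
  have h1 := conjBy_eq_of_commute h
  refine ⟨h1, ?_⟩
  rw [conjBy_eq_iff, inv_inv, h1]

/-- the switch lemma -/
theorem Sw.switch {A B : Subgroup G} (h : IsRankOnePair A B) (hAA : Cm A A) (hBB : Cm B B)
    {e : G} (he : Sw A B e) {a : G} (ha : a ∈ A) : Sw B A (e⁻¹ * a⁻¹ * e * a) := by
  constructor
  · intro x hx
    have h1 : e⁻¹ * a⁻¹ * e ∈ conjBy A e⁻¹ := by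
      have := conj_mem_conjBy (inv_mem ha) e⁻¹
      rwa [inv_inv] at this
    calc e⁻¹ * a⁻¹ * e * a * x = e⁻¹ * a⁻¹ * e * (a * x) := by group
      _ = e⁻¹ * a⁻¹ * e * (x * a) := by rw [hAA a ha x hx]
      _ = (e⁻¹ * a⁻¹ * e * x) * a := by group
      _ = (x * (e⁻¹ * a⁻¹ * e)) * a := by rw [he.2 _ h1 x hx]
      _ = x * (e⁻¹ * a⁻¹ * e * a) := by group
  · by_cases ha1 : a = 1
    · subst ha1
      have : (e⁻¹ * (1 : G)⁻¹ * e * 1)⁻¹ = 1 := by group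
      rw [this, conjBy_one]
      exact hBB
    · obtain ⟨β, hβ, -, hAB⟩ := h.cond_left a⁻¹ (inv_mem ha) (by simpa using ha1)
      rw [inv_inv] at hAB
      have hBe := (conjBy_eq_of_comm he.1).1
      have e1 : conjBy B (e⁻¹ * a⁻¹ * e * a)⁻¹ = conjBy (conjBy A e⁻¹) (a⁻¹ * β⁻¹) := by
        have w : (e⁻¹ * a⁻¹ * e * a)⁻¹ = a⁻¹ * e⁻¹ * a * e := by group
        rw [w, ← conjBy_conjBy B e, hBe, ← conjBy_conjBy B a, ← hAB, conjBy_conjBy, conjBy_conjBy]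
        congr 1
        have hc : e⁻¹ * β⁻¹ = β⁻¹ * e⁻¹ := by
          rw [← mul_inv_rev, ← mul_inv_rev, he.1 β hβ]
        calc a⁻¹ * e⁻¹ * β⁻¹ = a⁻¹ * (e⁻¹ * β⁻¹) := by group
          _ = a⁻¹ * (β⁻¹ * e⁻¹) := by rw [hc]
          _ = a⁻¹ * β⁻¹ * e⁻¹ := by group
      have e2 : B = conjBy A (a⁻¹ * β⁻¹) := by
        rw [← conjBy_conjBy, hAB, conjBy_conjBy, inv_mul_cancel, conjBy_one]
      rw [e1, e2]
      exact he.2.conj _

/-- nontriviality is preserved by the switch -/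
theorem Sw.switch_ne {A B : Subgroup G} (h : IsRankOnePair A B) {n : G} (hn : Sw B A n)
    (hne : conjBy B n⁻¹ ≠ B) {β : G} (hβ : β ∈ B) (hβ1 : β ≠ 1) :
    conjBy A (n⁻¹ * β⁻¹ * n * β)⁻¹ ≠ A := by
  intro hcon
  apply hne
  obtain ⟨α, hα, -, hBA⟩ := h.cond_right β⁻¹ (inv_mem hβ) (by simpa using hβ1)
  rw [inv_inv] at hBA
  have hAn := conjBy_eq_of_comm hn.1
  have w : (n⁻¹ * β⁻¹ * n * β)⁻¹ = β⁻¹ * (n⁻¹ * β) * n := by group
  rw [w, ← conjBy_conjBy A n, hAn.1, ← conjBy_conjBy, conjBy_eq_iff, inv_inv] at hcon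
  -- hcon : conjBy A (n⁻¹ * β) = conjBy A β
  rw [← conjBy_conjBy, ← hBA, conjBy_conjBy] at hcon
  have hc : n⁻¹ * α⁻¹ = α⁻¹ * n⁻¹ := by
    rw [← mul_inv_rev, ← mul_inv_rev, hn.1 α hα]
  rw [hc, ← conjBy_conjBy, conjBy_inj] at hcon
  exact hcon

theorem cm_self {S : Set (Subgroup G)} (hS : IsRootSubgroupSet S) {A : Subgroup G} (hA : A ∈ S) :
    Cm A A := fun _ hx _ hy => Root.comm_mem hS hA hx hy

/-- a nontrivial switching element forces the rank one pair to be special -/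
theorem special_of_sw {S : Set (Subgroup G)} (hS : IsRootSubgroupSet S)
    (hF : ∀ A ∈ S, ∃ B ∈ S, IsRankOnePair A B) {A B : Subgroup G} (hA : A ∈ S) (hB : B ∈ S)
    (h : IsRankOnePair A B) {e : G} (he : Sw A B e) (hne : conjBy A e⁻¹ ≠ A) :
    IsSpecialRankOnePair A B := by
  refine ⟨h, ?_⟩
  intro a ha ha1 b hb hb1 hab
  have hAA := cm_self hS hA
  have hBB := cm_self hS hB
  obtain ⟨n, hn⟩ : ∃ n, n = e⁻¹ * a⁻¹ * e * a := ⟨_, rfl⟩
  have hnsw : Sw B A n := hn ▸ Sw.switch h hAA hBB he ha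
  obtain ⟨e', he'⟩ : ∃ e', e' = n⁻¹ * b⁻¹ * n * b := ⟨_, rfl⟩
  have he'sw : Sw A B e' := he' ▸ Sw.switch (RankOnePair_symm h) hBB hAA hnsw hb
  obtain ⟨n', hn'⟩ : ∃ n', n' = e'⁻¹ * a⁻¹ * e' * a := ⟨_, rfl⟩
  have hn'sw : Sw B A n' := hn' ▸ Sw.switch h hAA hBB he'sw ha
  obtain ⟨y₁, hy₁⟩ : ∃ y, y = b⁻¹ * a * b := ⟨_, rfl⟩
  obtain ⟨y₂, hy₂⟩ : ∃ y, y = a⁻¹ * b⁻¹ * a := ⟨_, rfl⟩
  rw [← hy₁, ← hy₂]
  have heb : e * b = b * e := he.1 b hb
  have hbe1 : b * e * b⁻¹ = e := by rw [← heb]; group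
  have hbe2 : e * b⁻¹ * e⁻¹ = b⁻¹ := by
    calc e * b⁻¹ * e⁻¹ = b⁻¹ * (b * e) * b⁻¹ * e⁻¹ := by group
      _ = b⁻¹ * (e * b) * b⁻¹ * e⁻¹ := by rw [heb]
      _ = b⁻¹ := by group
  have e1 : y₁⁻¹ * e * y₁ = e * n * e' := by
    calc y₁⁻¹ * e * y₁ = b⁻¹ * a⁻¹ * (b * e * b⁻¹) * a * b := by rw [hy₁]; group
      _ = b⁻¹ * a⁻¹ * e * a * b := by rw [hbe1]
      _ = (e * b⁻¹ * e⁻¹) * a⁻¹ * e * a * b := by rw [hbe2]
      _ = e * n * e' := by rw [he', hn]; group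
  -- relations
  have r1 : a * e * a⁻¹ = e * n⁻¹ := by
    have h1 : e⁻¹ * a * e ∈ conjBy A e⁻¹ := by
      have := conj_mem_conjBy ha e⁻¹
      rwa [inv_inv] at this
    have h2 := he.2 _ h1 a⁻¹ (inv_mem ha)
    calc a * e * a⁻¹ = e * (e⁻¹ * a * e * a⁻¹) := by group
      _ = e * (a⁻¹ * (e⁻¹ * a * e)) := by rw [h2]
      _ = e * n⁻¹ := by rw [hn]; group
  have r2 : b * n⁻¹ * b⁻¹ = e' * n⁻¹ := by
    have h1 : n⁻¹ * b⁻¹ * n ∈ conjBy B n⁻¹ := by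
      have := conj_mem_conjBy (inv_mem hb) n⁻¹
      rwa [inv_inv] at this
    have h2 := hnsw.2 _ h1 b hb
    calc b * n⁻¹ * b⁻¹ = (b * (n⁻¹ * b⁻¹ * n)) * n⁻¹ := by group
      _ = (n⁻¹ * b⁻¹ * n * b) * n⁻¹ := by rw [← h2]
      _ = e' * n⁻¹ := by rw [he']
  have r3 : a⁻¹ * n⁻¹ * a = n⁻¹ := by
    have h1 := hnsw.1 a ha
    calc a⁻¹ * n⁻¹ * a = a⁻¹ * n⁻¹ * (a * n) * n⁻¹ := by group
      _ = a⁻¹ * n⁻¹ * (n * a) * n⁻¹ := by rw [h1]
      _ = n⁻¹ := by group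
  have e2 : y₂⁻¹ * e * y₂ = e * n * e' * (n' * n⁻¹) := by
    calc y₂⁻¹ * e * y₂ = a⁻¹ * b * (a * e * a⁻¹) * b⁻¹ * a := by rw [hy₂]; group
      _ = a⁻¹ * b * (e * n⁻¹) * b⁻¹ * a := by rw [r1]
      _ = a⁻¹ * (b * e * b⁻¹) * (b * n⁻¹ * b⁻¹) * a := by group
      _ = a⁻¹ * e * (e' * n⁻¹) * a := by rw [hbe1, r2]
      _ = (a⁻¹ * e * a) * (a⁻¹ * e' * a) * (a⁻¹ * n⁻¹ * a) := by group
      _ = (a⁻¹ * e * a) * (a⁻¹ * e' * a) * n⁻¹ := by rw [r3]
      _ = e * n * e' * (n' * n⁻¹) := by rw [hn', hn]; group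
  obtain ⟨m, hm⟩ : ∃ m, m = n' * n⁻¹ := ⟨_, rfl⟩
  rw [← hm] at e2
  have hmA : ∀ x ∈ A, m⁻¹ * x = x * m⁻¹ := by
    intro x hx
    have h1 := hnsw.1 x hx
    have h2 := hn'sw.1 x hx
    have h3 : m * x = x * m := by
      rw [hm]
      calc n' * n⁻¹ * x = n' * n⁻¹ * (x * n) * n⁻¹ := by group
        _ = n' * n⁻¹ * (n * x) * n⁻¹ := by rw [h1]
        _ = (n' * x) * n⁻¹ := by group
        _ = (x * n') * n⁻¹ := by rw [h2]
        _ = x * (n' * n⁻¹) := by group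
    calc m⁻¹ * x = m⁻¹ * (x * m) * m⁻¹ := by group
      _ = m⁻¹ * (m * x) * m⁻¹ := by rw [h3]
      _ = x * m⁻¹ := by group
  -- the subgroup D
  obtain ⟨D, hD⟩ : ∃ D, D = conjBy A b⁻¹ := ⟨_, rfl⟩
  have hDS : D ∈ S := hD ▸ hS.conj_mem A hA _
  have hy₁D : y₁ ∈ D := by
    rw [hD, hy₁]
    have := conj_mem_conjBy ha b⁻¹
    rwa [inv_inv] at this
  have hy₂D : y₂ ∈ D := by
    rw [hD, hab, hy₂]
    have := conj_mem_conjBy (inv_mem hb) a⁻¹
    rwa [inv_inv] at this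
  obtain ⟨x, hx⟩ : ∃ x, x = y₁ * y₂⁻¹ := ⟨_, rfl⟩
  have hxD : x ∈ D := hx ▸ mul_mem hy₁D (inv_mem hy₂D)
  obtain ⟨z, hz⟩ : ∃ z, z = e⁻¹ * x⁻¹ * e * x := ⟨_, rfl⟩
  have hz2 : z = y₂ * m⁻¹ * y₂⁻¹ := by
    calc z = e⁻¹ * y₂ * (y₁⁻¹ * e * y₁) * y₂⁻¹ := by rw [hz, hx]; group
      _ = e⁻¹ * y₂ * ((y₂⁻¹ * e * y₂) * m⁻¹) * y₂⁻¹ := by rw [e2, e1]; group
      _ = y₂ * m⁻¹ * y₂⁻¹ := by group
  have hDe : conjBy D e⁻¹ = conjBy (conjBy A e⁻¹) b⁻¹ := by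
    rw [hD, conjBy_conjBy, conjBy_conjBy]
    congr 1
    rw [← mul_inv_rev, ← mul_inv_rev, heb]
  have hDeD : Cm (conjBy D e⁻¹) D := by
    rw [hDe, hD]
    exact he.2.conj _
  have hDne : conjBy D e⁻¹ ≠ D := by
    rw [hDe, hD]
    intro hc
    exact hne (conjBy_inj.1 hc)
  have hxe : e⁻¹ * x⁻¹ * e ∈ conjBy D e⁻¹ := by
    have := conj_mem_conjBy (inv_mem hxD) e⁻¹
    rwa [inv_inv] at this
  have hzD : ∀ d ∈ D, z * d = d * z := by
    intro d hd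
    have h1 := hDeD _ hxe d hd
    have h2 := cm_self hS hDS x hxD d hd
    calc z * d = e⁻¹ * x⁻¹ * e * (x * d) := by rw [hz]; group
      _ = (e⁻¹ * x⁻¹ * e * d) * x := by rw [h2]; group
      _ = d * (e⁻¹ * x⁻¹ * e) * x := by rw [h1]
      _ = d * z := by rw [hz]; group
  have hzD' : ∀ d ∈ conjBy A y₂, z * d = d * z := by
    intro d hd
    rw [mem_conjBy] at hd
    have h1 := hmA _ hd
    calc z * d = y₂ * (m⁻¹ * (y₂⁻¹ * d * y₂)) * y₂⁻¹ := by rw [hz2]; group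
      _ = y₂ * ((y₂⁻¹ * d * y₂) * m⁻¹) * y₂⁻¹ := by rw [h1]
      _ = d * z := by rw [hz2]; group
  have hDA : IsRankOnePair D A := by
    apply (RankOne.pair_of_mem h _ (RankOne.left_mem_unipotent A B) _).1
    · rw [hD]
      exact RankOne.conjBy_left_mem (Subgroup.mem_sup_right (inv_mem hb))
    · rw [hD]
      exact RankOne.conjBy_left_ne h (inv_mem hb) (by simpa using hb1)
  have hDD' : IsRankOnePair D (conjBy A y₂) := by
    have := RankOne.conj hDA y₂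
    rwa [conjBy_of_mem hy₂D] at this
  by_contra hcon
  have hx1 : x ≠ 1 := by
    intro h1
    apply hcon
    rw [hx] at h1
    exact mul_inv_eq_one.1 h1
  have hx1' : x⁻¹ ≠ 1 := by simpa using hx1
  have hzx : z * x⁻¹ = e⁻¹ * x⁻¹ * e := by rw [hz]; group
  have hDeS : conjBy D e⁻¹ ∈ S := hS.conj_mem D hDS _
  by_cases hz1 : z = 1
  · rw [hz1, one_mul] at hzx
    apply hDne
    exact (Root.ti hS hF hDS hDeS (inv_mem hxD) (hzx ▸ hxe) hx1').symm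
  · apply Root.not_root_of_commute hS hDS (hS.conj_mem A hA y₂) hDD' hzD hzD' hz1 (inv_mem hxD) hx1'
    refine ⟨?_, _, hDeS, hzx ▸ hxe⟩
    rw [hzx]
    intro h1
    apply hx1'
    calc x⁻¹ = e * (e⁻¹ * x⁻¹ * e) * e⁻¹ := by group
      _ = 1 := by rw [h1]; group

/-- two commuting members both in rank one position with `B` give a nontrivial switching element -/
theorem exists_sw {A C B : Subgroup G} (hAA : Cm A A) (hCA : Cm C A) (hne : C ≠ A)
    (hAB : IsRankOnePair A B) (hCB : IsRankOnePair C B) :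
    ∃ n, Sw B A n ∧ conjBy B n⁻¹ ≠ B := by
  obtain ⟨c, hc, hc1⟩ := RankOne.exists_ne_one_left hCB
  obtain ⟨b, hb, hb1, hCb⟩ := hCB.cond_left c⁻¹ (inv_mem hc) (by simpa using hc1)
  rw [inv_inv] at hCb
  obtain ⟨a, ha, -, hBa⟩ := hAB.cond_right b hb hb1
  have e1 : conjBy B (a * c) = conjBy C (a * b⁻¹) := by
    rw [← conjBy_conjBy, ← hCb, conjBy_conjBy]
  have e2 : B = conjBy A (a * b⁻¹) := by
    rw [← conjBy_conjBy, ← hBa, conjBy_conjBy, mul_inv_cancel, conjBy_one]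
  refine ⟨(a * c)⁻¹, ⟨?_, ?_⟩, ?_⟩
  · intro x hx
    have h1 := hAA a ha x hx
    have h2 := hCA c hc x hx
    have h3 : (a * c) * x = x * (a * c) := by
      calc a * c * x = a * (c * x) := by group
        _ = (a * x) * c := by rw [h2]; group
        _ = x * (a * c) := by rw [h1]; group
    calc (a * c)⁻¹ * x = (a * c)⁻¹ * (x * (a * c)) * (a * c)⁻¹ := by group
      _ = (a * c)⁻¹ * ((a * c) * x) * (a * c)⁻¹ := by rw [h3]
      _ = x * (a * c)⁻¹ := by group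
  · rw [inv_inv, e1, e2]
    exact hCA.conj _
  · rw [inv_inv, e1, e2]
    intro h
    exact hne (conjBy_inj.1 h)

/-- the good pair lemma -/
theorem special_of_good {S : Set (Subgroup G)} (hS : IsRootSubgroupSet S)
    (hF : ∀ A ∈ S, ∃ B ∈ S, IsRankOnePair A B) {A B C : Subgroup G} (hA : A ∈ S) (hB : B ∈ S)
    (hCA : Cm C A) (hne : C ≠ A) (hAB : IsRankOnePair A B) (hCB : IsRankOnePair C B) :
    IsSpecialRankOnePair A B := by
  obtain ⟨n, hn, hn1⟩ := exists_sw (cm_self hS hA) hCA hne hAB hCB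
  obtain ⟨β, hβ, hβ1⟩ := RankOne.exists_ne_one_right hAB
  exact special_of_sw hS hF hA hB hAB
    (Sw.switch (RankOnePair_symm hAB) (cm_self hS hB) (cm_self hS hA) hn hβ)
    (Sw.switch_ne hAB hn hn1 hβ hβ1)

theorem Special.conj {A B : Subgroup G} (h : IsSpecialRankOnePair A B) (g : G) :
    IsSpecialRankOnePair (conjBy A g) (conjBy B g) :=
  Special.map_of_injective (f := (MulAut.conj g).toMonoidHom) (MulAut.conj g).injective h

theorem Special.of_conj {A B : Subgroup G} {g : G}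
    (h : IsSpecialRankOnePair (conjBy A g) (conjBy B g)) : IsSpecialRankOnePair A B := by
  have := Special.conj h g⁻¹
  rwa [conjBy_conjBy, conjBy_conjBy, inv_mul_cancel, conjBy_one, conjBy_one] at this

/-- in the degenerate case a non-special pair is bad, together with all its conjugates -/
theorem bad_of_not_special {S : Set (Subgroup G)} (hS : IsRootSubgroupSet S)
    (hF : ∀ A ∈ S, ∃ B ∈ S, IsRankOnePair A B) (hdeg : IsDegenerateRootSet S)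
    {A B : Subgroup G} (hA : A ∈ S) (hB : B ∈ S) (hAB : IsRankOnePair A B)
    (hns : ¬ IsSpecialRankOnePair A B) (g : G) :
    ∀ C ∈ S, C ≠ conjBy A g → Cm C (conjBy A g) → Cm C (conjBy B g) := by
  intro C hC hne hCA
  rcases hS.pair C hC _ (hS.conj_mem B hB g) with h | h | h
  · exact cm_iff_commutator.2 h
  · exact absurd (Special.of_conj (special_of_good hS hF (hS.conj_mem A hA g)
      (hS.conj_mem B hB g) hCA hne (RankOne.conj hAB g) h)) hns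
  · exact absurd h (hdeg _ hC _ (hS.conj_mem B hB g))

/-- in a degenerate class with commuting members, every member `A` has a rank one partner `T`
which is also a rank one partner of a member commuting with `A` -/
theorem exists_good {S : Set (Subgroup G)} (hS : IsRootSubgroupSet S)
    (hconj : IsConjClassOfSubgroups S)
    (hF : ∀ A ∈ S, ∃ B ∈ S, IsRankOnePair A B) (hdeg : IsDegenerateRootSet S)
    (hcomm : ∃ A ∈ S, ∃ C ∈ S, A ≠ C ∧ ⁅A, C⁆ = ⊥) {A : Subgroup G} (hA : A ∈ S) :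
    ∃ T ∈ S, ∃ C ∈ S, C ≠ A ∧ Cm C A ∧ IsRankOnePair A T ∧ IsRankOnePair C T := by
  obtain ⟨A', hA', C', hC', hne', hcm'⟩ := hcomm
  obtain ⟨g, rfl⟩ := hconj.2 A' hA' A hA
  have hC₀ : conjBy C' g ∈ S := hS.conj_mem C' hC' g
  have hne₀ : conjBy C' g ≠ conjBy A' g := fun h => hne' (conjBy_inj.1 h).symm
  have hcm₀ : Cm (conjBy C' g) (conjBy A' g) := ((cm_iff_commutator.2 hcm').conj g).symm
  by_contra hcon
  have key : ∀ X, Relation.ReflTransGen (FAdj S) (conjBy A' g) X →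
      X = conjBy A' g ∨ IsRankOnePair (conjBy A' g) X := by
    intro X hX
    induction hX with
    | refl => exact Or.inl rfl
    | @tail Y Z _ hadj ih =>
      rcases ih with rfl | ih
      · exact Or.inr hadj.2.2
      · by_cases hZ : Z = conjBy A' g
        · exact Or.inl hZ
        · rcases hS.pair _ hA Z hadj.2.1 with h | h | h
          · exfalso
            exact hcon ⟨Y, hadj.1, Z, hadj.2.1, hZ, (cm_iff_commutator.2 h).symm, ih,
              RankOnePair_symm hadj.2.2⟩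
          · exact Or.inr h
          · exact absurd h (hdeg _ hA _ hadj.2.1)
  rcases key _ (Root.connected_of_conjClass hS hconj hF _ hA _ hC₀) with h | h
  · exact hne₀ h
  · exact RankOne.commutator_ne_bot h (cm_iff_commutator.1 hcm₀.symm)

end Cfsg.Agent.Lib.Helper85
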