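import Cfsg.Agent.Lib.Helper85.RootGen

set_option autoImplicit false

namespace Cfsg.Agent.Lib.Helper85

open Cfsg

variable {G : Type*} [Group G]

/-- the stabilizer of a family of subgroups under conjugation -/
def famStab (Δ : Set (Subgroup G)) : Subgroup G where
  carrier := {x | ∀ Z, Z ∈ Δ ↔ conjBy Z x ∈ Δ}
  one_mem' := fun Z => by rw [conjBy_one]
  mul_mem' := fun {x y} hx hy Z => by
    rw [← conjBy_conjBy, ← hx, ← hy]
  inv_mem' := fun {x} hx Z => by
    have := hx (conjBy Z x⁻¹)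
    rw [conjBy_conjBy, mul_inv_cancel, conjBy_one] at this
    exact this.symm

theorem mem_famStab {Δ : Set (Subgroup G)} {x : G} :
    x ∈ famStab Δ ↔ ∀ Z, Z ∈ Δ ↔ conjBy Z x ∈ Δ := Iff.rfl

namespace Root

variable {S Δ : Set (Subgroup G)}

theorem mem_famStab_of_fix (hΔ : IsWeakTISubset S Δ) {T Y : Subgroup G} (hT : T ∈ S) (hY : Y ∈ Δ)
    {t : G} (ht : t ∈ T) (hfix : conjBy Y t = Y) : t ∈ famStab Δ := by
  by_cases ht1 : t = 1
  · rw [ht1]; exact one_mem _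
  rcases hΔ.2.2.2 t ⟨ht1, T, hT, ht⟩ with h | h
  · intro Z
    constructor
    · intro hZ
      rw [← h]; exact ⟨Z, hZ, rfl⟩
    · intro hZ
      rw [← h] at hZ
      obtain ⟨Z', hZ', he⟩ := hZ
      rw [← conjBy_inj.1 he]; exact hZ'
  · exfalso
    exact Set.disjoint_left.1 h ⟨Y, hY, hfix⟩ hY

theorem le_famStab_of_commute (hΔ : IsWeakTISubset S Δ) {T Y : Subgroup G} (hT : T ∈ S)
    (hY : Y ∈ Δ) (hcomm : ∀ t ∈ T, ∀ y ∈ Y, t * y = y * t) : T ≤ famStab Δ := fun t ht =>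
  mem_famStab_of_fix hΔ hT hY ht (conjBy_eq_of_commute (hcomm t ht))

theorem weakTI_no_rankOne (hS : IsRootSubgroupSet S)
    (hF : ∀ A ∈ S, ∃ B ∈ S, IsRankOnePair A B) (hE : IsConnectedFamily (EAdj S S) S)
    (hΔ : IsWeakTISubset S Δ) {A B : Subgroup G} (hA : A ∈ Δ) (hB : B ∈ Δ) :
    ¬ IsRankOnePair A B := by
  intro hAB
  apply hΔ.2.2.1
  apply Set.Subset.antisymm hΔ.1
  have key : ∀ T ∈ S, T ∈ Δ ∧ ∃ B' ∈ Δ, IsRankOnePair T B' := by
    intro T hT
    have hr := hE A (hΔ.1 hA) T hT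
    induction hr with
    | refl => exact ⟨hA, B, hB, hAB⟩
    | @tail A' C' _ hadj ih =>
      obtain ⟨hA', B', hB', hAB'⟩ := ih hadj.1
      obtain ⟨D, hD, G₁, hG, -, hDB, hspan, hback, hGD⟩ :=
        line_structure hS hF hadj.1 hadj.2.2 (hΔ.1 hB') hAB'
      have hc2' : RootCommutatorCase S G₁ D :=
        commutatorCase_of_mem hS hG hD (by rw [hGD]; exact hadj.1)
      have hFle : ⁅D, B'⁆ ≤ famStab Δ := le_famStab_of_commute hΔ hDB.1 hB'
        (fun t ht y hy => (CommCase.comm_right hDB hy ht).symm)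
      have hGle : G₁ ≤ famStab Δ := le_famStab_of_commute hΔ hG hA'
        (fun t ht y hy => CommCase.comm_left hc2' ht (hGD.symm ▸ hy))
      obtain ⟨F, hFdef⟩ : ∃ F, F = ⁅D, B'⁆ := ⟨_, rfl⟩
      have hFS : F ∈ S := hFdef ▸ hDB.1
      rw [← hFdef] at hback hFle
      clear hDB hc2'
      subst hback
      have hc1 : RootCommutatorCase S A' F := commutatorCase_of_mem hS hadj.1 hFS hD
      have hc2 : RootCommutatorCase S G₁ ⁅A', F⁆ :=
        commutatorCase_of_mem hS hG hD (by rw [hGD]; exact hadj.1)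
      obtain ⟨x, hx, rfl⟩ := opp_point hS hF hadj.1 hFS hG hc1 hc2 hGD (P := C')
        ⟨hadj.2.1, by rw [← hspan]; exact le_sup_right⟩
      have hxs : x ∈ famStab Δ := sup_le hFle hGle hx
      exact ⟨(hxs A').1 hA', conjBy B' x, (hxs B').1 hB', RankOne.conj hAB' x⟩
  exact fun T hT => (key T hT).1

theorem weakTI_abelian (hS : IsRootSubgroupSet S)
    (hF : ∀ A ∈ S, ∃ B ∈ S, IsRankOnePair A B) (hE : IsConnectedFamily (EAdj S S) S)
    (hΔ : IsWeakTISubset S Δ) : IsAbelianFamily Δ := by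
  intro A hA B hB
  rcases hS.pair A (hΔ.1 hA) B (hΔ.1 hB) with h | h | h
  · exact commutator_eq_bot_iff.1 h
  · exact absurd h (weakTI_no_rankOne hS hF hE hΔ hA hB)
  · exfalso
    obtain ⟨G₁, hG, hG'⟩ := exists_opposite_root hS hF (hΔ.1 hA) h
    rw [Subgroup.commutator_comm] at hG'
    have hc2 : RootCommutatorCase S G₁ ⁅A, B⁆ :=
      commutatorCase_of_mem hS hG h.1 (by rw [hG']; exact hΔ.1 hA)
    have hr := opp_rankOne hS (hΔ.1 hA) (hΔ.1 hB) hG h hc2 hG'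
    have hGle : G₁ ≤ famStab Δ := le_famStab_of_commute hΔ hG hA
      (fun t ht y hy => CommCase.comm_left hc2 ht (hG'.symm ▸ hy))
    obtain ⟨g, hg, hg1⟩ := RankOne.exists_ne_one_right hr
    have hne : conjBy B g ≠ B := RankOne.conjBy_left_ne hr hg hg1
    have hp := (RankOne.pair_of_mem hr (RankOne.left_mem_unipotent B G₁)
      (RankOne.conjBy_left_mem (A := B) (B := G₁) (Subgroup.mem_sup_right hg)) hne.symm).1
    exact weakTI_no_rankOne hS hF hE hΔ hB ((hGle hg B).1 hB) hp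

end Root

end Cfsg.Agent.Lib.Helper85
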