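import Cfsg.Agent.Lib.Helper85.St2Lift
import Cfsg.Agent.Lib.Helper85.St2Gen

set_option autoImplicit false

/-!
Invariant pairings on a finite field vanish (the arithmetic input of Steinberg's theorem on central
extensions in rank one).
-/

namespace Cfsg.Agent.Lib.Helper85

namespace SL2Cover

section Pairing

variable {K A : Type*} [Field K] [Group A]

theorem pairing_zero_right (f : K → K → A) (hr : ∀ t u u', f t (u + u') = f t u * f t u') (t : K) :
    f t 0 = 1 := by
  have := hr t 0 0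
  rw [add_zero] at this
  exact mul_eq_left.1 this.symm

theorem pairing_zero_left (f : K → K → A) (hl : ∀ t t' u, f (t + t') u = f t u * f t' u) (u : K) :
    f 0 u = 1 := by
  have := hl 0 0 u
  rw [add_zero] at this
  exact mul_eq_left.1 this.symm

theorem pairing_trivial (f : K → K → A)
    (hl : ∀ t t' u, f (t + t') u = f t u * f t' u) (hr : ∀ t u u', f t (u + u') = f t u * f t u')
    (hinv : ∀ v t u, v ≠ 0 → f (v ^ 2 * t) (v ^ 2 * u) = f t u)
    {a b : K} (ha : a ≠ 0) (hb : b ≠ 0) (hab : a ^ 2 + 1 = b ^ 2)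
    (hs : (a ^ 2) ^ 2 + a ^ 2 + 1 ≠ 0) : ∀ t u, f t u = 1 := by
  have h0 : ∀ t, f t 0 = 1 := pairing_zero_right f hr
  have h1 : ∀ v t u, v ≠ 0 → f (v ^ 2 * t) u = f t ((v ^ 2)⁻¹ * u) := by
    intro v t u hv
    rw [← hinv v t ((v ^ 2)⁻¹ * u) hv]
    congr 1
    field_simp
  have h2 : ∀ t u, f t ((b ^ 2)⁻¹ * u) = f t ((a ^ 2)⁻¹ * u + u) := by
    intro t u
    rw [← h1 b t u hb, ← hab, hr, ← h1 a t u ha, ← hl]
    congr 1
    ring
  have hd : (b ^ 2)⁻¹ - (a ^ 2)⁻¹ - 1 ≠ 0 := by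
    intro h
    apply hs
    have ha2 : a ^ 2 ≠ 0 := pow_ne_zero 2 ha
    have hb2 : a ^ 2 + 1 ≠ 0 := by rw [hab]; exact pow_ne_zero 2 hb
    rw [← hab] at h
    field_simp at h
    linear_combination -h
  have h3 : ∀ t u, f t (((b ^ 2)⁻¹ - (a ^ 2)⁻¹ - 1) * u) = 1 := by
    intro t u
    have e : ((b ^ 2)⁻¹ - (a ^ 2)⁻¹ - 1) * u = (b ^ 2)⁻¹ * u + -((a ^ 2)⁻¹ * u + u) := by ring
    rw [e, hr, h2, ← hr, add_neg_cancel, h0]
  intro t u
  have := h3 t (((b ^ 2)⁻¹ - (a ^ 2)⁻¹ - 1)⁻¹ * u)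
  rwa [mul_inv_cancel_left₀ hd] at this

theorem pairing_trivial_prime [Finite K] (hp : (Nat.card K).Prime) (f : K → K → A)
    (hl : ∀ t t' u, f (t + t') u = f t u * f t' u) (hr : ∀ t u u', f t (u + u') = f t u * f t u')
    (halt : ∀ t, f t t = 1) : ∀ t u, f t u = 1 := by
  have hsurj : ∀ t : K, ∃ n : ℕ, (n : K) = t := by
    intro t
    have := Fact.mk hp
    have h1 : AddSubgroup.zmultiples (1 : K) = ⊤ := zmultiples_eq_top_of_prime_card rfl one_ne_zero
    have h2 : t ∈ AddSubgroup.zmultiples (1 : K) := by rw [h1]; trivial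
    rw [← mem_multiples_iff_mem_zmultiples] at h2
    obtain ⟨n, hn⟩ := h2
    exact ⟨n, by simpa using hn⟩
  have h1 : ∀ n : ℕ, f 1 (n : K) = 1 := by
    intro n
    induction n with
    | zero => rw [Nat.cast_zero]; exact pairing_zero_right f hr 1
    | succ n ih => rw [Nat.cast_succ, hr, ih, halt, one_mul]
  have h2 : ∀ u, f 1 u = 1 := by
    intro u
    obtain ⟨n, rfl⟩ := hsurj u
    exact h1 n
  have h3 : ∀ (n : ℕ) (u : K), f (n : K) u = 1 := by
    intro n u
    induction n with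
    | zero => rw [Nat.cast_zero]; exact pairing_zero_left f hl u
    | succ n ih => rw [Nat.cast_succ, hl, ih, h2, one_mul]
  intro t u
  obtain ⟨n, rfl⟩ := hsurj t
  exact h3 n u

end Pairing

section Field

open Polynomial

variable (K : Type*) [Field K] [Finite K]

theorem exists_eval_ne_zero (P : K[X]) (hP : P ≠ 0) (n : ℕ) (hn : P.natDegree ≤ n) (hc : n < Nat.card K) :
    ∃ v : K, P.eval v ≠ 0 := by
  apply Polynomial.exists_eval_ne_zero_of_natDegree_lt_card P hP
  rw [← Nat.cast_card]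
  exact_mod_cast lt_of_le_of_lt hn hc

theorem exists_torus (hc : 3 < Nat.card K) : ∃ a : K, a ≠ 0 ∧ a ^ 2 - 1 ≠ 0 := by
  obtain ⟨v, hv⟩ := exists_eval_ne_zero K (X * (X ^ 2 - 1)) (by
    apply mul_ne_zero X_ne_zero
    intro h
    have := congrArg (Polynomial.eval 0) h
    simp at this) 3 (by compute_degree) hc
  simp only [eval_mul, eval_X, eval_sub, eval_pow, eval_one] at hv
  exact ⟨v, left_ne_zero_of_mul hv, right_ne_zero_of_mul hv⟩

theorem exists_good (hnp : ¬ (Nat.card K).Prime) (h4 : Nat.card K ≠ 4) (h9 : Nat.card K ≠ 9) :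
    ∃ a b : K, a ≠ 0 ∧ b ≠ 0 ∧ a ^ 2 + 1 = b ^ 2 ∧ (a ^ 2) ^ 2 + a ^ 2 + 1 ≠ 0 := by
  have := Fintype.ofFinite K
  obtain ⟨p, hchar⟩ := CharP.exists K
  obtain ⟨n, hp, hq⟩ := FiniteField.card K p
  rw [← Nat.card_eq_fintype_card] at hq
  have hn1 : (n : ℕ) ≠ 1 := by
    intro h
    rw [h, pow_one] at hq
    exact hnp (hq ▸ hp)
  have hn2 : 2 ≤ (n : ℕ) := by
    have := n.pos
    omega
  by_cases hp2 : p = 2
  · subst hp2
    have hn3 : 3 ≤ (n : ℕ) := by
      rcases Nat.lt_or_ge (n : ℕ) 3 with h | h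
      · exfalso
        have : (n : ℕ) = 2 := by omega
        rw [this] at hq
        exact h4 (by rw [hq]; norm_num)
      · exact h
    have hc : 4 < Nat.card K := by
      rw [hq]
      calc 4 < 2 ^ 3 := by norm_num
        _ ≤ 2 ^ (n : ℕ) := Nat.pow_le_pow_right (by norm_num) hn3
    obtain ⟨s, hs⟩ := exists_eval_ne_zero K (X * (X + 1) * (X ^ 2 + X + 1)) (by
      refine mul_ne_zero (mul_ne_zero X_ne_zero ?_) ?_
      · intro h
        have := congrArg (Polynomial.eval 0) h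
        simp at this
      · intro h
        have := congrArg (Polynomial.eval 0) h
        simp at this) 4 (by compute_degree) hc
    simp only [eval_mul, eval_X, eval_add, eval_pow, eval_one] at hs
    have hs1 : s ≠ 0 := left_ne_zero_of_mul (left_ne_zero_of_mul hs)
    have hs2 : s + 1 ≠ 0 := right_ne_zero_of_mul (left_ne_zero_of_mul hs)
    have hs3 : s ^ 2 + s + 1 ≠ 0 := right_ne_zero_of_mul hs
    have hr : ringChar K = 2 := (ringChar.eq K 2)
    obtain ⟨a, ha⟩ := FiniteField.isSquare_of_char_two hr s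
    obtain ⟨b, hb⟩ := FiniteField.isSquare_of_char_two hr (s + 1)
    have ha' : a ^ 2 = s := by rw [ha, pow_two]
    have hb' : b ^ 2 = s + 1 := by rw [hb, pow_two]
    refine ⟨a, b, ?_, ?_, ?_, ?_⟩
    · rintro rfl
      apply hs1
      rw [← ha']; ring
    · rintro rfl
      apply hs2
      rw [← hb']; ring
    · rw [ha', hb']
    · rw [ha']; exact hs3
  · have h2 : (2 : K) ≠ 0 := by
      intro h
      have h' : ((2 : ℕ) : K) = 0 := by exact_mod_cast h
      rw [CharP.cast_eq_zero_iff K p 2] at h'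
      exact hp2 ((Nat.prime_dvd_prime_iff_eq hp Nat.prime_two).1 h')
    have hc : 13 < Nat.card K := by
      by_contra hle
      rw [not_lt] at hle
      have h1 : p ^ 2 ≤ 13 := by
        calc p ^ 2 ≤ p ^ (n : ℕ) := Nat.pow_le_pow_right hp.pos hn2
          _ ≤ 13 := by rw [← hq]; exact hle
      have hp3 : p = 3 := by
        have := hp.two_le
        have : p < 4 := by nlinarith
        omega
      subst hp3
      have hn3 : (n : ℕ) = 2 := by
        by_contra hne
        have h3 : 3 ≤ (n : ℕ) := by omega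
        have : 3 ^ 3 ≤ 3 ^ (n : ℕ) := Nat.pow_le_pow_right (by norm_num) h3
        rw [← hq] at this
        omega
      rw [hn3] at hq
      exact h9 (by rw [hq]; norm_num)
    obtain ⟨v, hv⟩ := exists_eval_ne_zero K
      (X * (X ^ 2 - 1) * (X ^ 2 + 1) * ((X ^ 2 - 1) ^ 4 + 4 * X ^ 2 * (X ^ 2 - 1) ^ 2 + 16 * X ^ 4)) (by
      refine mul_ne_zero (mul_ne_zero (mul_ne_zero X_ne_zero ?_) ?_) ?_
      · intro h
        have := congrArg (Polynomial.eval 0) h
        simp at this
      · intro h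
        have := congrArg (Polynomial.eval 0) h
        simp at this
      · intro h
        have := congrArg (Polynomial.eval 0) h
        simp at this) 13 (by compute_degree) hc
    simp only [eval_mul, eval_X, eval_add, eval_sub, eval_pow, eval_one, eval_ofNat] at hv
    have hv1 : v ≠ 0 := left_ne_zero_of_mul (left_ne_zero_of_mul (left_ne_zero_of_mul hv))
    have hv2 : v ^ 2 - 1 ≠ 0 := right_ne_zero_of_mul (left_ne_zero_of_mul (left_ne_zero_of_mul hv))
    have hv3 : v ^ 2 + 1 ≠ 0 := right_ne_zero_of_mul (left_ne_zero_of_mul hv)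
    have hv4 : (v ^ 2 - 1) ^ 4 + 4 * v ^ 2 * (v ^ 2 - 1) ^ 2 + 16 * v ^ 4 ≠ 0 := right_ne_zero_of_mul hv
    refine ⟨(v ^ 2 - 1) / (2 * v), (v ^ 2 + 1) / (2 * v), ?_, ?_, ?_, ?_⟩
    · exact div_ne_zero hv2 (mul_ne_zero h2 hv1)
    · exact div_ne_zero hv3 (mul_ne_zero h2 hv1)
    · field_simp
      ring
    · intro h
      apply hv4
      field_simp at h
      linear_combination h

end Field

end SL2Cover

end Cfsg.Agent.Lib.Helper85
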