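import Cfsg.Agent.Lib.Helper85.SL2CoverA

set_option autoImplicit false

/-!
Steinberg's theorem on central extensions, rank one: Steinberg data lift along central extensions.
-/

namespace Cfsg.Agent.Lib.Helper85

namespace SL2Cover

open scoped commutatorElement

section Comm

variable {Γ G : Type*} [Group Γ] [Group G]

theorem comm_mul_central_left {a b z : Γ} (hz : ∀ g, z * g = g * z) : ⁅a * z, b⁆ = ⁅a, b⁆ := by
  rw [commutatorElement_def, commutatorElement_def, _root_.mul_inv_rev, mul_assoc a z b, hz b]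
  group

theorem comm_mul_central_right {a b z : Γ} (hz : ∀ g, z * g = g * z) : ⁅a, b * z⁆ = ⁅a, b⁆ := by
  rw [commutatorElement_def, commutatorElement_def, _root_.mul_inv_rev, ← mul_assoc a b z,
    mul_assoc (a * b) z a⁻¹, hz a⁻¹]
  group

theorem central_of_ker (σ : Γ →* G) (hc : σ.ker ≤ Subgroup.center Γ) {z : Γ} (hz : σ z = 1) (g : Γ) :
    z * g = g * z :=
  (Subgroup.mem_center_iff.1 (hc (MonoidHom.mem_ker.2 hz)) g).symm

theorem comm_congr (σ : Γ →* G) (hc : σ.ker ≤ Subgroup.center Γ) {a a' b b' : Γ}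
    (ha : σ a = σ a') (hb : σ b = σ b') : ⁅a, b⁆ = ⁅a', b'⁆ := by
  have hz : ∀ {x x' : Γ}, σ x = σ x' → ∃ z, (∀ g, z * g = g * z) ∧ x = x' * z := by
    intro x x' h
    refine ⟨x'⁻¹ * x, fun g => ?_, by group⟩
    apply central_of_ker σ hc
    rw [map_mul, map_inv, h, inv_mul_cancel]
  obtain ⟨z, hz1, rfl⟩ := hz ha
  obtain ⟨z', hz2, rfl⟩ := hz hb
  rw [comm_mul_central_left hz1, comm_mul_central_right hz2]

theorem conj_comm (c a b : Γ) : c * ⁅a, b⁆ * c⁻¹ = ⁅c * a * c⁻¹, c * b * c⁻¹⁆ := by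
  simp only [commutatorElement_def]
  group

theorem comm_mul_right_of_commute {m a b : Γ} (h : a * ⁅m, b⁆ = ⁅m, b⁆ * a) :
    ⁅m, a * b⁆ = ⁅m, a⁆ * ⁅m, b⁆ := by
  have e : ⁅m, a * b⁆ = ⁅m, a⁆ * (a * ⁅m, b⁆) * a⁻¹ := by
    simp only [commutatorElement_def]
    group
  rw [e, h]
  group

end Comm

section Lift

variable {K Γ G : Type*} [Field K] [Group Γ] [Group G]

theorem w_conj_h_inv (D : St2 K G) (hmul : D.HMul) {t a : K} (ht : t ≠ 0) (ha : a ≠ 0) :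
    D.w t * D.h a * (D.w t)⁻¹ = (D.h a)⁻¹ := by
  have hai : a⁻¹ ≠ 0 := inv_ne_zero ha
  have h1 : D.h a⁻¹ = (D.h a)⁻¹ := by
    rw [eq_inv_iff_mul_eq_one, hmul _ _ hai ha, inv_mul_cancel₀ ha, D.h_one]
  have h2 : D.w t * D.h a * (D.w t)⁻¹ = D.h t * (D.w 1 * D.h a * (D.w 1)⁻¹) * (D.h t)⁻¹ := by
    rw [D.w_eq_h_mul t]; group
  rw [h2, D.w_conj_h ha, hmul _ _ ht hai, mul_comm t, ← hmul _ _ hai ht, mul_inv_cancel_right, h1]

/-- Steinberg data lift along a central extension, provided invariant pairings vanish. -/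
theorem exists_lift (D : St2 K G) (hmul : D.HMul) (σ : Γ →* G) (hsurj : Function.Surjective σ)
    (hc : σ.ker ≤ Subgroup.center Γ)
    (hpair : ∀ f : K → K → Γ, (∀ t t' u, f (t + t') u = f t u * f t' u) →
      (∀ t u u', f t (u + u') = f t u * f t u') →
      (∀ v t u, v ≠ 0 → f (v ^ 2 * t) (v ^ 2 * u) = f t u) → (∀ t, f t t = 1) → ∀ t u, f t u = 1)
    {a : K} (ha : a ≠ 0) (hac : a ^ 2 - 1 ≠ 0) :
    ∃ E : St2 K Γ, (∀ t, σ (E.x t) = D.x t) ∧ (∀ t, σ (E.y t) = D.y t) := by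
  obtain ⟨s, hs⟩ : ∃ s : G → Γ, ∀ g, σ (s g) = g :=
    ⟨Function.surjInv hsurj, Function.surjInv_eq hsurj⟩
  have cc : ∀ {a a' b b' : Γ}, σ a = σ a' → σ b = σ b' → ⁅a, b⁆ = ⁅a', b'⁆ :=
    fun h1 h2 => comm_congr σ hc h1 h2
  have hcen : ∀ {z : Γ}, σ z = 1 → ∀ g, z * g = g * z := fun hz g => central_of_ker σ hc hz g
  -- lifts of the root group commute
  have hxx : ∀ t u, D.x t * D.x u = D.x u * D.x t := by
    intro t u
    rw [D.x_add, D.x_add, add_comm]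
  have hf1 : ∀ t u, σ ⁅s (D.x t), s (D.x u)⁆ = 1 := by
    intro t u
    rw [map_commutatorElement, hs, hs, commutatorElement_eq_one_iff_mul_comm, hxx]
  have hX0 : ∀ t u, ⁅s (D.x t), s (D.x u)⁆ = 1 := by
    apply hpair (fun t u => ⁅s (D.x t), s (D.x u)⁆)
    · intro t t' u
      show ⁅s (D.x (t + t')), s (D.x u)⁆ = ⁅s (D.x t), s (D.x u)⁆ * ⁅s (D.x t'), s (D.x u)⁆
      have e1 : ⁅s (D.x (t + t')), s (D.x u)⁆ = ⁅s (D.x t) * s (D.x t'), s (D.x u)⁆ := by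
        apply cc _ rfl
        rw [map_mul, hs, hs, hs, D.x_add]
      have e2 : ⁅s (D.x t) * s (D.x t'), s (D.x u)⁆ =
          s (D.x t) * ⁅s (D.x t'), s (D.x u)⁆ * (s (D.x t))⁻¹ * ⁅s (D.x t), s (D.x u)⁆ := by
        simp only [commutatorElement_def]; group
      rw [e1, e2, ← hcen (hf1 t' u) (s (D.x t)), mul_inv_cancel_right, hcen (hf1 t' u)]
    · intro t u u'
      show ⁅s (D.x t), s (D.x (u + u'))⁆ = ⁅s (D.x t), s (D.x u)⁆ * ⁅s (D.x t), s (D.x u')⁆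
      have e1 : ⁅s (D.x t), s (D.x (u + u'))⁆ = ⁅s (D.x t), s (D.x u) * s (D.x u')⁆ := by
        apply cc rfl
        rw [map_mul, hs, hs, hs, D.x_add]
      rw [e1]
      apply comm_mul_right_of_commute
      exact (hcen (hf1 t u') _).symm
    · intro v t u hv
      show ⁅s (D.x (v ^ 2 * t)), s (D.x (v ^ 2 * u))⁆ = ⁅s (D.x t), s (D.x u)⁆
      have e1 : s (D.h v) * ⁅s (D.x t), s (D.x u)⁆ * (s (D.h v))⁻¹ = ⁅s (D.x t), s (D.x u)⁆ := by
        rw [← hcen (hf1 t u), mul_inv_cancel_right]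
      rw [← e1, conj_comm]
      apply cc
      · rw [map_mul, map_mul, map_inv, hs, hs, hs, D.h_conj_x hv]
      · rw [map_mul, map_mul, map_inv, hs, hs, hs, D.h_conj_x hv]
    · intro t
      exact commutatorElement_self _
  have hX : ∀ {A B : Γ} {t u : K}, σ A = D.x t → σ B = D.x u → A * B = B * A := by
    intro A B t u hA hB
    rw [← commutatorElement_eq_one_iff_mul_comm, ← hX0 t u]
    apply cc
    · rw [hA, hs]
    · rw [hB, hs]
  have hY : ∀ {A B : Γ} {t u : K}, σ A = D.y t → σ B = D.y u → A * B = B * A := by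
    intro A B t u hA hB
    have h1 : σ ((s (D.w 1))⁻¹ * A * s (D.w 1)) = D.x (-(1 ^ 2 * t)) := by
      rw [map_mul, map_mul, map_inv, hs, hA, D.conj_y' one_ne_zero]
    have h2 : σ ((s (D.w 1))⁻¹ * B * s (D.w 1)) = D.x (-(1 ^ 2 * u)) := by
      rw [map_mul, map_mul, map_inv, hs, hB, D.conj_y' one_ne_zero]
    have h3 := hX h1 h2
    have e1 : A * B = s (D.w 1) * (((s (D.w 1))⁻¹ * A * s (D.w 1)) * ((s (D.w 1))⁻¹ * B * s (D.w 1))) *
        (s (D.w 1))⁻¹ := by group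
    rw [e1, h3]
    group
  obtain ⟨c, hcdef⟩ : ∃ c : K, c = a ^ 2 - 1 := ⟨_, rfl⟩
  have hc0 : c ≠ 0 := by rw [hcdef]; exact hac
  obtain ⟨H, hH⟩ : ∃ H : Γ, σ H = D.h a := ⟨s (D.h a), hs _⟩
  have hsx : ∀ t, σ ⁅H, s (D.x (t / c))⁆ = D.x t := by
    intro t
    rw [map_commutatorElement, hs, hH, commutatorElement_def, D.h_conj_x ha, ← D.x_neg, D.x_add]
    congr 1
    rw [hcdef]
    have : a ^ 2 - 1 ≠ 0 := hac
    field_simp
    ring
  have hsy : ∀ t, σ ⁅H⁻¹, s (D.y (t / c))⁆ = D.y t := by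
    intro t
    have := D.h_conj_y' ha (t / c)
    rw [map_commutatorElement, hs, map_inv, hH, commutatorElement_def, inv_inv, this, ← D.y_neg,
      D.y_add]
    congr 1
    rw [hcdef]
    have : a ^ 2 - 1 ≠ 0 := hac
    field_simp
    ring
  refine ⟨{ x := fun t => ⁅H, s (D.x (t / c))⁆
            y := fun t => ⁅H⁻¹, s (D.y (t / c))⁆
            x_add := ?_
            y_add := ?_
            rel := ?_ }, hsx, hsy⟩
  · intro t u
    show ⁅H, s (D.x (t / c))⁆ * ⁅H, s (D.x (u / c))⁆ = ⁅H, s (D.x ((t + u) / c))⁆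
    rw [← comm_mul_right_of_commute (hX (hs _) (hsx u))]
    apply cc rfl
    rw [map_mul, hs, hs, hs, D.x_add, add_div]
  · intro t u
    show ⁅H⁻¹, s (D.y (t / c))⁆ * ⁅H⁻¹, s (D.y (u / c))⁆ = ⁅H⁻¹, s (D.y ((t + u) / c))⁆
    rw [← comm_mul_right_of_commute (hY (hs _) (hsy u))]
    apply cc rfl
    rw [map_mul, hs, hs, hs, D.y_add, add_div]
  · intro t u ht
    show (⁅H, s (D.x (t / c))⁆ * ⁅H⁻¹, s (D.y (-t⁻¹ / c))⁆ * ⁅H, s (D.x (t / c))⁆) * ⁅H, s (D.x (u / c))⁆ *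
      (⁅H, s (D.x (t / c))⁆ * ⁅H⁻¹, s (D.y (-t⁻¹ / c))⁆ * ⁅H, s (D.x (t / c))⁆)⁻¹ =
        ⁅H⁻¹, s (D.y (-(t⁻¹ ^ 2 * u) / c))⁆
    obtain ⟨W, hW⟩ : ∃ W : Γ, W = ⁅H, s (D.x (t / c))⁆ * ⁅H⁻¹, s (D.y (-t⁻¹ / c))⁆ * ⁅H, s (D.x (t / c))⁆ :=
      ⟨_, rfl⟩
    have hsW : σ W = D.w t := by
      rw [hW, map_mul, map_mul, hsx, hsy]
      rfl
    rw [← hW, conj_comm]
    apply cc
    · rw [map_mul, map_mul, map_inv, hsW, hH, map_inv, hH, w_conj_h_inv D hmul ht ha]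
    · rw [map_mul, map_mul, map_inv, hsW, hs, hs, D.conj_x ht]
      congr 1
      ring

end Lift

end SL2Cover

end Cfsg.Agent.Lib.Helper85
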