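import Cfsg.Agent.Lib.Helper85.SL2CoverB
import Cfsg.Agent.Lib.Helper9.SchurOdd
import Cfsg.Agent.Lib.Helper7.SL2

set_option autoImplicit false

/-!
Finite stem extensions of `SL₂(q)`, `q ≠ 4, 9`, are trivial.
-/

namespace Cfsg.Agent.Lib.Helper85

namespace SL2Cover

open scoped commutatorElement
open Matrix Cfsg

section Big

variable {K Γ : Type*} [Field K] [Finite K] [Group Γ]

theorem stem_trivial_big (h3 : 3 < Nat.card K) (h4 : Nat.card K ≠ 4) (h9 : Nat.card K ≠ 9)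
    (σ : Γ →* SpecialLinearGroup (Fin 2) K) (hσ : IsStemExtension σ) : ∀ z ∈ σ.ker, z = 1 := by
  obtain ⟨a, ha, hac⟩ := exists_torus K h3
  obtain ⟨E, hEx, hEy⟩ := exists_lift (SL2.stdSt2 K) (St2.std_hmul K) σ hσ.1 hσ.2.1 (by
    intro f hl hr hinv halt
    by_cases hp : (Nat.card K).Prime
    · exact pairing_trivial_prime hp f hl hr halt
    · obtain ⟨a, b, ha, hb, hab, hs⟩ := exists_good K hp h4 h9
      exact pairing_trivial f hl hr hinv ha hb hab hs) ha hac
  obtain ⟨φ, hφx, hφy⟩ := E.exists_hom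
  have hid : ∀ g, σ (φ g) = g := by
    have h1 : (⊤ : Subgroup (SpecialLinearGroup (Fin 2) K)) ≤
        (σ.comp φ).eqLocus (MonoidHom.id _) := by
      rw [← SL2.sup_eq_top, sup_le_iff]
      constructor
      · intro g hg
        obtain ⟨t, rfl⟩ := SL2.mem_lower_iff.1 hg
        show σ (φ (SL2.lo t)) = SL2.lo t
        rw [hφy, hEy]; rfl
      · intro g hg
        obtain ⟨t, rfl⟩ := SL2.mem_upper_iff.1 hg
        show σ (φ (SL2.up t)) = SL2.up t
        rw [hφx, hEx]; rfl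
    intro g
    exact h1 (Subgroup.mem_top g)
  have hcomm : commutator Γ ≤ φ.range := by
    rw [commutator_def, Subgroup.commutator_le]
    intro g₁ _ g₂ _
    have : ⁅g₁, g₂⁆ = ⁅φ (σ g₁), φ (σ g₂)⁆ :=
      comm_congr σ hσ.2.1 (hid _).symm (hid _).symm
    rw [this, ← map_commutatorElement]
    exact ⟨_, rfl⟩
  intro z hz
  obtain ⟨g, rfl⟩ := hcomm (hσ.2.2 hz)
  have : g = 1 := by rw [← hid g]; exact hz
  rw [this, map_one]

end Big

section Quat

variable {Γ G : Type*} [Group Γ] [Group G]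

theorem pow_index_quat [Finite Γ] (σ : Γ →* G) (hσ : IsStemExtension σ) (i j : G)
    (h1 : i * i = j * j) (h2 : j⁻¹ * i * j = i⁻¹) (h3 : ⁅i, j⁆ ≠ 1) :
    ∀ z ∈ σ.ker, z ^ (Subgroup.closure {i, j}).index = 1 := by
  obtain ⟨a, rfl⟩ := hσ.1 i
  obtain ⟨b, rfl⟩ := hσ.1 j
  have hcen : ∀ {z : Γ}, σ z = 1 → ∀ g, z * g = g * z := fun hz g => central_of_ker σ hσ.2.1 hz g
  obtain ⟨z, hzdef⟩ : ∃ z : Γ, z = a * (b⁻¹ * a * b) := ⟨_, rfl⟩
  have hz : ∀ g, z * g = g * z := by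
    apply hcen
    rw [hzdef, map_mul, map_mul, map_mul, map_inv, h2, mul_inv_cancel]
  have hzi : ∀ g, z⁻¹ * g = g * z⁻¹ := by
    intro g
    rw [inv_mul_eq_iff_eq_mul, ← mul_assoc, hz, mul_assoc, mul_inv_cancel, mul_one]
  have hdef : b⁻¹ * a * b = a⁻¹ * z := by rw [hzdef]; group
  have hz2 : ∀ g, ((b * b)⁻¹ * (a * a)) * g = g * ((b * b)⁻¹ * (a * a)) := by
    apply hcen
    rw [map_mul, map_inv, map_mul, map_mul, h1, inv_mul_cancel]
  have hab : (a * a) * b = b * (a * a) := by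
    have e : a * a = b * b * ((b * b)⁻¹ * (a * a)) := by group
    rw [e, mul_assoc (b * b), hz2 b]
    group
  have hab' : b * (a * a)⁻¹ * b⁻¹ = (a * a)⁻¹ := by
    have : b * (a * a)⁻¹ = (a * a)⁻¹ * b := by
      rw [eq_inv_mul_iff_mul_eq, ← mul_assoc, hab, mul_assoc, mul_inv_cancel, mul_one]
    rw [this, mul_inv_cancel_right]
  have e1 : a = b * a⁻¹ * b⁻¹ * z := by
    calc a = b * (b⁻¹ * a * b) * b⁻¹ := by group
      _ = b * (a⁻¹ * z) * b⁻¹ := by rw [hdef]
      _ = b * a⁻¹ * (z * b⁻¹) := by group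
      _ = b * a⁻¹ * (b⁻¹ * z) := by rw [hz]
      _ = _ := by group
  obtain ⟨c, hcdef⟩ : ∃ c : Γ, c = ⁅a, b⁆ := ⟨_, rfl⟩
  have hc1 : c = a * a * z⁻¹ := by
    calc c = a * (b * a⁻¹ * b⁻¹ * z) * z⁻¹ := by rw [hcdef, commutatorElement_def]; group
      _ = a * a * z⁻¹ := by rw [← e1]
  have hc2 : c = (a * a)⁻¹ * z := by
    calc c = b * (b⁻¹ * a * b) * a⁻¹ * b⁻¹ := by rw [hcdef, commutatorElement_def]; group
      _ = b * (a⁻¹ * z) * a⁻¹ * b⁻¹ := by rw [hdef]
      _ = b * a⁻¹ * (z * (a⁻¹ * b⁻¹)) := by group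
      _ = b * a⁻¹ * ((a⁻¹ * b⁻¹) * z) := by rw [hz]
      _ = b * (a * a)⁻¹ * b⁻¹ * z := by group
      _ = _ := by rw [hab']
  have hcc : c * c = 1 := by
    calc c * c = (a * a * z⁻¹) * ((a * a)⁻¹ * z) := by rw [← hc1, ← hc2]
      _ = a * a * (z⁻¹ * (a * a)⁻¹) * z := by group
      _ = a * a * ((a * a)⁻¹ * z⁻¹) * z := by rw [hzi]
      _ = 1 := by group
  have hca : Commute a c := by
    show a * c = c * a
    rw [hc1, mul_assoc (a * a), hzi a]
    group
  have hcb : Commute b c := by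
    show b * c = c * b
    rw [hc1, mul_assoc (a * a), hzi b, ← mul_assoc (a * a), hab]
    group
  have hcomm : ∀ x ∈ ({a, b} : Set Γ), ∀ d ∈ Subgroup.zpowers c, x * d = d * x := by
    rintro x hx _ ⟨n, rfl⟩
    rcases hx with rfl | rfl
    · exact hca.zpow_right n
    · exact hcb.zpow_right n
  have := Cfsg.Agent.Lib.Helper9.pow_index_eq_one σ hσ {a, b} (Subgroup.zpowers c) (by
    intro x hx d hd
    have h := hcomm x hx d hd
    constructor
    · rw [h, mul_inv_cancel_right]; exact hd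
    · rw [mul_assoc, ← h, inv_mul_cancel_left]; exact hd) (by
    intro x hx y hy
    rcases hx with rfl | rfl <;> rcases hy with rfl | rfl
    · rw [commutatorElement_self]; exact one_mem _
    · rw [← hcdef]; exact Subgroup.mem_zpowers c
    · rw [← commutatorElement_inv, ← hcdef]; exact inv_mem (Subgroup.mem_zpowers c)
    · rw [commutatorElement_self]; exact one_mem _) (by
    rintro _ ⟨n, rfl⟩ hn
    rcases Int.even_or_odd' n with ⟨k, rfl | rfl⟩
    · show c ^ (2 * k) = 1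
      rw [_root_.zpow_mul, zpow_two, hcc, _root_.one_zpow]
    · exfalso
      have e : c ^ (2 * k + 1) = c := by
        rw [_root_.zpow_add, _root_.zpow_mul, zpow_two, hcc, _root_.one_zpow, one_mul, zpow_one]
      have hn' : σ (c ^ (2 * k + 1)) = 1 := hn
      rw [e, hcdef, map_commutatorElement] at hn'
      exact h3 hn')
  rw [Cfsg.Agent.Lib.Helper9.image_pair] at this
  exact this

end Quat

end SL2Cover

end Cfsg.Agent.Lib.Helper85
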