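import Cfsg.Agent.Lib.Helper85.SL2CoverC

set_option autoImplicit false

/-!
Finite stem extensions of `SL₂(2)` and `SL₂(3)` are trivial.
-/

namespace Cfsg.Agent.Lib.Helper85

namespace SL2Cover

open scoped commutatorElement
open Matrix Cfsg

variable {K Γ : Type*} [Field K] [Fintype K] [Group Γ]

theorem index_zpowers_mul {G : Type*} [Group G] (x : G) :
    (Subgroup.zpowers x).index * orderOf x = Nat.card G := by
  rw [← Nat.card_zpowers, Subgroup.index_mul_card]

theorem eq_one_of_pow_coprime {z : Γ} {m n : ℕ} (hm : z ^ m = 1) (hn : z ^ n = 1)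
    (h : Nat.Coprime m n) : z = 1 := by
  have h1 := orderOf_dvd_of_pow_eq_one hm
  have h2 := orderOf_dvd_of_pow_eq_one hn
  have h3 : orderOf z ∣ 1 := by
    rw [← Nat.Coprime.gcd_eq_one h]
    exact Nat.dvd_gcd h1 h2
  exact orderOf_eq_one_iff.1 (Nat.dvd_one.1 h3)

theorem stem_trivial_two [Finite Γ] (hK : Fintype.card K = 2)
    (σ : Γ →* SpecialLinearGroup (Fin 2) K) (hσ : IsStemExtension σ) : ∀ z ∈ σ.ker, z = 1 := by
  have h2 : (2 : K) = 0 := by
    have := Nat.cast_card_eq_zero K
    rw [hK] at this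
    exact_mod_cast this
  have hcard : Nat.card (SpecialLinearGroup (Fin 2) K) = 6 := by
    rw [Cfsg.Agent.Lib.Helper7.card_SL2, hK]; norm_num
  have ho1 : orderOf (SL2.up (1 : K)) = 2 := by
    apply orderOf_eq_prime
    · rw [pow_two, SL2.up_add, one_add_one_eq_two, h2, SL2.up_zero]
    · intro h
      have := congrArg (fun g : SpecialLinearGroup (Fin 2) K => g 0 1) h
      simp at this
  have ho2 : orderOf (SL2.up (1 : K) * SL2.lo 1) = 3 := by
    apply orderOf_eq_prime
    · rw [pow_succ, pow_two]
      apply SL2.ext2 <;>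
        simp only [SL2.mul_entry, SL2.lo_00, SL2.lo_01, SL2.lo_10, SL2.lo_11, SL2.up_00, SL2.up_01,
          SL2.up_10, SL2.up_11] <;>
        simp <;>
        first
          | linear_combination (6 : K) * h2
          | linear_combination (4 : K) * h2
          | linear_combination (2 : K) * h2
    · intro h
      have := congrArg (fun g : SpecialLinearGroup (Fin 2) K => g 0 1) h
      simp [SL2.mul_entry] at this
  have hi1 := index_zpowers_mul (SL2.up (1 : K))
  have hi2 := index_zpowers_mul (SL2.up (1 : K) * SL2.lo 1)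
  rw [ho1, hcard] at hi1
  rw [ho2, hcard] at hi2
  have hi1' : (Subgroup.zpowers (SL2.up (1 : K))).index = 3 := by omega
  have hi2' : (Subgroup.zpowers (SL2.up (1 : K) * SL2.lo 1)).index = 2 := by omega
  intro z hz
  have e1 := Cfsg.Agent.Lib.Helper9.pow_index_cyclic σ hσ (SL2.up (1 : K)) z hz
  have e2 := Cfsg.Agent.Lib.Helper9.pow_index_cyclic σ hσ (SL2.up (1 : K) * SL2.lo 1) z hz
  rw [hi1'] at e1
  rw [hi2'] at e2
  exact eq_one_of_pow_coprime e1 e2 (by norm_num)

theorem stem_trivial_three [Finite Γ] (hK : Fintype.card K = 3)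
    (σ : Γ →* SpecialLinearGroup (Fin 2) K) (hσ : IsStemExtension σ) : ∀ z ∈ σ.ker, z = 1 := by
  have h3 : (3 : K) = 0 := by
    have := Nat.cast_card_eq_zero K
    rw [hK] at this
    exact_mod_cast this
  have h2 : (2 : K) ≠ 0 := by
    intro h
    have : (1 : K) = 0 := by linear_combination h3 - h
    exact one_ne_zero this
  have hcard : Nat.card (SpecialLinearGroup (Fin 2) K) = 24 := by
    rw [Cfsg.Agent.Lib.Helper7.card_SL2, hK]; norm_num
  have ho1 : orderOf (SL2.up (1 : K)) = 3 := by
    apply orderOf_eq_prime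
    · rw [pow_succ, pow_two, SL2.up_add, SL2.up_add]
      have : (1 : K) + 1 + 1 = 0 := by linear_combination h3
      rw [this, SL2.up_zero]
    · intro h
      have := congrArg (fun g : SpecialLinearGroup (Fin 2) K => g 0 1) h
      simp at this
  have hi1 := index_zpowers_mul (SL2.up (1 : K))
  rw [ho1, hcard] at hi1
  have hi1' : (Subgroup.zpowers (SL2.up (1 : K))).index = 8 := by omega
  obtain ⟨i, hi⟩ : ∃ i : SpecialLinearGroup (Fin 2) K, i = SL2.up 1 * SL2.lo (-1) * SL2.up 1 := ⟨_, rfl⟩
  obtain ⟨j, hj⟩ : ∃ j : SpecialLinearGroup (Fin 2) K, j = SL2.lo 1 * SL2.up 1 := ⟨_, rfl⟩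
  have hij1 : i * i = j * j := by
    rw [hi, hj]
    apply SL2.ext2 <;>
      simp only [SL2.mul_entry, SL2.lo_00, SL2.lo_01, SL2.lo_10, SL2.lo_11, SL2.up_00, SL2.up_01,
        SL2.up_10, SL2.up_11] <;>
      first
        | ring1
        | linear_combination (-1 : K) * h3
        | linear_combination (-2 : K) * h3
        | linear_combination (1 : K) * h3
        | linear_combination (2 : K) * h3
  have hij2 : j⁻¹ * i * j = i⁻¹ := by
    rw [eq_inv_iff_mul_eq_one, mul_assoc, mul_assoc, inv_mul_eq_one, hi, hj]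
    apply SL2.ext2 <;>
      simp only [SL2.mul_entry, SL2.lo_00, SL2.lo_01, SL2.lo_10, SL2.lo_11, SL2.up_00, SL2.up_01,
        SL2.up_10, SL2.up_11] <;>
      first
        | ring1
        | linear_combination (-1 : K) * h3
        | linear_combination (-2 : K) * h3
        | linear_combination (1 : K) * h3
        | linear_combination (2 : K) * h3
  have hij3 : i * j ≠ j * i := by
    intro h
    have := congrArg (fun g : SpecialLinearGroup (Fin 2) K => g 0 0) h
    rw [hi, hj] at this
    simp only [SL2.mul_entry, SL2.lo_00, SL2.lo_01, SL2.lo_10, SL2.lo_11, SL2.up_00, SL2.up_01,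
        SL2.up_10, SL2.up_11] at this
    apply h2
    linear_combination this
  have hij3' : ⁅i, j⁆ ≠ 1 := by
    rw [Ne, commutatorElement_eq_one_iff_mul_comm]
    exact hij3
  have hoi : orderOf i = 2 ^ (1 + 1) := by
    apply orderOf_eq_prime_pow
    · intro h
      have := congrArg (fun g : SpecialLinearGroup (Fin 2) K => g 0 0) h
      rw [pow_one, pow_two, hi] at this
      simp only [SL2.mul_entry, SL2.lo_00, SL2.lo_01, SL2.lo_10, SL2.lo_11, SL2.up_00, SL2.up_01,
        SL2.up_10, SL2.up_11] at this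
      simp at this
      apply h2
      linear_combination -this
    · have e : i ^ 2 ^ (1 + 1) = (i * i) * (i * i) := by
        norm_num
        rw [show (4 : ℕ) = 2 + 2 from rfl, pow_add, pow_two]
      rw [e, hi]
      apply SL2.ext2 <;>
        simp only [SL2.mul_entry, SL2.lo_00, SL2.lo_01, SL2.lo_10, SL2.lo_11, SL2.up_00, SL2.up_01,
          SL2.up_10, SL2.up_11] <;> simp <;> ring
  obtain ⟨H, hH⟩ : ∃ H : Subgroup (SpecialLinearGroup (Fin 2) K), H = Subgroup.closure {i, j} :=
    ⟨_, rfl⟩
  have hiH : i ∈ H := by rw [hH]; exact Subgroup.subset_closure (by simp)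
  have hjH : j ∈ H := by rw [hH]; exact Subgroup.subset_closure (by simp)
  have hle : Subgroup.zpowers i ≤ H := by rw [Subgroup.zpowers_le]; exact hiH
  have hd4 : 4 ∣ Nat.card H := by
    have := Subgroup.card_dvd_of_le hle
    rw [Nat.card_zpowers, hoi] at this
    exact this
  have hmul : H.index * Nat.card H = 24 := by rw [Subgroup.index_mul_card, hcard]
  have hne4 : Nat.card H ≠ 4 := by
    intro h
    have : Subgroup.zpowers i = H := by
      apply Subgroup.eq_of_le_of_card_ge hle
      rw [Nat.card_zpowers, hoi, h]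
      norm_num
    rw [← this] at hjH
    obtain ⟨n, hn⟩ := hjH
    apply hij3
    rw [← hn]
    exact ((Commute.refl i).zpow_right n)
  have hne2 : H.index ≠ 2 := by
    intro h
    have hu : ∀ t : K, SL2.up t ∈ H := by
      intro t
      have := Subgroup.sq_mem_of_index_two h (SL2.up (-t))
      rw [pow_two, SL2.up_add] at this
      have e : -t + -t = t := by linear_combination (-t) * h3
      rwa [e] at this
    have hl : ∀ t : K, SL2.lo t ∈ H := by
      intro t
      have := Subgroup.sq_mem_of_index_two h (SL2.lo (-t))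
      rw [pow_two, SL2.lo_add] at this
      have e : -t + -t = t := by linear_combination (-t) * h3
      rwa [e] at this
    have htop : H = ⊤ := by
      rw [eq_top_iff, ← SL2.sup_eq_top, sup_le_iff]
      constructor
      · intro g hg
        obtain ⟨t, rfl⟩ := SL2.mem_lower_iff.1 hg
        exact hl t
      · intro g hg
        obtain ⟨t, rfl⟩ := SL2.mem_upper_iff.1 hg
        exact hu t
    rw [htop, Subgroup.index_top] at h
    omega
  have hidx : H.index = 1 ∨ H.index = 3 := by
    obtain ⟨k, hk⟩ := hd4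
    rw [hk] at hmul hne4
    have h6 : H.index * k = 6 := by nlinarith
    have hk1 : k ≠ 1 := by intro h; apply hne4; rw [h]
    have hdvd : H.index ∣ 6 := ⟨k, h6.symm⟩
    have hle6 : H.index ≤ 6 := Nat.le_of_dvd (by norm_num) hdvd
    obtain ⟨m, hm⟩ : ∃ m, m = H.index := ⟨_, rfl⟩
    rw [← hm] at h6 hle6 hne2 ⊢
    interval_cases m <;> omega
  intro z hz
  have e1 := Cfsg.Agent.Lib.Helper9.pow_index_cyclic σ hσ (SL2.up (1 : K)) z hz
  have e2 := pow_index_quat σ hσ i j hij1 hij2 hij3' z hz
  rw [hi1'] at e1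
  rw [← hH] at e2
  rcases hidx with h | h
  · rw [h, pow_one] at e2; exact e2
  · rw [h] at e2
    exact eq_one_of_pow_coprime e1 e2 (by norm_num)

end SL2Cover

end Cfsg.Agent.Lib.Helper85
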