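import Cfsg.Agent.Lib.Helper85.St2Lift
import Cfsg.Agent.Lib.Helper85.Special
import Cfsg.Agent.S5016
import Cfsg.Agent.S5017

set_option autoImplicit false

namespace Cfsg.Agent.Lib.Helper85

open Cfsg Matrix

namespace Special

variable {G : Type*} [Group G] {A B : Subgroup G} {p : ℕ} [Fact p.Prime]

theorem pow_val_add {g : G} (hg : g ^ p = 1) (t u : ZMod p) :
    g ^ t.val * g ^ u.val = g ^ (t + u).val := by
  rw [← pow_add, ZMod.val_add, ← pow_eq_pow_mod _ hg]

theorem pow_val_mul {g : G} (hg : g ^ p = 1) (t u : ZMod p) :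
    (g ^ t.val) ^ u.val = g ^ (t * u).val := by
  rw [← pow_mul, ZMod.val_mul, ← pow_eq_pow_mod _ hg]

theorem pow_val_neg {g : G} (hg : g ^ p = 1) (t : ZMod p) : g ^ (-t).val = (g ^ t.val)⁻¹ := by
  rw [eq_inv_iff_mul_eq_one, pow_val_add hg, neg_add_cancel, ZMod.val_zero, pow_zero]

theorem pow_val_one (g : G) : g ^ (1 : ZMod p).val = g := by
  have : Fact (1 < p) := ⟨(Fact.out : p.Prime).one_lt⟩
  rw [ZMod.val_one, pow_one]

/-- the Steinberg data over `ZMod p` attached to a partner pair `(a, b)` with `a ^ p = 1` -/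
def st2 (hs : IsSpecialRankOnePair A B) (hab : HasAbelianUnipotents A B) {a b : G}
    (hp : Par A B a b) (ha : a ^ p = 1) : St2 (ZMod p) G where
  x t := a ^ t.val
  y t := b ^ t.val
  x_add := pow_val_add ha
  y_add := pow_val_add ((pow_eq_one_iff hs hp p).1 ha)
  rel := by
    intro t u ht
    have hb : b ^ p = 1 := (pow_eq_one_iff hs hp p).1 ha
    have hat : a ^ t.val ∈ A := pow_mem hp.1 _
    have hat1 : a ^ t.val ≠ 1 := by
      intro h1
      have h2 := pow_val_mul ha t t⁻¹
      rw [h1, one_pow, mul_inv_cancel₀ ht, pow_val_one] at h2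
      exact hp.2.1 h2.symm
    obtain ⟨c, hc⟩ := exists_par_right hs.1 hat hat1
    have htv : 0 < t.val := Nat.pos_of_ne_zero (by rwa [Ne, ZMod.val_eq_zero])
    have hcb : c ^ t.val = b := root_right hs hab htv hp hc
    have hcp : c ^ p = 1 := (pow_eq_one_iff hs hc p).1 (by rw [← pow_mul, mul_comm, pow_mul, ha, one_pow])
    have hyc : b ^ (t⁻¹).val = c := by
      rw [← hcb, pow_val_mul hcp, mul_inv_cancel₀ ht, pow_val_one]
    have hw : a ^ t.val * b ^ (-t⁻¹).val * a ^ t.val = nn (a ^ t.val) c := by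
      rw [pow_val_neg hb, hyc]; rfl
    have hxu : a ^ u.val = (a ^ t.val) ^ (t⁻¹ * u).val := by
      rw [pow_val_mul ha, mul_inv_cancel_left₀ ht]
    rw [hw, hxu, nn_conj_pow hs hc, ← hyc, pow_val_mul hb, ← pow_val_neg hb]
    congr 2
    ring

theorem closure_pair_iso (hs : IsSpecialRankOnePair A B) (hab : HasAbelianUnipotents A B) {a b : G}
    (hp : Par A B a b) (ha : a ^ p = 1) :
    Nonempty (↥(Subgroup.closure ({a, b} : Set G)) ≃* SpecialLinearGroup (Fin 2) (ZMod p)) ∨
    Nonempty (↥(Subgroup.closure ({a, b} : Set G)) ≃* ProjectiveSpecialLinearGroup (Fin 2) (ZMod p)) := by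
  obtain ⟨φ, hφx, hφy⟩ := (st2 hs hab hp ha).exists_hom
  have hx : ∀ t : ZMod p, φ (SL2.up t) = a ^ t.val := hφx
  have hy : ∀ t : ZMod p, φ (SL2.lo t) = b ^ t.val := hφy
  have hlow : (lowerUnipotentSL2 (ZMod p)).map φ ≤ B := by
    rintro _ ⟨g, hg, rfl⟩
    obtain ⟨t, rfl⟩ := SL2.mem_lower_iff.1 hg
    rw [hy]; exact pow_mem hp.2.2.1 _
  have hrange : φ.range = Subgroup.closure ({a, b} : Set G) := by
    apply le_antisymm
    · rw [MonoidHom.range_eq_map, ← SL2.sup_eq_top, Subgroup.map_sup, sup_le_iff]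
      constructor
      · rintro _ ⟨g, hg, rfl⟩
        obtain ⟨t, rfl⟩ := SL2.mem_lower_iff.1 hg
        rw [hy]; exact pow_mem (Subgroup.subset_closure (by simp)) _
      · rintro _ ⟨g, hg, rfl⟩
        obtain ⟨t, rfl⟩ := SL2.mem_upper_iff.1 hg
        rw [hx]; exact pow_mem (Subgroup.subset_closure (by simp)) _
    · rw [Subgroup.closure_le]
      rintro z (rfl | rfl)
      · exact ⟨SL2.up 1, by rw [hx, pow_val_one]⟩
      · exact ⟨SL2.lo 1, by rw [hy, pow_val_one]⟩
  have hdich := (Cfsg.Agent.S5017.result (Cfsg.Agent.S5016.result (ZMod p)).1).1 φ.ker inferInstance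
  rcases hdich with htop | hcen
  · exfalso
    have h1 : φ.range ≤ B := by
      rw [MonoidHom.range_eq_map, ← htop, Subgroup.map_sup, sup_le_iff]
      refine ⟨?_, hlow⟩
      rintro _ ⟨g, hg, rfl⟩
      rw [MonoidHom.mem_ker.1 hg]; exact one_mem _
    have h2 : a ∈ A ⊓ B := ⟨hp.1, h1 ⟨SL2.up 1, by rw [hx, pow_val_one]⟩⟩
    rw [RankOne.inf_eq_bot hs.1] at h2
    exact hp.2.1 (by simpa using h2)
  · by_cases hbot : φ.ker = ⊥
    · left
      have hinj : Function.Injective φ := (MonoidHom.ker_eq_bot_iff φ).1 hbot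
      exact ⟨((MonoidHom.ofInjective hinj).trans (MulEquiv.subgroupCongr hrange)).symm⟩
    · right
      have hker : φ.ker = Subgroup.center (SpecialLinearGroup (Fin 2) (ZMod p)) := by
        apply le_antisymm hcen
        obtain ⟨⟨z, hz⟩, hz1'⟩ := Subgroup.ne_bot_iff_exists_ne_one.1 hbot
        have hz1 : z ≠ 1 := fun h => hz1' (Subtype.ext h)
        obtain ⟨r, hr, hrz⟩ := Matrix.SpecialLinearGroup.mem_center_iff.1 (hcen hz)
        intro z' hz'
        obtain ⟨r', hr', hrz'⟩ := Matrix.SpecialLinearGroup.mem_center_iff.1 hz'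
        simp only [Fintype.card_fin] at hr hr'
        have hr1 : r = -1 := by
          rcases sq_eq_one_iff.1 hr with h | h
          · exfalso
            apply hz1
            apply Subtype.ext
            rw [← hrz, h]; simp
          · exact h
        rcases sq_eq_one_iff.1 hr' with h | h
        · have : z' = 1 := by
            apply Subtype.ext
            rw [← hrz', h]; simp
          rw [this]; exact one_mem _
        · have : z' = z := by
            apply Subtype.ext
            rw [← hrz', ← hrz, h, hr1]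
          rw [this]; exact hz
      exact ⟨((QuotientGroup.quotientMulEquivOfEq hker).symm.trans
        ((QuotientGroup.quotientKerEquivRange φ).trans (MulEquiv.subgroupCongr hrange))).symm⟩

end Special

end Cfsg.Agent.Lib.Helper85
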