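import Cfsg.Agent.Lib.Helper85.SpecialSL2p
import Cfsg.Agent.Lib.Helper85.SpecialDiag
import Cfsg.Agent.Lib.Helper85.RankOneNormal
import Cfsg.Agent.Lib.Helper29.Transport

set_option autoImplicit false

namespace Cfsg.Agent.Lib.Helper85

open Cfsg Matrix

namespace Special

variable {X : Type*} [Group X] {A B : Subgroup X}

theorem big_case (h : IsRankOneGroup X A B) (hs : IsSpecialRankOnePair A B)
    (hab : HasAbelianUnipotents A B) (hcard : 3 < ENat.card A) :
    commutator X ⊔ A = ⊤ ∧ IsQuasisimple (commutator X) ∧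
      3 < ENat.card ↥(⁅A, rankOneDiagonal A B⁆ : Subgroup X) := by
  have hle := le_commutator_of_card hs hab hcard
  have hA : A ≤ commutator X := hle.trans (Subgroup.commutator_mono le_top le_top)
  have hA1 : A ≠ ⊥ := by
    rintro rfl
    simp at hcard
  obtain ⟨⟨a, ha⟩, ha1'⟩ := Subgroup.ne_bot_iff_exists_ne_one.1 hA1
  have ha1 : a ≠ 1 := fun e => ha1' (Subtype.ext e)
  obtain ⟨b, hp⟩ := exists_par_right hs.1 ha ha1
  have hB : B ≤ commutator X := by
    rw [← conjBy_left_nn hp]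
    intro x hx
    rw [mem_conjBy] at hx
    have h1 := (inferInstance : (commutator X).Normal).conj_mem _ (hA hx) (nn a b)
    have e : nn a b * ((nn a b)⁻¹ * x * nn a b) * (nn a b)⁻¹ = x := by group
    rwa [e] at h1
  have htop : commutator X = ⊤ := by
    rw [eq_top_iff, ← h.1]
    exact sup_le hA hB
  have hperf : Group.IsPerfect X := Group.isPerfect_def.2 htop
  refine ⟨by rw [htop, top_sup_eq], ?_, ?_⟩
  · rw [htop]
    exact Cfsg.Agent.Lib.Helper29.IsQuasisimple.of_equiv Subgroup.topEquiv.symm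
      (RankOneGroup.isQuasisimple_of_isPerfect h hperf)
  · refine lt_of_lt_of_le hcard ?_
    exact ENat.card_le_card_of_injective (Subgroup.inclusion_injective hle)

theorem psl_two_two : Nonempty (ProjectiveSpecialLinearGroup (Fin 2) (ZMod 2) ≃*
    SpecialLinearGroup (Fin 2) (ZMod 2)) := by
  have hc : Subgroup.center (SpecialLinearGroup (Fin 2) (ZMod 2)) = ⊥ := by
    rw [eq_bot_iff]
    intro z hz
    obtain ⟨r, hr, hrz⟩ := Matrix.SpecialLinearGroup.mem_center_iff.1 hz
    have hr1 : r = 1 := by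
      clear hrz
      revert r
      decide
    rw [Subgroup.mem_bot]
    apply Subtype.ext
    rw [← hrz, hr1]; simp
  exact ⟨(QuotientGroup.quotientMulEquivOfEq hc).trans QuotientGroup.quotientBot⟩

theorem small_case (h : IsRankOneGroup X A B) (hs : IsSpecialRankOnePair A B)
    (hab : HasAbelianUnipotents A B) (hcard : ENat.card A ≤ 3) :
    Nonempty (X ≃* SpecialLinearGroup (Fin 2) (ZMod 2)) ∨
        Nonempty (X ≃* SpecialLinearGroup (Fin 2) (ZMod 3)) ∨
        Nonempty (X ≃* ProjectiveSpecialLinearGroup (Fin 2) (ZMod 3)) := by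
  have hfin : Finite A := by
    rw [← ENat.card_lt_top]
    exact lt_of_le_of_lt hcard (by exact ENat.natCast_lt_top 3)
  have hn : Nat.card A ≤ 3 := by
    have : (Nat.card A : ℕ∞) ≤ 3 := by rwa [← ENat.card_eq_coe_natCard]
    exact_mod_cast this
  have hA1 : A ≠ ⊥ := by
    rintro rfl
    have hB1 : B ≠ ⊥ := fun e => hs.1.ne e.symm
    obtain ⟨⟨b, hb⟩, hb1'⟩ := Subgroup.ne_bot_iff_exists_ne_one.1 hB1
    obtain ⟨a, hp⟩ := exists_par_left hs.1 hb (fun e => hb1' (Subtype.ext e))
    exact hp.2.1 (by simpa using hp.1)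
  obtain ⟨⟨a, ha⟩, ha1'⟩ := Subgroup.ne_bot_iff_exists_ne_one.1 hA1
  have ha1 : a ≠ 1 := fun e => ha1' (Subtype.ext e)
  obtain ⟨b, hp⟩ := exists_par_right hs.1 ha ha1
  have hn2 : 2 ≤ Nat.card A := by
    have : Nontrivial A := ⟨⟨a, ha⟩, 1, ha1'⟩
    exact Finite.one_lt_card
  have main : ∀ p : ℕ, [Fact p.Prime] → Nat.card A = p →
      Nonempty (X ≃* SpecialLinearGroup (Fin 2) (ZMod p)) ∨
      Nonempty (X ≃* ProjectiveSpecialLinearGroup (Fin 2) (ZMod p)) := by
    intro p _ hpc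
    have hap : a ^ p = 1 := by
      have : (⟨a, ha⟩ : A) ^ Nat.card A = 1 := pow_card_eq_one'
      rw [hpc] at this
      exact congrArg Subtype.val this
    have hz : Subgroup.zpowers (⟨a, ha⟩ : A) = ⊤ := zpowers_eq_top_of_prime_card hpc ha1'
    have hAle : A ≤ Subgroup.closure ({a, b} : Set X) := by
      intro x hx
      have : (⟨x, hx⟩ : A) ∈ Subgroup.zpowers (⟨a, ha⟩ : A) := by rw [hz]; trivial
      obtain ⟨k, hk⟩ := Subgroup.mem_zpowers_iff.1 this
      have hk' : a ^ k = x := congrArg Subtype.val hk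
      rw [← hk']
      exact zpow_mem (Subgroup.subset_closure (by simp)) _
    have hnn : nn a b ∈ Subgroup.closure ({a, b} : Set X) :=
      mul_mem (mul_mem (Subgroup.subset_closure (by simp))
        (inv_mem (Subgroup.subset_closure (by simp)))) (Subgroup.subset_closure (by simp))
    have hBle : B ≤ Subgroup.closure ({a, b} : Set X) := by
      rw [← conjBy_left_nn hp]
      intro x hx
      rw [mem_conjBy] at hx
      have e : x = nn a b * ((nn a b)⁻¹ * x * nn a b) * (nn a b)⁻¹ := by group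
      rw [e]
      exact mul_mem (mul_mem hnn (hAle hx)) (inv_mem hnn)
    have htop : Subgroup.closure ({a, b} : Set X) = ⊤ := by
      rw [eq_top_iff, ← h.1]
      exact sup_le hAle hBle
    have e0 : X ≃* ↥(Subgroup.closure ({a, b} : Set X)) :=
      Subgroup.topEquiv.symm.trans (MulEquiv.subgroupCongr htop.symm)
    rcases closure_pair_iso hs hab hp hap with ⟨⟨e⟩⟩ | ⟨⟨e⟩⟩
    · exact Or.inl ⟨e0.trans e⟩
    · exact Or.inr ⟨e0.trans e⟩
  have h23 : Nat.card A = 2 ∨ Nat.card A = 3 := by omega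
  rcases h23 with h2 | h3
  · have : Fact (Nat.Prime 2) := ⟨Nat.prime_two⟩
    rcases main 2 h2 with ⟨⟨e⟩⟩ | ⟨⟨e⟩⟩
    · exact Or.inl ⟨e⟩
    · obtain ⟨e'⟩ := psl_two_two
      exact Or.inl ⟨e.trans e'⟩
  · have : Fact (Nat.Prime 3) := ⟨Nat.prime_three⟩
    exact Or.inr (main 3 h3)

end Special

end Cfsg.Agent.Lib.Helper85
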