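import Cfsg.Agent.Lib.Helper85.StNTools

set_option autoImplicit false

/-!
Injectivity on the abelian "row" and "column" subgroups, entries of the rank one subgroups.
-/

namespace Cfsg.Agent.Lib.Helper85

namespace StNT

open Matrix Subgroup

section Ab

variable {E ι K : Type*} [Group E] [DecidableEq ι] [AddGroup K]

/-- generators `f k t`, `k ∈ S` -/
def gF (f : ι → K → E) (S : Finset ι) : Set E := {g | ∃ k t, k ∈ S ∧ g = f k t}

omit [Group E] [DecidableEq ι] [AddGroup K] in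
theorem gF_mono (f : ι → K → E) {S T : Finset ι} (h : S ⊆ T) : gF f S ⊆ gF f T := by
  rintro _ ⟨k, t, hk, rfl⟩
  exact ⟨k, t, h hk, rfl⟩

theorem ab_inj (f : ι → K → E) (χ : E → ι → K) (S : Finset ι)
    (hinv : ∀ k ∈ S, ∀ t, (f k t)⁻¹ = f k (-t))
    (f0 : ∀ k ∈ S, f k 0 = 1)
    (hcomm : ∀ k ∈ S, ∀ k' ∈ S, ∀ t u, f k t * f k' u = f k' u * f k t)
    (hadd : ∀ k ∈ S, ∀ t u, f k t * f k u = f k (t + u))
    (hχ : ∀ k ∈ S, ∀ t, ∀ g ∈ closure (gF f S), ∀ k' ∈ S,
      χ (f k t * g) k' = χ g k' + if k' = k then t else 0)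
    (hχ1 : ∀ k' ∈ S, χ 1 k' = 0) :
    ∀ g ∈ closure (gF f S), (∀ k ∈ S, χ g k = 0) → g = 1 := by
  have hginv : ∀ T : Finset ι, T ⊆ S → ∀ s ∈ gF f T, s⁻¹ ∈ gF f T := by
    rintro T hT _ ⟨k, t, hk, rfl⟩
    exact ⟨k, -t, hk, hinv k (hT hk) t⟩
  have key : ∀ T : Finset ι, T ⊆ S → ∀ g ∈ closure (gF f T), (∀ k ∈ T, χ g k = 0) → g = 1 := by
    intro T
    induction T using Finset.induction_on with
    | empty =>
      intro _ g hg _
      have : gF f (∅ : Finset ι) = ∅ := by
        ext x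
        simp [gF]
      rw [this, Subgroup.closure_empty, mem_bot] at hg
      exact hg
    | insert k T hk ih =>
      intro hT g hg hz
      have hkS : k ∈ S := hT (Finset.mem_insert_self k T)
      have hTS : T ⊆ S := fun a ha => hT (Finset.mem_insert_of_mem ha)
      have hdec : ∀ g ∈ closure (gF f (insert k T)), ∃ t, ∃ g' ∈ closure (gF f T), g = f k t * g' := by
        refine closure_ind_left (hginv _ hT) ⟨0, 1, one_mem _, by rw [f0 k hkS, one_mul]⟩ ?_
        rintro _ ⟨k', u, hk', rfl⟩ y ⟨t, g', hg', rfl⟩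
        rcases Finset.mem_insert.1 hk' with rfl | hk'
        · exact ⟨u + t, g', hg', by rw [← mul_assoc, hadd _ hkS]⟩
        · refine ⟨t, f k' u * g', mul_mem (subset_closure ⟨k', u, hk', rfl⟩) hg', ?_⟩
          rw [← mul_assoc, ← mul_assoc, hcomm k' (hTS hk') k hkS]
      have hzero : ∀ g' ∈ closure (gF f T), χ g' k = 0 := by
        intro g' hg'
        have : ∀ g' ∈ closure (gF f T), g' ∈ closure (gF f S) ∧ χ g' k = 0 := by
          refine closure_ind_left (hginv _ hTS) ⟨one_mem _, hχ1 k hkS⟩ ?_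
          rintro _ ⟨k', u, hk', rfl⟩ y ⟨hy, hy0⟩
          refine ⟨mul_mem (subset_closure ⟨k', u, hTS hk', rfl⟩) hy, ?_⟩
          rw [hχ k' (hTS hk') u y hy k hkS, hy0, if_neg, add_zero]
          rintro rfl
          exact hk hk'
        exact (this g' hg').2
      obtain ⟨t, g', hg', rfl⟩ := hdec g hg
      have hg'S : g' ∈ closure (gF f S) := closure_mono (gF_mono f hTS) hg'
      have h1 := hz k (Finset.mem_insert_self k T)
      rw [hχ k hkS t g' hg'S k hkS, hzero g' hg', if_pos rfl, zero_add] at h1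
      subst h1
      rw [f0 k hkS, one_mul]
      apply ih hTS g' hg'
      intro k' hk'
      have h2 := hz k' (Finset.mem_insert_of_mem hk')
      rw [f0 k hkS, one_mul] at h2
      exact h2
  exact key S (Finset.Subset.refl S)

end Ab

section Phi

variable {ι K E : Type*} [Fintype ι] [DecidableEq ι] [Field K] [Group E] (D : StN ι K E)
  (π : E →* SpecialLinearGroup ι K)
  (hπ : ∀ i j (h : i ≠ j) t, π (D.x i j t) = SpecialLinearGroup.transvection h t)

include hπ in
theorem phi_entries {i j : ι} (hij : i ≠ j) (φ : SpecialLinearGroup (Fin 2) K →* E)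
    (h1 : ∀ t, φ (SL2.up t) = D.x i j t) (h2 : ∀ t, φ (SL2.lo t) = D.x j i t)
    (m : SpecialLinearGroup (Fin 2) K) :
    π (φ m) i i = m 0 0 ∧ π (φ m) i j = m 0 1 ∧ π (φ m) j i = m 1 0 ∧ π (φ m) j j = m 1 1 ∧
      ∀ a, a ≠ i → a ≠ j → π (φ m) a i = 0 ∧ π (φ m) a j = 0 := by
  revert m
  apply sl2_induction
  · rw [map_one, map_one]
    refine ⟨by simp, by simp [hij], by simp [hij.symm], by simp, ?_⟩
    intro a ha hb
    simp [ha, hb]
  · rintro t m ⟨e1, e2, e3, e4, e5⟩
    rw [map_mul, map_mul, h1, hπ i j hij]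
    refine ⟨?_, ?_, ?_, ?_, ?_⟩
    · rw [tv_mul_apply, if_pos rfl, e1, e3, SL2.mul_entry]; simp
    · rw [tv_mul_apply, if_pos rfl, e2, e4, SL2.mul_entry]; simp
    · rw [tv_mul_apply, if_neg hij.symm, e3, SL2.mul_entry]; simp
    · rw [tv_mul_apply, if_neg hij.symm, e4, SL2.mul_entry]; simp
    · intro a ha hb
      rw [tv_mul_apply, tv_mul_apply, if_neg ha, if_neg ha, add_zero, add_zero]
      exact e5 a ha hb
  · rintro t m ⟨e1, e2, e3, e4, e5⟩
    rw [map_mul, map_mul, h2, hπ j i hij.symm]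
    refine ⟨?_, ?_, ?_, ?_, ?_⟩
    · rw [tv_mul_apply, if_neg hij, e1, SL2.mul_entry]; simp
    · rw [tv_mul_apply, if_neg hij, e2, SL2.mul_entry]; simp
    · rw [tv_mul_apply, if_pos rfl, e1, e3, SL2.mul_entry]; simp [add_comm]
    · rw [tv_mul_apply, if_pos rfl, e2, e4, SL2.mul_entry]; simp [add_comm]
    · intro a ha hb
      rw [tv_mul_apply, tv_mul_apply, if_neg hb, if_neg hb, add_zero, add_zero]
      exact e5 a ha hb

end Phi

end StNT

end Cfsg.Agent.Lib.Helper85
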