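import Cfsg.Agent.Lib.Helper85.St2Lift

set_option autoImplicit false

/-!
Steinberg data of type `A`: families `x i j t` (`i ≠ j`) satisfying the Steinberg relations.
-/

namespace Cfsg.Agent.Lib.Helper85

open scoped commutatorElement

/-- Steinberg data of type `A` with index set `ι` over `K` in the group `E`. Only the values
`x i j t` with `i ≠ j` matter. -/
structure StN (ι : Type*) (K : Type*) (E : Type*) [Field K] [Group E] where
  x : ι → ι → K → E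
  add : ∀ i j, i ≠ j → ∀ t u, x i j t * x i j u = x i j (t + u)
  comm : ∀ i j k l, i ≠ j → k ≠ l → i ≠ l → j ≠ k → ∀ t u, x i j t * x k l u = x k l u * x i j t
  rel : ∀ i j l, i ≠ j → j ≠ l → i ≠ l → ∀ t u, ⁅x i j t, x j l u⁆ = x i l (t * u)

namespace StN

variable {ι K E : Type*} [Field K] [Group E] (D : StN ι K E)

theorem x_zero {i j : ι} (h : i ≠ j) : D.x i j 0 = 1 := by
  have := D.add i j h 0 0
  rw [add_zero] at this
  exact mul_eq_left.1 this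

theorem x_neg {i j : ι} (h : i ≠ j) (t : K) : D.x i j (-t) = (D.x i j t)⁻¹ := by
  rw [eq_inv_iff_mul_eq_one, D.add i j h, neg_add_cancel, D.x_zero h]

/-- conjugation of commuting root elements -/
theorem cj_comm {i j k l : ι} (h1 : i ≠ j) (h2 : k ≠ l) (h3 : i ≠ l) (h4 : j ≠ k) (t u : K) :
    D.x i j t * D.x k l u * (D.x i j t)⁻¹ = D.x k l u := by
  rw [D.comm i j k l h1 h2 h3 h4, mul_inv_cancel_right]

theorem cj_rel {i j l : ι} (h1 : i ≠ j) (h2 : j ≠ l) (h3 : i ≠ l) (t u : K) :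
    D.x i j t * D.x j l u * (D.x i j t)⁻¹ = D.x i l (t * u) * D.x j l u := by
  rw [← D.rel i j l h1 h2 h3, commutatorElement_def]
  group

theorem cj_rel' {i j l : ι} (h1 : i ≠ j) (h2 : j ≠ l) (h3 : i ≠ l) (t u : K) :
    D.x j l u * D.x i j t * (D.x j l u)⁻¹ = D.x i l (-(t * u)) * D.x i j t := by
  rw [D.x_neg h3, ← D.rel i j l h1 h2 h3, commutatorElement_def]
  group

def w (i j : ι) (t : K) : E := D.x i j t * D.x j i (-t⁻¹) * D.x i j t

def h (i j : ι) (t : K) : E := D.w i j t * D.w i j (-1)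

theorem cj3 (a b c g : E) : (a * b * c) * g * (a * b * c)⁻¹ = a * (b * (c * g * c⁻¹) * b⁻¹) * a⁻¹ := by
  group

theorem cj_mul (a g g' : E) : a * (g * g') * a⁻¹ = (a * g * a⁻¹) * (a * g' * a⁻¹) := by
  group

theorem w_conj_row1 {i j k : ι} (hij : i ≠ j) (hik : i ≠ k) (hjk : j ≠ k) {c : K} (hc : c ≠ 0) (t : K) :
    D.w i j c * D.x i k t * (D.w i j c)⁻¹ = D.x j k (-(c⁻¹ * t)) := by
  unfold w
  rw [cj3, D.cj_comm hij hik hik hij.symm, D.cj_rel hij.symm hik hjk, cj_mul, D.cj_rel hij hjk hik,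
    D.cj_comm hij hik hik hij.symm, D.comm i k j k hik hjk hik hjk.symm, mul_assoc, D.add i k hik]
  have e : c * (-c⁻¹ * t) + t = 0 := by field_simp; ring
  rw [e, D.x_zero hik, mul_one]
  congr 1
  ring

theorem w_conj_row2 {i j k : ι} (hij : i ≠ j) (hik : i ≠ k) (hjk : j ≠ k) {c : K} (hc : c ≠ 0) (t : K) :
    D.w i j c * D.x j k t * (D.w i j c)⁻¹ = D.x i k (c * t) := by
  unfold w
  have e : -c⁻¹ * (c * t) + t = 0 := by field_simp; ring
  have e1 : D.x j k (-c⁻¹ * (c * t)) * D.x i k (c * t) * D.x j k t = D.x i k (c * t) := by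
    rw [D.comm j k i k hjk hik hjk hik.symm, mul_assoc, D.add j k hjk, e, D.x_zero hjk, mul_one]
  rw [cj3, D.cj_rel hij hjk hik, cj_mul (D.x j i (-c⁻¹)), D.cj_rel hij.symm hik hjk,
    D.cj_comm hij.symm hjk hjk hij, e1, D.cj_comm hij hik hik hij.symm]

theorem w_conj_col1 {i j k : ι} (hij : i ≠ j) (hik : i ≠ k) (hjk : j ≠ k) {c : K} (hc : c ≠ 0) (t : K) :
    D.w i j c * D.x k i t * (D.w i j c)⁻¹ = D.x k j (-(c * t)) := by
  unfold w
  have e : -(-(t * c) * -c⁻¹) + t = 0 := by field_simp; ring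
  have e1 : D.x k i (-(-(t * c) * -c⁻¹)) * D.x k j (-(t * c)) * D.x k i t = D.x k j (-(t * c)) := by
    rw [D.comm k i k j hik.symm hjk.symm hjk.symm hik, mul_assoc, D.add k i hik.symm, e,
      D.x_zero hik.symm, mul_one]
  rw [cj3, D.cj_rel' hik.symm hij hjk.symm, cj_mul (D.x j i (-c⁻¹)), D.cj_rel' hjk.symm hij.symm hik.symm,
    D.cj_comm hij.symm hik.symm hij.symm hik, e1, D.cj_comm hij hjk.symm hij hjk]
  congr 1
  ring

theorem w_conj_col2 {i j k : ι} (hij : i ≠ j) (hik : i ≠ k) (hjk : j ≠ k) {c : K} (hc : c ≠ 0) (t : K) :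
    D.w i j c * D.x k j t * (D.w i j c)⁻¹ = D.x k i (c⁻¹ * t) := by
  unfold w
  rw [cj3, D.cj_comm hij hjk.symm hij hjk, D.cj_rel' hjk.symm hij.symm hik.symm, cj_mul,
    D.cj_rel' hik.symm hij hjk.symm, D.cj_comm hij hjk.symm hij hjk,
    D.comm k j k i hjk.symm hik.symm hik.symm hjk, mul_assoc, D.add k j hjk.symm]
  have e : -(-(t * -c⁻¹) * c) + t = 0 := by field_simp; ring
  rw [e, D.x_zero hjk.symm, mul_one]
  congr 1
  ring

theorem w_comm {i j k l : ι} (hij : i ≠ j) (hkl : k ≠ l) (hik : i ≠ k) (hil : i ≠ l) (hjk : j ≠ k)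
    (hjl : j ≠ l) (c t : K) : D.w i j c * D.x k l t * (D.w i j c)⁻¹ = D.x k l t := by
  unfold w
  rw [cj3, D.cj_comm hij hkl hil hjk, D.cj_comm hij.symm hkl hjl hik, D.cj_comm hij hkl hil hjk]

theorem cj_commutator (a g g' : E) : a * ⁅g, g'⁆ * a⁻¹ = ⁅a * g * a⁻¹, a * g' * a⁻¹⁆ := by
  simp only [commutatorElement_def]
  group

theorem w_conj_self {i j k : ι} (hij : i ≠ j) (hik : i ≠ k) (hjk : j ≠ k) {c : K} (hc : c ≠ 0) (t : K) :
    D.w i j c * D.x i j t * (D.w i j c)⁻¹ = D.x j i (-(c⁻¹ ^ 2 * t)) := by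
  have e : D.x i j t = ⁅D.x i k t, D.x k j 1⁆ := by rw [D.rel i k j hik hjk.symm hij, mul_one]
  rw [e, cj_commutator, D.w_conj_row1 hij hik hjk hc, D.w_conj_col2 hij hik hjk hc,
    D.rel j k i hjk hik.symm hij.symm]
  congr 1
  ring

/-- the rank one data attached to a pair of indices (a third index is needed for the relation) -/
def st2 (i j k : ι) (hij : i ≠ j) (hik : i ≠ k) (hjk : j ≠ k) : St2 K E where
  x := D.x i j
  y := D.x j i
  x_add := D.add i j hij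
  y_add := D.add j i hij.symm
  rel := fun _ u ht => D.w_conj_self hij hik hjk ht u

theorem cj2 (a b g : E) : (a * b) * g * (a * b)⁻¹ = a * (b * g * b⁻¹) * a⁻¹ := by
  group

theorem h_conj_row1 {i j k : ι} (hij : i ≠ j) (hik : i ≠ k) (hjk : j ≠ k) {c : K} (hc : c ≠ 0) (t : K) :
    D.h i j c * D.x i k t * (D.h i j c)⁻¹ = D.x i k (c * t) := by
  unfold h
  rw [cj2, D.w_conj_row1 hij hik hjk (neg_ne_zero.2 one_ne_zero), D.w_conj_row2 hij hik hjk hc]
  congr 1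
  rw [inv_neg, inv_one]
  ring

theorem h_conj_row2 {i j k : ι} (hij : i ≠ j) (hik : i ≠ k) (hjk : j ≠ k) {c : K} (hc : c ≠ 0) (t : K) :
    D.h i j c * D.x j k t * (D.h i j c)⁻¹ = D.x j k (c⁻¹ * t) := by
  unfold h
  rw [cj2, D.w_conj_row2 hij hik hjk (neg_ne_zero.2 one_ne_zero), D.w_conj_row1 hij hik hjk hc]
  congr 1
  ring

theorem h_conj_col1 {i j k : ι} (hij : i ≠ j) (hik : i ≠ k) (hjk : j ≠ k) {c : K} (hc : c ≠ 0) (t : K) :
    D.h i j c * D.x k i t * (D.h i j c)⁻¹ = D.x k i (c⁻¹ * t) := by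
  unfold h
  rw [cj2, D.w_conj_col1 hij hik hjk (neg_ne_zero.2 one_ne_zero), D.w_conj_col2 hij hik hjk hc]
  congr 1
  ring

theorem h_conj_col2 {i j k : ι} (hij : i ≠ j) (hik : i ≠ k) (hjk : j ≠ k) {c : K} (hc : c ≠ 0) (t : K) :
    D.h i j c * D.x k j t * (D.h i j c)⁻¹ = D.x k j (c * t) := by
  unfold h
  rw [cj2, D.w_conj_col2 hij hik hjk (neg_ne_zero.2 one_ne_zero), D.w_conj_col1 hij hik hjk hc]
  congr 1
  rw [inv_neg, inv_one]
  ring

theorem h_comm {i j k l : ι} (hij : i ≠ j) (hkl : k ≠ l) (hik : i ≠ k) (hil : i ≠ l) (hjk : j ≠ k)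
    (hjl : j ≠ l) (c t : K) : D.h i j c * D.x k l t * (D.h i j c)⁻¹ = D.x k l t := by
  unfold h
  rw [cj2, D.w_comm hij hkl hik hil hjk hjl, D.w_comm hij hkl hik hil hjk hjl]

theorem h_conj_self {i j k : ι} (hij : i ≠ j) (hik : i ≠ k) (hjk : j ≠ k) {c : K} (hc : c ≠ 0) (t : K) :
    D.h i j c * D.x i j t * (D.h i j c)⁻¹ = D.x i j (c ^ 2 * t) :=
  (D.st2 i j k hij hik hjk).h_conj_x hc t

theorem h_conj_self' {i j k : ι} (hij : i ≠ j) (hik : i ≠ k) (hjk : j ≠ k) {c : K} (hc : c ≠ 0) (t : K) :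
    D.h i j c * D.x j i t * (D.h i j c)⁻¹ = D.x j i (c⁻¹ ^ 2 * t) :=
  (D.st2 i j k hij hik hjk).h_conj_y hc t

end StN

end Cfsg.Agent.Lib.Helper85
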