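import Cfsg.Agent.Lib.Helper85.StNStep

set_option autoImplicit false
set_option linter.unusedSectionVars false

/-!
Every element of the group generated by the root elements with indices in `insert o S` lies in
`A * M * H₀ * Q`.
-/

namespace Cfsg.Agent.Lib.Helper85

namespace StNT

open Matrix Subgroup

variable {ι K E : Type*} [DecidableEq ι] [Field K] [Group E] (D : StN ι K E)

/-- membership in `A * M * H₀ * Q` -/
def InS (S : Finset ι) (o j₀ : ι) (g : E) : Prop :=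
  ∃ a ∈ closure (gF (row D o) S), ∃ m ∈ closure (gF (col D o) S), ∃ c : K, c ≠ 0 ∧
    ∃ q ∈ Qs D S o, g = a * m * D.h o j₀ c * q

variable {S : Finset ι} {o j₀ k₀ : ι}

theorem inS_row (a₀ : E) (ha₀ : a₀ ∈ closure (gF (row D o) S)) {g : E} (hg : InS D S o j₀ g) :
    InS D S o j₀ (a₀ * g) := by
  obtain ⟨a, ha, m, hm, c, hc, q, hq, rfl⟩ := hg
  exact ⟨a₀ * a, mul_mem ha₀ ha, m, hm, c, hc, q, hq, by group⟩

theorem inS_L (ho : o ∉ S) (hj₀ : j₀ ∈ S) (hk₀ : k₀ ∈ S) (hjk : j₀ ≠ k₀)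
    (l : E) (hl : l ∈ closure (gL D S)) {g : E} (hg : InS D S o j₀ g) :
    InS D S o j₀ (l * g) := by
  obtain ⟨a, ha, m, hm, c, hc, q, hq, rfl⟩ := hg
  refine ⟨l * a * l⁻¹, L_norm_row D ho l hl a ha, l * m * l⁻¹, L_norm_col D ho l hl m hm, c, hc,
    ((D.h o j₀ c)⁻¹ * l * (D.h o j₀ c)⁻¹⁻¹) * q,
    mul_mem (h_conj_Qs D ho hj₀ hk₀ hjk hc l (L_le_Qs D S o hl)) hq, by group⟩

theorem inS_Q (ho : o ∉ S) (hj₀ : j₀ ∈ S) (hk₀ : k₀ ∈ S) (hjk : j₀ ≠ k₀)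
    (q₀ : E) (hq₀ : q₀ ∈ Qs D S o) {g : E} (hg : InS D S o j₀ g) :
    InS D S o j₀ (q₀ * g) := by
  obtain ⟨a, ha, l, hl, rfl⟩ := Qs_dec D ho q₀ hq₀
  rw [mul_assoc]
  exact inS_row D a ha (inS_L D ho hj₀ hk₀ hjk l hl hg)

theorem phi_h (φ : SpecialLinearGroup (Fin 2) K →* E)
    (h1 : ∀ t, φ (SL2.up t) = D.x o j₀ t) (h2 : ∀ t, φ (SL2.lo t) = D.x j₀ o t) (c : K) :
    φ ((SL2.stdSt2 K).h c) = D.h o j₀ c := by
  have e : (SL2.stdSt2 K).h c = (SL2.up c * SL2.lo (-c⁻¹) * SL2.up c) *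
      (SL2.up (-1) * SL2.lo (-(-1 : K)⁻¹) * SL2.up (-1)) := rfl
  rw [e]
  simp only [map_mul, h1, h2]
  rfl

theorem inS_b (ho : o ∉ S) (hj₀ : j₀ ∈ S) (hk₀ : k₀ ∈ S) (hjk : j₀ ≠ k₀)
    (φ : SpecialLinearGroup (Fin 2) K →* E)
    (h1 : ∀ t, φ (SL2.up t) = D.x o j₀ t) (h2 : ∀ t, φ (SL2.lo t) = D.x j₀ o t)
    (t : K) {g : E} (hg : InS D S o j₀ g) : InS D S o j₀ (D.x j₀ o t * g) := by
  obtain ⟨a, ha, m, hm, c, hc, q, hq, rfl⟩ := hg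
  obtain ⟨a', ha', a₀, rfl⟩ := dec_row D ho hj₀ a ha
  obtain ⟨u₀, m', hm', rfl⟩ := dec_col D ho hj₀ m hm
  obtain ⟨x, γ, α, z, hα, hdec⟩ := sl2_dec (SL2.lo t * SL2.up a₀ * SL2.lo u₀)
  have hdec' : D.x j₀ o t * D.x o j₀ a₀ * D.x j₀ o u₀ =
      D.x o j₀ x * D.x j₀ o γ * D.h o j₀ α * D.x o j₀ z := by
    have := congrArg φ hdec
    simp only [map_mul, h1, h2, phi_h D φ h1 h2] at this
    exact this
  have hmul : D.h o j₀ α * D.h o j₀ c = D.h o j₀ (α * c) := by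
    rw [← phi_h D φ h1 h2, ← phi_h D φ h1 h2, ← phi_h D φ h1 h2, ← map_mul, St2.std_hmul K α c hα hc]
  -- pieces
  have p1 := b_conj_row D ho hj₀ t a' ha'
  have p2 := col_conj_a D ho hj₀ z m'⁻¹ (inv_mem hm')
  have p3 := h_conj_col D ho hj₀ hα m' hm'
  have p4 := h_conj_Qs D ho hj₀ hk₀ hjk hc _ p2
  have hM : closure (gF (col D o) (S.erase j₀)) ≤ closure (gF (col D o) S) :=
    closure_mono (gF_mono _ (Finset.erase_subset _ _))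
  have key : D.x j₀ o t * (a' * D.x o j₀ a₀ * (D.x j₀ o u₀ * m') * D.h o j₀ c * q) =
      (D.x j₀ o t * a' * (D.x j₀ o t)⁻¹) *
      (D.x o j₀ x * (D.x j₀ o γ * (D.h o j₀ α * m' * (D.h o j₀ α)⁻¹)) * D.h o j₀ (α * c) *
        (((D.h o j₀ c)⁻¹ * (m'⁻¹ * D.x o j₀ z * m'⁻¹⁻¹) * (D.h o j₀ c)⁻¹⁻¹) * q)) := by
    rw [← hmul]
    calc D.x j₀ o t * (a' * D.x o j₀ a₀ * (D.x j₀ o u₀ * m') * D.h o j₀ c * q)
        = (D.x j₀ o t * a' * (D.x j₀ o t)⁻¹) * ((D.x j₀ o t * D.x o j₀ a₀ * D.x j₀ o u₀) *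
            m' * D.h o j₀ c * q) := by group
      _ = (D.x j₀ o t * a' * (D.x j₀ o t)⁻¹) * ((D.x o j₀ x * D.x j₀ o γ * D.h o j₀ α * D.x o j₀ z) *
            m' * D.h o j₀ c * q) := by rw [hdec']
      _ = _ := by group
  rw [key]
  apply inS_Q D ho hj₀ hk₀ hjk _ p1
  exact ⟨D.x o j₀ x, subset_closure ⟨j₀, x, hj₀, rfl⟩, _,
    mul_mem (subset_closure ⟨j₀, γ, hj₀, rfl⟩) (hM p3), α * c, mul_ne_zero hα hc, _,
    mul_mem p4 hq, rfl⟩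

theorem w_mem_L {i j : ι} (hi : i ∈ S) (hj : j ∈ S) (hij : i ≠ j) (c : K) :
    D.w i j c ∈ closure (gL D S) := by
  unfold StN.w
  exact mul_mem (mul_mem (subset_closure ⟨i, j, _, hi, hj, hij, rfl⟩)
    (subset_closure ⟨j, i, _, hj, hi, hij.symm, rfl⟩)) (subset_closure ⟨i, j, _, hi, hj, hij, rfl⟩)

theorem inS_col (ho : o ∉ S) (hj₀ : j₀ ∈ S) (hk₀ : k₀ ∈ S) (hjk : j₀ ≠ k₀)
    (φ : SpecialLinearGroup (Fin 2) K →* E)
    (h1 : ∀ t, φ (SL2.up t) = D.x o j₀ t) (h2 : ∀ t, φ (SL2.lo t) = D.x j₀ o t)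
    {k : ι} (hk : k ∈ S) (t : K) {g : E} (hg : InS D S o j₀ g) : InS D S o j₀ (D.x k o t * g) := by
  by_cases h : k = j₀
  · subst h
    exact inS_b D ho hj₀ hk₀ hjk φ h1 h2 t hg
  · have hko : k ≠ o := ne_of_mem_of_not_mem hk ho
    have hjo : j₀ ≠ o := ne_of_mem_of_not_mem hj₀ ho
    have e := D.w_conj_row2 h hko hjo (one_ne_zero (α := K)) t
    rw [one_mul] at e
    have hw := w_mem_L D hk hj₀ h (1 : K)
    have e' : D.x k o t * g = D.w k j₀ 1 * (D.x j₀ o t * ((D.w k j₀ 1)⁻¹ * g)) := by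
      rw [← e]; group
    rw [e']
    exact inS_L D ho hj₀ hk₀ hjk _ hw (inS_b D ho hj₀ hk₀ hjk φ h1 h2 t
      (inS_L D ho hj₀ hk₀ hjk _ (inv_mem hw) hg))

theorem h_one' {i j : ι} (hij : i ≠ j) : D.h i j 1 = 1 := by
  unfold StN.h StN.w
  have : (-(-1 : K)⁻¹) = 1 := by rw [inv_neg, inv_one, neg_neg]
  rw [this, inv_one, D.x_neg hij, D.x_neg (Ne.symm hij)]
  group

theorem all_inS [Finite K] (ho : o ∉ S) (hj₀ : j₀ ∈ S) (hk₀ : k₀ ∈ S) (hjk : j₀ ≠ k₀) :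
    ∀ g ∈ closure (gL D (insert o S)), InS D S o j₀ g := by
  have hoj : o ≠ j₀ := (ne_of_mem_of_not_mem hj₀ ho).symm
  have hok : o ≠ k₀ := (ne_of_mem_of_not_mem hk₀ ho).symm
  obtain ⟨φ, h1, h2⟩ := (D.st2 o j₀ k₀ hoj hok hjk).exists_hom
  refine closure_ind_left (gL_inv D _)
    ⟨1, one_mem _, 1, one_mem _, 1, one_ne_zero, 1, one_mem _, by rw [h_one' D hoj]; simp⟩ ?_
  rintro _ ⟨i, j, t, hi, hj, hij, rfl⟩ y hy
  rcases Finset.mem_insert.1 hi with rfl | hi'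
  · rcases Finset.mem_insert.1 hj with rfl | hj'
    · exact absurd rfl hij
    · exact inS_row D _ (subset_closure ⟨j, t, hj', rfl⟩) hy
  · rcases Finset.mem_insert.1 hj with rfl | hj'
    · exact inS_col D ho hj₀ hk₀ hjk φ h1 h2 hi' t hy
    · exact inS_L D ho hj₀ hk₀ hjk _ (subset_closure ⟨i, j, t, hi', hj', hij, rfl⟩) hy

end StNT

end Cfsg.Agent.Lib.Helper85
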