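import Cfsg.Agent.Lib.Helper85.StNBasic
import Cfsg.Agent.Lib.Helper85.SL2CoverB

set_option autoImplicit false

/-!
Vocabulary for lifting Steinberg data of type `A` along a central extension `σ : Γ →* G`.
-/

namespace Cfsg.Agent.Lib.Helper85

open scoped commutatorElement

namespace StN

variable {ι K Γ G : Type*} [Field K] [Group Γ] [Group G]

/-- all lifts of elements of the root subgroups `(i,j)` and `(k,l)` commute -/
def LiftComm (D : StN ι K G) (σ : Γ →* G) (i j k l : ι) : Prop :=
  ∀ (t u : K) (A B : Γ), σ A = D.x i j t → σ B = D.x k l u → A * B = B * A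

/-- lifts of commuting root elements commute -/
def H1 (D : StN ι K G) (σ : Γ →* G) : Prop :=
  ∀ i j k l : ι, i ≠ j → k ≠ l → i ≠ l → j ≠ k → LiftComm D σ i j k l

/-- the commutator of lifts of `x a b r`, `x b d s` only depends on `a`, `d`, `r * s` -/
def H2 (D : StN ι K G) (σ : Γ →* G) : Prop :=
  ∀ a b c d : ι, a ≠ b → b ≠ d → a ≠ d → a ≠ c → c ≠ d → ∀ (r s : K) (A B A' B' : Γ),
    σ A = D.x a b r → σ B = D.x b d s → σ A' = D.x a c (r * s) → σ B' = D.x c d 1 →
      ⁅A, B⁆ = ⁅A', B'⁆

end StN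

end Cfsg.Agent.Lib.Helper85
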