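import Cfsg.Agent.Lib.Helper85.StNCell

set_option autoImplicit false
set_option linter.unusedSectionVars false

/-!
Injectivity theorem: Steinberg data of type `A` over a finite field mapping to the transvections
generate a group mapping injectively to `SL_n`.
-/

namespace Cfsg.Agent.Lib.Helper85

namespace StNT

open Matrix Subgroup

variable {ι K E : Type*} [Fintype ι] [DecidableEq ι] [Field K] [Group E] (D : StN ι K E)
  (π : E →* SpecialLinearGroup ι K)
  (hπ : ∀ i j (h : i ≠ j) t, π (D.x i j t) = SpecialLinearGroup.transvection h t)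

theorem sl_mul_apply (X Y : SpecialLinearGroup ι K) (a b : ι) :
    (X * Y) a b = ∑ k, X a k * Y k b := by
  have e : (X * Y) a b = ((X : Matrix ι ι K) * (Y : Matrix ι ι K)) a b := rfl
  rw [e, Matrix.mul_apply]

theorem sl_one_apply (a b : ι) : (1 : SpecialLinearGroup ι K) a b = if a = b then 1 else 0 := by
  have e : (1 : SpecialLinearGroup ι K) a b = (1 : Matrix ι ι K) a b := rfl
  rw [e, Matrix.one_apply]

theorem mul_col {X Y : SpecialLinearGroup ι K} {o : ι} {c : K}
    (hY : ∀ i, Y i o = if i = o then c else 0) (k : ι) : (X * Y) k o = X k o * c := by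
  rw [sl_mul_apply]
  simp [hY]

theorem mul_row {X Y : SpecialLinearGroup ι K} {k : ι}
    (hX : ∀ j, X k j = if k = j then 1 else 0) (j : ι) : (X * Y) k j = Y k j := by
  rw [sl_mul_apply]
  simp [hX]

variable {S : Finset ι} {o j₀ k₀ : ι}

include hπ

theorem Qs_col (ho : o ∉ S) : ∀ q ∈ Qs D S o, ∀ i, π q i o = if i = o then 1 else 0 := by
  have hinv : ∀ s ∈ gF (row D o) S ∪ gL D S, s⁻¹ ∈ gF (row D o) S ∪ gL D S := by
    rintro s (hs | hs)
    · exact Or.inl (row_inv D ho s hs)
    · exact Or.inr (gL_inv D S s hs)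
  refine closure_ind_left hinv ?_ ?_
  · intro i
    rw [map_one, sl_one_apply]
  · rintro _ (⟨j, t, hj, rfl⟩ | ⟨a, b, t, ha, hb, hab, rfl⟩) y hy i
    · have hjo : j ≠ o := ne_of_mem_of_not_mem hj ho
      show π (D.x o j t * y) i o = _
      rw [map_mul, hπ o j hjo.symm, tv_mul_apply, hy, hy, if_neg hjo]
      simp
    · have hbo : b ≠ o := ne_of_mem_of_not_mem hb ho
      rw [map_mul, hπ a b hab, tv_mul_apply, hy, hy, if_neg hbo]
      simp

theorem col_oo (ho : o ∉ S) : ∀ m ∈ closure (gF (col D o) S), π m o o = 1 := by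
  refine closure_ind_left (col_inv D ho) ?_ ?_
  · rw [map_one, sl_one_apply, if_pos rfl]
  · rintro _ ⟨k, t, hk, rfl⟩ y hy
    have hko : k ≠ o := ne_of_mem_of_not_mem hk ho
    show π (D.x k o t * y) o o = _
    rw [map_mul, hπ k o hko, tv_mul_apply, hy, if_neg hko.symm, add_zero]

theorem row_rows (ho : o ∉ S) : ∀ a ∈ closure (gF (row D o) S), ∀ k, k ≠ o → ∀ j,
    π a k j = if k = j then 1 else 0 := by
  refine closure_ind_left (row_inv D ho) ?_ ?_
  · intro k _ j
    rw [map_one, sl_one_apply]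
  · rintro _ ⟨j', t, hj', rfl⟩ y hy k hk j
    have hjo : j' ≠ o := ne_of_mem_of_not_mem hj' ho
    show π (D.x o j' t * y) k j = _
    rw [map_mul, hπ o j' hjo.symm, tv_mul_apply, hy k hk, if_neg hk, add_zero]

theorem L_row (ho : o ∉ S) : ∀ l ∈ closure (gL D S), ∀ j, π l o j = if o = j then 1 else 0 := by
  refine closure_ind_left (gL_inv D S) ?_ ?_
  · intro j
    rw [map_one, sl_one_apply]
  · rintro _ ⟨a, b, t, ha, hb, hab, rfl⟩ y hy j
    have hao : a ≠ o := ne_of_mem_of_not_mem ha ho
    rw [map_mul, hπ a b hab, tv_mul_apply, hy, if_neg hao.symm, add_zero]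

theorem col_inj (ho : o ∉ S) : ∀ m ∈ closure (gF (col D o) S), (∀ k ∈ S, π m k o = 0) → m = 1 := by
  apply ab_inj (col D o) (fun g k => π g k o) S
  · intro k hk t
    exact (D.x_neg (ne_of_mem_of_not_mem hk ho) t).symm
  · intro k hk
    exact D.x_zero (ne_of_mem_of_not_mem hk ho)
  · intro k hk k' hk' t u
    have h1 : k ≠ o := ne_of_mem_of_not_mem hk ho
    have h2 : k' ≠ o := ne_of_mem_of_not_mem hk' ho
    exact D.comm k o k' o h1 h2 h1 h2.symm t u
  · intro k hk t u
    exact D.add k o (ne_of_mem_of_not_mem hk ho) t u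
  · intro k hk t g hg k' hk'
    have h1 : k ≠ o := ne_of_mem_of_not_mem hk ho
    show π (D.x k o t * g) k' o = _
    rw [map_mul, hπ k o h1, tv_mul_apply, col_oo D π hπ ho g hg, mul_one]
  · intro k' hk'
    show π 1 k' o = 0
    rw [map_one, sl_one_apply, if_neg (ne_of_mem_of_not_mem hk' ho)]

theorem row_inj (ho : o ∉ S) : ∀ a ∈ closure (gF (row D o) S), (∀ j ∈ S, π a o j = 0) → a = 1 := by
  apply ab_inj (row D o) (fun g j => π g o j) S
  · intro k hk t
    exact (D.x_neg (ne_of_mem_of_not_mem hk ho).symm t).symm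
  · intro k hk
    exact D.x_zero (ne_of_mem_of_not_mem hk ho).symm
  · intro k hk k' hk' t u
    have h1 : k ≠ o := ne_of_mem_of_not_mem hk ho
    have h2 : k' ≠ o := ne_of_mem_of_not_mem hk' ho
    exact D.comm o k o k' h1.symm h2.symm h2.symm h1 t u
  · intro k hk t u
    exact D.add o k (ne_of_mem_of_not_mem hk ho).symm t u
  · intro k hk t g hg k' hk'
    have h1 : k ≠ o := ne_of_mem_of_not_mem hk ho
    show π (D.x o k t * g) o k' = _
    rw [map_mul, hπ o k h1.symm, tv_mul_apply, if_pos rfl, row_rows D π hπ ho g hg k h1]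
    congr 1
    by_cases h : k' = k
    · subst h; simp
    · rw [if_neg h, if_neg (Ne.symm h), mul_zero]
  · intro k' hk'
    show π 1 o k' = 0
    rw [map_one, sl_one_apply, if_neg (ne_of_mem_of_not_mem hk' ho).symm]

theorem h_col [Finite K] (hoj : o ≠ j₀) (hok : o ≠ k₀) (hjk : j₀ ≠ k₀) {c : K} (hc : c ≠ 0) :
    ∀ i, π (D.h o j₀ c) i o = if i = o then c else 0 := by
  obtain ⟨φ, h1, h2⟩ := (D.st2 o j₀ k₀ hoj hok hjk).exists_hom
  obtain ⟨e1, _, e3, _, e5⟩ := phi_entries D π hπ hoj φ h1 h2 ((SL2.stdSt2 K).h c)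
  obtain ⟨a1, _, a3, _⟩ := std_h_entries hc
  rw [phi_h D φ h1 h2] at e1 e3 e5
  intro i
  by_cases hi : i = o
  · subst hi
    rw [if_pos rfl, e1, a1]
  · rw [if_neg hi]
    by_cases hi' : i = j₀
    · subst hi'
      rw [e3, a3]
    · exact (e5 i hi hi').1

theorem step [Finite K] (ho : o ∉ S) (hj₀ : j₀ ∈ S) (hk₀ : k₀ ∈ S) (hjk : j₀ ≠ k₀)
    (IH : ∀ g ∈ closure (gL D S), π g = 1 → g = 1) :
    ∀ g ∈ closure (gL D (insert o S)), π g = 1 → g = 1 := by
  have hoj : o ≠ j₀ := (ne_of_mem_of_not_mem hj₀ ho).symm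
  have hok : o ≠ k₀ := (ne_of_mem_of_not_mem hk₀ ho).symm
  intro g hg h1
  obtain ⟨a, ha, m, hm, c, hc, q, hq, rfl⟩ := all_inS D ho hj₀ hk₀ hjk g hg
  have hqc := Qs_col D π hπ ho q hq
  have hhc := h_col D π hπ hoj hok hjk hc
  have hent : ∀ k, π (a * m * D.h o j₀ c * q) k o = π (a * m) k o * c := by
    intro k
    rw [map_mul, mul_col hqc, mul_one, map_mul, mul_col hhc]
  have hm1 : m = 1 := by
    apply col_inj D π hπ ho m hm
    intro k hk
    have hko : k ≠ o := ne_of_mem_of_not_mem hk ho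
    have e := hent k
    rw [h1, sl_one_apply, if_neg hko, map_mul, mul_row (row_rows D π hπ ho a ha k hko)] at e
    rcases mul_eq_zero.1 e.symm with h | h
    · exact h
    · exact absurd h hc
  subst hm1
  have hc1 : c = 1 := by
    have e := hent o
    rw [h1, sl_one_apply, if_pos rfl, mul_one, Qs_col D π hπ ho a (row_le_Qs D S o ha), if_pos rfl,
      one_mul] at e
    exact e.symm
  subst hc1
  rw [h_one' D hoj, mul_one, mul_one] at h1 ⊢
  obtain ⟨a₂, ha₂, l, hl, rfl⟩ := Qs_dec D ho q hq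
  have haa : a * a₂ = 1 := by
    apply row_inj D π hπ ho _ (mul_mem ha ha₂)
    intro j hj
    have e : π (a * a₂) = π l⁻¹ := by
      rw [map_inv, eq_inv_iff_mul_eq_one, ← map_mul, mul_assoc]
      exact h1
    rw [e, L_row D π hπ ho _ (inv_mem hl), if_neg (ne_of_mem_of_not_mem hj ho).symm]
  rw [← mul_assoc, haa, one_mul] at h1 ⊢
  exact IH l hl h1

theorem base [Finite K] {i j k : ι} (hij : i ≠ j) (hik : i ≠ k) (hjk : j ≠ k) :
    ∀ g ∈ closure (gL D {i, j}), π g = 1 → g = 1 := by
  obtain ⟨φ, h1, h2⟩ := (D.st2 i j k hij hik hjk).exists_hom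
  have hle : closure (gL D {i, j}) ≤ φ.range := by
    rw [closure_le]
    rintro _ ⟨a, b, t, ha, hb, hab, rfl⟩
    simp only [Finset.mem_insert, Finset.mem_singleton] at ha hb
    rcases ha with rfl | rfl <;> rcases hb with rfl | rfl
    · exact absurd rfl hab
    · exact ⟨_, h1 t⟩
    · exact ⟨_, h2 t⟩
    · exact absurd rfl hab
  intro g hg hg1
  obtain ⟨m, rfl⟩ := hle hg
  obtain ⟨e1, e2, e3, e4, _⟩ := phi_entries D π hπ hij φ h1 h2 m
  rw [hg1, sl_one_apply] at e1 e2 e3 e4
  have : m = 1 := by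
    apply SL2.ext2
    · rw [← e1]; simp
    · rw [← e2]; simp [hij]
    · rw [← e3]; simp [hij.symm]
    · rw [← e4]; simp
  rw [this, map_one]

theorem inj_finset [Finite K] (h3 : 3 ≤ Fintype.card ι) (J : Finset ι) :
    ∀ g ∈ closure (gL D J), π g = 1 → g = 1 := by
  induction J using Finset.induction_on with
  | empty =>
    intro g hg _
    have : gL D (∅ : Finset ι) = ∅ := by
      ext x
      simp [gL]
    rw [this, Subgroup.closure_empty, mem_bot] at hg
    exact hg
  | insert o S ho ih =>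
    rcases Nat.lt_or_ge 1 S.card with hS | hS
    · obtain ⟨j₀, hj₀, k₀, hk₀, hjk⟩ := Finset.one_lt_card.1 hS
      exact step D π hπ ho hj₀ hk₀ hjk ih
    · rcases Nat.eq_zero_or_pos S.card with h0 | h0
      · rw [Finset.card_eq_zero] at h0
        subst h0
        intro g hg _
        have : gL D (insert o (∅ : Finset ι)) = ∅ := by
          ext x
          simp only [gL, Set.mem_setOf_eq, Set.mem_empty_iff_false, iff_false]
          rintro ⟨i, j, t, hi, hj, hij, _⟩
          simp only [Finset.mem_insert, Finset.notMem_empty, or_false] at hi hj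
          exact hij (hi.trans hj.symm)
        rw [this, Subgroup.closure_empty, mem_bot] at hg
        exact hg
      · have h1 : S.card = 1 := by omega
        obtain ⟨j, rfl⟩ := Finset.card_eq_one.1 h1
        have hoj : o ≠ j := by
          intro h
          exact ho (by rw [h]; exact Finset.mem_singleton_self j)
        obtain ⟨k, hk⟩ : ∃ k, k ∉ ({o, j} : Finset ι) := by
          by_contra hcon
          push Not at hcon
          have : Fintype.card ι ≤ ({o, j} : Finset ι).card := by
            rw [← Finset.card_univ]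
            exact Finset.card_le_card (fun x _ => hcon x)
          have h2 : ({o, j} : Finset ι).card ≤ 2 := Finset.card_le_two
          omega
        simp only [Finset.mem_insert, Finset.mem_singleton, not_or] at hk
        exact base D π hπ hoj (Ne.symm hk.1) (Ne.symm hk.2)

end StNT

namespace StN

open Matrix

/-- Steinberg data of type `A` over a finite field which map to the transvections of `SL_n`,
`n ≥ 3`, generate a subgroup on which the map is injective. -/
theorem inj {ι K E : Type*} [Field K] [Group E] [Finite K] [Fintype ι] [DecidableEq ι] (D : StN ι K E)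
    (h3 : 3 ≤ Fintype.card ι) (π : E →* SpecialLinearGroup ι K)
    (hπ : ∀ i j (h : i ≠ j) t, π (D.x i j t) = SpecialLinearGroup.transvection h t) :
    ∀ g ∈ Subgroup.closure {g | ∃ i j t, i ≠ j ∧ g = D.x i j t}, π g = 1 → g = 1 := by
  have e : {g | ∃ i j t, i ≠ j ∧ g = D.x i j t} = StNT.gL D Finset.univ := by
    ext x
    simp [StNT.gL]
  rw [e]
  exact StNT.inj_finset D π hπ h3 Finset.univ

end StN

end Cfsg.Agent.Lib.Helper85
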