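import Cfsg.Agent.Lib.Helper85.StNInj
import Cfsg.Agent.Lib.Helper9.StNStd

set_option autoImplicit false

/-!
The Steinberg presentation of `SL_n(K)`, `K` a finite field, `n ≥ 3`.
-/

namespace Cfsg.Agent.Lib.Helper85

open scoped commutatorElement
open Matrix

namespace StN

/-- the Steinberg relators -/
def stRels (n : ℕ) (K : Type*) [Field K] :
    Set (FreeGroup ({ij : Fin n × Fin n // ij.1 ≠ ij.2} × K)) :=
  {g : FreeGroup ({ij : Fin n × Fin n // ij.1 ≠ ij.2} × K) | ∃ (a : {ij : Fin n × Fin n // ij.1 ≠ ij.2}) (t u : K),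
      g = FreeGroup.of (a, t) * FreeGroup.of (a, u) * (FreeGroup.of (a, t + u))⁻¹} ∪
    {g | ∃ (a b : {ij : Fin n × Fin n // ij.1 ≠ ij.2}) (t u : K), a.1.1 ≠ b.1.2 ∧ a.1.2 ≠ b.1.1 ∧
      g = FreeGroup.of (a, t) * FreeGroup.of (b, u) * (FreeGroup.of (a, t))⁻¹ * (FreeGroup.of (b, u))⁻¹} ∪
    {g | ∃ (a b : {ij : Fin n × Fin n // ij.1 ≠ ij.2}) (h : a.1.1 ≠ b.1.2) (t u : K), a.1.2 = b.1.1 ∧
      g = FreeGroup.of (a, t) * FreeGroup.of (b, u) * (FreeGroup.of (a, t))⁻¹ * (FreeGroup.of (b, u))⁻¹ *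
        (FreeGroup.of (⟨(a.1.1, b.1.2), h⟩, t * u))⁻¹}

variable (n : ℕ) (K : Type*) [Field K]

/-- the tautological Steinberg data of the presented group -/
noncomputable def presData : StN (Fin n) K (PresentedGroup (stRels n K)) where
  x := fun i j t => if h : i ≠ j then PresentedGroup.of (⟨(i, j), h⟩, t) else 1
  add := by
    intro i j hij t u
    simp only [dif_pos hij]
    have h : PresentedGroup.mk (stRels n K) _ = 1 := PresentedGroup.one_of_mem
      (rels := stRels n K) (Or.inl (Or.inl ⟨⟨(i, j), hij⟩, t, u, rfl⟩))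
    rw [map_mul, map_mul, map_inv, mul_inv_eq_one] at h
    exact h
  comm := by
    intro i j k l hij hkl hil hjk t u
    simp only [dif_pos hij, dif_pos hkl]
    have h : PresentedGroup.mk (stRels n K) _ = 1 := PresentedGroup.one_of_mem
      (rels := stRels n K) (Or.inl (Or.inr ⟨⟨(i, j), hij⟩, ⟨(k, l), hkl⟩, t, u, hil, hjk, rfl⟩))
    rw [map_mul, map_mul, map_mul, map_inv, map_inv, mul_inv_eq_one, mul_inv_eq_iff_eq_mul] at h
    exact h
  rel := by
    intro i j l hij hjl hil t u
    simp only [dif_pos hij, dif_pos hjl, dif_pos hil]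
    have h : PresentedGroup.mk (stRels n K) _ = 1 := PresentedGroup.one_of_mem
      (rels := stRels n K) (Or.inr ⟨⟨(i, j), hij⟩, ⟨(j, l), hjl⟩, hil, t, u, rfl, rfl⟩)
    rw [map_mul, map_mul, map_mul, map_mul, map_inv, map_inv, map_inv, mul_inv_eq_one] at h
    rw [commutatorElement_def]
    exact h

theorem presData_x {i j : Fin n} (h : i ≠ j) (t : K) :
    (presData n K).x i j t = PresentedGroup.of (⟨(i, j), h⟩, t) := by
  simp only [presData, dif_pos h]

theorem lift_rels : ∀ r ∈ stRels n K,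
    FreeGroup.lift (fun p : {ij : Fin n × Fin n // ij.1 ≠ ij.2} × K =>
      (SpecialLinearGroup.transvection p.1.2 p.2 : SpecialLinearGroup (Fin n) K)) r = 1 := by
  rintro r ((⟨a, t, u, rfl⟩ | ⟨a, b, t, u, h1, h2, rfl⟩) | ⟨a, b, h, t, u, h1, rfl⟩)
  · simp only [map_mul, map_inv, FreeGroup.lift_apply_of]
    rw [mul_inv_eq_one]
    exact h9_transvection_mul a.2 t u
  · simp only [map_mul, map_inv, FreeGroup.lift_apply_of]
    rw [mul_inv_eq_one, mul_inv_eq_iff_eq_mul]
    exact h9_transvection_comm a.2 b.2 h1 h2 t u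
  · simp only [map_mul, map_inv, FreeGroup.lift_apply_of]
    rw [mul_inv_eq_one]
    obtain ⟨⟨i, j⟩, hij⟩ := a
    obtain ⟨⟨k, l⟩, hkl⟩ := b
    simp only at h1 h hij hkl
    subst h1
    exact Cfsg.Agent.Lib.Helper6.commutator_transvection hij hkl h t u

/-- the canonical map to `SL_n` -/
noncomputable def presHom : PresentedGroup (stRels n K) →* SpecialLinearGroup (Fin n) K :=
  PresentedGroup.toGroup (lift_rels n K)

theorem presHom_of (a : {ij : Fin n × Fin n // ij.1 ≠ ij.2}) (t : K) :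
    presHom n K (PresentedGroup.of (a, t)) = SpecialLinearGroup.transvection a.2 t :=
  PresentedGroup.toGroup.of (lift_rels n K)

theorem presHom_bijective [Finite K] (hn : 3 ≤ n) : Function.Bijective (presHom n K) := by
  have : Nontrivial (Fin n) := Fin.nontrivial_iff_two_le.2 (by omega)
  constructor
  · rw [injective_iff_map_eq_one]
    intro g hg
    refine (presData n K).inj (by rw [Fintype.card_fin]; exact hn) (presHom n K) ?_ g ?_ hg
    · intro i j h t
      rw [presData_x n K h, presHom_of]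
    · have h1 : Subgroup.closure {g | ∃ i j t, i ≠ j ∧ g = (presData n K).x i j t} = ⊤ := by
        rw [eq_top_iff, ← PresentedGroup.closure_range_of, Subgroup.closure_le]
        rintro _ ⟨⟨⟨⟨i, j⟩, hij⟩, t⟩, rfl⟩
        exact Subgroup.subset_closure ⟨i, j, t, hij, (presData_x n K hij t).symm⟩
      rw [h1]
      exact Subgroup.mem_top _
  · intro A
    refine Cfsg.Agent.Lib.Helper6.SL_transvection_induction
      (fun A => ∃ g, presHom n K g = A) ?_ ?_ A
    · intro i j h c
      exact ⟨PresentedGroup.of (⟨(i, j), h⟩, c), presHom_of n K _ c⟩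
    · rintro _ _ ⟨a, rfl⟩ ⟨b, rfl⟩
      exact ⟨a * b, map_mul _ a b⟩

theorem steinberg_presentation [Finite K] (hn : 3 ≤ n) :
    ∃ e : PresentedGroup (stRels n K) ≃* SpecialLinearGroup (Fin n) K,
      ∀ (a : {ij : Fin n × Fin n // ij.1 ≠ ij.2}) (t : K),
        ((e (PresentedGroup.of (a, t)) : Matrix (Fin n) (Fin n) K)) =
          Matrix.transvection a.1.1 a.1.2 t := by
  refine ⟨MulEquiv.ofBijective (presHom n K) (presHom_bijective n K hn), ?_⟩
  intro a t
  rw [MulEquiv.ofBijective_apply, presHom_of]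
  rfl

end StN

end Cfsg.Agent.Lib.Helper85
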