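import Cfsg.Agent.Lib.Helper85.StNInj
import Cfsg.Agent.Lib.Helper9.StNCore
import Cfsg.Agent.Lib.Helper9.StNF34
import Cfsg.Agent.Lib.Helper9.StNMil1
import Cfsg.Agent.Lib.Helper9.StNMil2
import Cfsg.Agent.Lib.Helper9.StNN3A
import Cfsg.Agent.Lib.Helper9.StNN3B
import Cfsg.Agent.Lib.Helper9.StNStd

set_option autoImplicit false

/-!
Stem extensions of `SL_n(q)`, `n ≥ 3`, `(n,q) ∉ {(3,2),(3,4),(4,2)}`, are trivial.
-/

namespace Cfsg.Agent.Lib.Helper85

open scoped commutatorElement
open Matrix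

namespace StN

theorem exists_notMem_finset {ι : Type*} [Fintype ι] (s : Finset ι) (h : s.card < Fintype.card ι) :
    ∃ x, x ∉ s := by
  by_contra hcon
  push Not at hcon
  have : s = Finset.univ := Finset.eq_univ_iff_forall.2 hcon
  rw [this, Finset.card_univ] at h
  exact lt_irrefl _ h

theorem exists_pow_ne_one {K : Type*} [Field K] [Finite K] (m : ℕ)
    (h : ¬ (Nat.card K - 1 ∣ m)) : ∃ δ : K, δ ≠ 0 ∧ δ ^ m ≠ 1 := by
  classical
  have := Fintype.ofFinite K
  obtain ⟨g, hg⟩ := IsCyclic.exists_generator (α := Kˣ)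
  refine ⟨(g : K), g.ne_zero, fun h1 => h ?_⟩
  have h2 : g ^ m = 1 := by
    apply Units.ext
    rw [Units.val_pow_eq_pow_val, h1, Units.val_one]
  have h3 : orderOf g = Nat.card Kˣ := orderOf_eq_card_of_forall_mem_zpowers hg
  have h4 : Nat.card Kˣ = Nat.card K - 1 := by
    rw [Nat.card_eq_fintype_card, Nat.card_eq_fintype_card, Fintype.card_units]
  rw [← h4, ← h3]
  exact orderOf_dvd_of_pow_eq_one h2

variable {ι K Γ G : Type*} [Field K] [Group Γ] [Group G]

theorem H12 [Finite K] [Fintype ι] [DecidableEq ι] (D : StN ι K G) (σ : Γ →* G)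
    (hs : Function.Surjective σ) (hc : σ.ker ≤ Subgroup.center Γ) (h3 : 3 ≤ Fintype.card ι)
    (h32 : Fintype.card ι = 3 → Nat.card K ≠ 2 ∧ Nat.card K ≠ 4)
    (h42 : Fintype.card ι = 4 → Nat.card K ≠ 2) : H1 D σ ∧ H2 D σ := by
  have hK1 : 1 < Nat.card K := Finite.one_lt_card
  have h3' : ∀ i j : ι, i ≠ j → ∃ k, k ≠ i ∧ k ≠ j := by
    intro i j _
    obtain ⟨k, hk⟩ := exists_notMem_finset ({i, j} : Finset ι)
      (lt_of_le_of_lt Finset.card_le_two (by omega))
    simp only [Finset.mem_insert, Finset.mem_singleton, not_or] at hk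
    exact ⟨k, hk⟩
  rcases Nat.lt_or_ge (Fintype.card ι) 4 with hlt | hge
  · have h3e : Fintype.card ι = 3 := by omega
    have hcard : ∀ i j k l : ι, i ≠ j → i ≠ k → j ≠ k → l = i ∨ l = j ∨ l = k := by
      intro i j k l hij hik hjk
      by_contra hcon
      push Not at hcon
      have h4 : ({l, i, j, k} : Finset ι).card = 4 := by
        rw [Finset.card_insert_of_notMem (by simp [hcon.1, hcon.2.1, hcon.2.2]),
          Finset.card_insert_of_notMem (by simp [hij, hik]),
          Finset.card_insert_of_notMem (by simp [hjk]), Finset.card_singleton]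
      have := Finset.card_le_univ ({l, i, j, k} : Finset ι)
      omega
    have hδ : ∃ δ : K, δ ≠ 0 ∧ δ ^ 3 ≠ 1 := by
      apply exists_pow_ne_one
      intro hd
      have := (Nat.dvd_prime Nat.prime_three).1 hd
      have := h32 h3e
      omega
    have h1 := H1_of_three D σ hs hc h3' hcard hδ
    exact ⟨h1, H2_of_three D σ hs hc hcard hδ h1⟩
  · have h4 : ∀ i j k : ι, ∃ l, l ≠ i ∧ l ≠ j ∧ l ≠ k := by
      intro i j k
      obtain ⟨l, hl⟩ := exists_notMem_finset ({i, j, k} : Finset ι)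
        (lt_of_le_of_lt Finset.card_le_three (by omega))
      simp only [Finset.mem_insert, Finset.mem_singleton, not_or] at hl
      exact ⟨l, hl⟩
    have F3 : ∀ i j k l : ι, i ≠ j → i ≠ k → i ≠ l → j ≠ k → j ≠ l → k ≠ l →
        LiftComm D σ i j k l := by
      intro i j k l hij hik hil hjk hjl hkl
      rcases Nat.lt_or_ge (Fintype.card ι) 5 with hlt | hge5
      · have h4e : Fintype.card ι = 4 := by omega
        have hK : (2 : K) ≠ 0 ∨ ∃ μ : K, μ ≠ 0 ∧ μ ^ 2 ≠ 1 := by
          by_cases h2 : (2 : K) = 0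
          · right
            by_contra hcon
            push Not at hcon
            apply h42 h4e
            rw [Nat.card_eq_two_iff]
            refine ⟨0, 1, zero_ne_one, ?_⟩
            ext μ
            simp only [Set.mem_insert_iff, Set.mem_singleton_iff, Set.mem_univ, iff_true]
            by_cases hμ : μ = 0
            · exact Or.inl hμ
            · right
              have h5 := hcon μ hμ
              have h6 : (μ - 1) ^ 2 = 0 := by
                have : (μ - 1) ^ 2 = μ ^ 2 - 2 * μ + 1 := by ring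
                rw [this, h5, h2]
                linear_combination h2
              exact sub_eq_zero.1 (pow_eq_zero_iff (two_ne_zero) |>.1 h6)
          · exact Or.inl h2
        exact liftComm_four D σ hs hc hK hij hik hil hjk hjl hkl
      · obtain ⟨h, hh⟩ := exists_notMem_finset ({i, j, k, l} : Finset ι)
          (lt_of_le_of_lt Finset.card_le_four (by omega))
        simp only [Finset.mem_insert, Finset.mem_singleton, not_or] at hh
        exact liftComm_of_extra D σ hs hc hij hkl hil hjk hh.1 hh.2.1 hh.2.2.1 hh.2.2.2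
    have h1 := H1_of_four D σ hs hc h4 F3
    exact ⟨h1, H2_of_H1 D σ hs hc h4 h1⟩

/-- stem extensions of `SL_n(q)` are trivial outside the exceptional cases -/
theorem sl_stem_trivial [Finite K] [Fintype ι] [DecidableEq ι] (σ : Γ →* SpecialLinearGroup ι K)
    (hs : Function.Surjective σ) (hc : σ.ker ≤ Subgroup.center Γ) (hk : σ.ker ≤ commutator Γ)
    (h3 : 3 ≤ Fintype.card ι)
    (h32 : Fintype.card ι = 3 → Nat.card K ≠ 2 ∧ Nat.card K ≠ 4)
    (h42 : Fintype.card ι = 4 → Nat.card K ≠ 2) : ∀ z ∈ σ.ker, z = 1 := by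
  have : Nontrivial ι := Fintype.one_lt_card_iff_nontrivial.mp (by omega)
  obtain ⟨h1, h2⟩ := H12 (std ι K) σ hs hc h3 h32 h42
  have h3' : ∀ i j : ι, i ≠ j → ∃ k, k ≠ i ∧ k ≠ j := by
    intro i j _
    obtain ⟨k, hk⟩ := exists_notMem_finset ({i, j} : Finset ι)
      (lt_of_le_of_lt Finset.card_le_two (by omega))
    simp only [Finset.mem_insert, Finset.mem_singleton, not_or] at hk
    exact ⟨k, hk⟩
  obtain ⟨E, hE⟩ := lift_core (std ι K) σ hs hc h3' h1 h2
  have hπ : ∀ i j (h : i ≠ j) t, σ (E.x i j t) = SpecialLinearGroup.transvection h t := by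
    intro i j h t
    rw [hE i j h t, std_x h]
  have hsurj : ∀ g : SpecialLinearGroup ι K,
      ∃ a ∈ Subgroup.closure {g | ∃ i j t, i ≠ j ∧ g = E.x i j t}, σ a = g := by
    intro g
    refine Cfsg.Agent.Lib.Helper6.SL_transvection_induction
      (fun g => ∃ a ∈ Subgroup.closure {g | ∃ i j t, i ≠ j ∧ g = E.x i j t}, σ a = g) ?_ ?_ g
    · intro i j h c
      exact ⟨E.x i j c, Subgroup.subset_closure ⟨i, j, c, h, rfl⟩, hπ i j h c⟩
    · rintro A B ⟨a, ha, rfl⟩ ⟨b, hb, rfl⟩
      exact ⟨a * b, Subgroup.mul_mem _ ha hb, map_mul σ a b⟩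
  have hcomm : commutator Γ ≤ Subgroup.closure {g | ∃ i j t, i ≠ j ∧ g = E.x i j t} := by
    rw [commutator_eq_closure, Subgroup.closure_le]
    rintro _ ⟨a, b, rfl⟩
    obtain ⟨a', ha', hae⟩ := hsurj (σ a)
    obtain ⟨b', hb', hbe⟩ := hsurj (σ b)
    rw [SL2Cover.comm_congr σ hc hae.symm hbe.symm]
    rw [commutatorElement_def]
    exact Subgroup.mul_mem _ (Subgroup.mul_mem _ (Subgroup.mul_mem _ ha' hb')
      (Subgroup.inv_mem _ ha')) (Subgroup.inv_mem _ hb')
  intro z hz
  exact E.inj h3 σ hπ z (hcomm (hk hz)) hz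

end StN

end Cfsg.Agent.Lib.Helper85
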