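import Cfsg.Agent.Lib.Helper85.StNAb

set_option autoImplicit false
set_option linter.unusedSectionVars false

/-!
The parabolic decomposition used in the injectivity theorem for Steinberg data of type `A`.
-/

namespace Cfsg.Agent.Lib.Helper85

namespace StNT

open Matrix Subgroup

variable {ι K E : Type*} [DecidableEq ι] [Field K] [Group E] (D : StN ι K E)

/-- generators with both indices in `S` -/
def gL (S : Finset ι) : Set E := {g | ∃ i j t, i ∈ S ∧ j ∈ S ∧ i ≠ j ∧ g = D.x i j t}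

def row (o : ι) : ι → K → E := fun j t => D.x o j t

def col (o : ι) : ι → K → E := fun k t => D.x k o t

theorem gL_inv (S : Finset ι) : ∀ s ∈ gL D S, s⁻¹ ∈ gL D S := by
  rintro _ ⟨i, j, t, hi, hj, hij, rfl⟩
  exact ⟨i, j, -t, hi, hj, hij, (D.x_neg hij t).symm⟩

theorem row_inv {S : Finset ι} {o : ι} (ho : o ∉ S) : ∀ s ∈ gF (row D o) S, s⁻¹ ∈ gF (row D o) S := by
  rintro _ ⟨j, t, hj, rfl⟩
  exact ⟨j, -t, hj, (D.x_neg (ne_of_mem_of_not_mem hj ho).symm t).symm⟩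

theorem col_inv {S : Finset ι} {o : ι} (ho : o ∉ S) : ∀ s ∈ gF (col D o) S, s⁻¹ ∈ gF (col D o) S := by
  rintro _ ⟨j, t, hj, rfl⟩
  exact ⟨j, -t, hj, (D.x_neg (ne_of_mem_of_not_mem hj ho) t).symm⟩

theorem L_norm_row {S : Finset ι} {o : ι} (ho : o ∉ S) : ∀ l ∈ closure (gL D S),
    ∀ a ∈ closure (gF (row D o) S), l * a * l⁻¹ ∈ closure (gF (row D o) S) := by
  apply conj_mem_closure (gL_inv D S)
  rintro _ ⟨i, j, s, hi, hj, hij, rfl⟩ _ ⟨j', t, hj', rfl⟩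
  have hio : i ≠ o := ne_of_mem_of_not_mem hi ho
  have hjo : j ≠ o := ne_of_mem_of_not_mem hj ho
  have hj'o : j' ≠ o := ne_of_mem_of_not_mem hj' ho
  show D.x i j s * D.x o j' t * (D.x i j s)⁻¹ ∈ _
  by_cases h : j' = i
  · subst h
    rw [D.cj_rel' hj'o.symm hij hjo.symm]
    exact mul_mem (subset_closure ⟨j, _, hj, rfl⟩) (subset_closure ⟨j', _, hj', rfl⟩)
  · rw [D.cj_comm hij hj'o.symm (Ne.symm h) hjo]
    exact subset_closure ⟨j', t, hj', rfl⟩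

theorem L_norm_col {S : Finset ι} {o : ι} (ho : o ∉ S) : ∀ l ∈ closure (gL D S),
    ∀ a ∈ closure (gF (col D o) S), l * a * l⁻¹ ∈ closure (gF (col D o) S) := by
  apply conj_mem_closure (gL_inv D S)
  rintro _ ⟨i, j, s, hi, hj, hij, rfl⟩ _ ⟨k, t, hk, rfl⟩
  have hio : i ≠ o := ne_of_mem_of_not_mem hi ho
  have hjo : j ≠ o := ne_of_mem_of_not_mem hj ho
  have hko : k ≠ o := ne_of_mem_of_not_mem hk ho
  show D.x i j s * D.x k o t * (D.x i j s)⁻¹ ∈ _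
  by_cases h : k = j
  · subst h
    rw [D.cj_rel hij hko hio]
    exact mul_mem (subset_closure ⟨i, _, hi, rfl⟩) (subset_closure ⟨k, _, hk, rfl⟩)
  · rw [D.cj_comm hij hko hio (Ne.symm h)]
    exact subset_closure ⟨k, t, hk, rfl⟩

theorem dec_row {S : Finset ι} {o j₀ : ι} (ho : o ∉ S) (hj₀ : j₀ ∈ S) :
    ∀ a ∈ closure (gF (row D o) S), ∃ a' ∈ closure (gF (row D o) (S.erase j₀)), ∃ t,
      a = a' * D.x o j₀ t := by
  have hoj : o ≠ j₀ := (ne_of_mem_of_not_mem hj₀ ho).symm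
  refine closure_ind_right (row_inv D ho) ⟨1, one_mem _, 0, by rw [D.x_zero hoj, one_mul]⟩ ?_
  rintro _ _ ⟨j, u, hj, rfl⟩ ⟨a', ha', t, rfl⟩
  show ∃ a'' ∈ _, ∃ t', a' * D.x o j₀ t * D.x o j u = a'' * D.x o j₀ t'
  by_cases h : j = j₀
  · subst h
    exact ⟨a', ha', t + u, by rw [mul_assoc, D.add o j hoj]⟩
  · have hoj' : o ≠ j := (ne_of_mem_of_not_mem hj ho).symm
    refine ⟨a' * D.x o j u, mul_mem ha' (subset_closure ⟨j, u, Finset.mem_erase.2 ⟨h, hj⟩, rfl⟩), t, ?_⟩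
    rw [mul_assoc, D.comm o j₀ o j hoj hoj' hoj' hoj.symm, mul_assoc]

theorem dec_col {S : Finset ι} {o j₀ : ι} (ho : o ∉ S) (hj₀ : j₀ ∈ S) :
    ∀ a ∈ closure (gF (col D o) S), ∃ t, ∃ a' ∈ closure (gF (col D o) (S.erase j₀)),
      a = D.x j₀ o t * a' := by
  have hoj : j₀ ≠ o := ne_of_mem_of_not_mem hj₀ ho
  refine closure_ind_left (col_inv D ho) ⟨0, 1, one_mem _, by rw [D.x_zero hoj, one_mul]⟩ ?_
  rintro _ ⟨j, u, hj, rfl⟩ _ ⟨t, a', ha', rfl⟩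
  show ∃ t', ∃ a'' ∈ _, D.x j o u * (D.x j₀ o t * a') = D.x j₀ o t' * a''
  by_cases h : j = j₀
  · subst h
    exact ⟨u + t, a', ha', by rw [← mul_assoc, D.add j o hoj]⟩
  · have hoj' : j ≠ o := ne_of_mem_of_not_mem hj ho
    refine ⟨t, D.x j o u * a', mul_mem (subset_closure ⟨j, u, Finset.mem_erase.2 ⟨h, hj⟩, rfl⟩) ha', ?_⟩
    rw [← mul_assoc, D.comm j o j₀ o hoj' hoj hoj' hoj.symm, mul_assoc]

/-- the "parabolic" subgroup fixing the basis vector `e_o` -/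
def Qs (S : Finset ι) (o : ι) : Subgroup E := closure (gF (row D o) S ∪ gL D S)

theorem row_le_Qs (S : Finset ι) (o : ι) : closure (gF (row D o) S) ≤ Qs D S o :=
  closure_mono Set.subset_union_left

theorem L_le_Qs (S : Finset ι) (o : ι) : closure (gL D S) ≤ Qs D S o :=
  closure_mono Set.subset_union_right

theorem Qs_dec {S : Finset ι} {o : ι} (ho : o ∉ S) : ∀ q ∈ Qs D S o,
    ∃ a ∈ closure (gF (row D o) S), ∃ l ∈ closure (gL D S), q = a * l := by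
  intro q hq
  unfold Qs at hq
  rw [Subgroup.closure_union] at hq
  exact mem_sup_dec (L_norm_row D ho) q hq

theorem b_conj_row {S : Finset ι} {o j₀ : ι} (ho : o ∉ S) (hj₀ : j₀ ∈ S) (t : K) :
    ∀ a ∈ closure (gF (row D o) (S.erase j₀)), D.x j₀ o t * a * (D.x j₀ o t)⁻¹ ∈ Qs D S o := by
  have hoj : j₀ ≠ o := ne_of_mem_of_not_mem hj₀ ho
  apply conj_closure_le
  rintro _ ⟨j, s, hj, rfl⟩
  obtain ⟨hjj, hjS⟩ := Finset.mem_erase.1 hj
  have hoj' : o ≠ j := (ne_of_mem_of_not_mem hjS ho).symm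
  show D.x j₀ o t * D.x o j s * (D.x j₀ o t)⁻¹ ∈ _
  rw [D.cj_rel hoj hoj' (Ne.symm hjj)]
  exact mul_mem (subset_closure (Or.inr ⟨j₀, j, _, hj₀, hjS, Ne.symm hjj, rfl⟩))
    (subset_closure (Or.inl ⟨j, s, hjS, rfl⟩))

theorem col_conj_a {S : Finset ι} {o j₀ : ι} (ho : o ∉ S) (hj₀ : j₀ ∈ S) (z : K) :
    ∀ m ∈ closure (gF (col D o) (S.erase j₀)), m * D.x o j₀ z * m⁻¹ ∈ Qs D S o := by
  have hoj : j₀ ≠ o := ne_of_mem_of_not_mem hj₀ ho
  have ho' : o ∉ S.erase j₀ := fun h => ho (Finset.mem_of_mem_erase h)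
  have h1 : ∀ m ∈ closure (gF (col D o) (S.erase j₀)),
      ∀ d ∈ closure (gF (col D j₀) (insert o (S.erase j₀))),
        m * d * m⁻¹ ∈ closure (gF (col D j₀) (insert o (S.erase j₀))) := by
    apply conj_mem_closure (col_inv D ho')
    rintro _ ⟨k, s, hk, rfl⟩ _ ⟨k', u, hk', rfl⟩
    obtain ⟨hkj, hkS⟩ := Finset.mem_erase.1 hk
    have hko : k ≠ o := ne_of_mem_of_not_mem hkS ho
    show D.x k o s * D.x k' j₀ u * (D.x k o s)⁻¹ ∈ _
    rcases Finset.mem_insert.1 hk' with rfl | hk''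
    · rw [D.cj_rel hko hoj.symm hkj]
      exact mul_mem (subset_closure ⟨k, _, Finset.mem_insert_of_mem hk, rfl⟩)
        (subset_closure ⟨k', _, hk', rfl⟩)
    · obtain ⟨hk'j, hk'S⟩ := Finset.mem_erase.1 hk''
      have hk'o : k' ≠ o := ne_of_mem_of_not_mem hk'S ho
      rw [D.cj_comm hko hk'j hkj hk'o.symm]
      exact subset_closure ⟨k', u, hk', rfl⟩
  have h2 : closure (gF (col D j₀) (insert o (S.erase j₀))) ≤ Qs D S o := by
    rw [closure_le]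
    rintro _ ⟨k', u, hk', rfl⟩
    rcases Finset.mem_insert.1 hk' with rfl | hk''
    · exact subset_closure (Or.inl ⟨j₀, u, hj₀, rfl⟩)
    · obtain ⟨hk'j, hk'S⟩ := Finset.mem_erase.1 hk''
      exact subset_closure (Or.inr ⟨k', j₀, u, hk'S, hj₀, hk'j, rfl⟩)
  intro m hm
  exact h2 (h1 m hm _ (subset_closure ⟨o, z, Finset.mem_insert_self _ _, rfl⟩))

theorem h_conj_col {S : Finset ι} {o j₀ : ι} (ho : o ∉ S) (hj₀ : j₀ ∈ S) {c : K} (hc : c ≠ 0) :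
    ∀ m ∈ closure (gF (col D o) (S.erase j₀)),
      D.h o j₀ c * m * (D.h o j₀ c)⁻¹ ∈ closure (gF (col D o) (S.erase j₀)) := by
  have hoj : j₀ ≠ o := ne_of_mem_of_not_mem hj₀ ho
  apply conj_closure_le
  rintro _ ⟨k, s, hk, rfl⟩
  obtain ⟨hkj, hkS⟩ := Finset.mem_erase.1 hk
  have hko : k ≠ o := ne_of_mem_of_not_mem hkS ho
  show D.h o j₀ c * D.x k o s * (D.h o j₀ c)⁻¹ ∈ _
  rw [D.h_conj_col1 hoj.symm hko.symm (Ne.symm hkj) hc]
  exact subset_closure ⟨k, _, hk, rfl⟩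

theorem inv_conj {h : E} {x : K → E} {c : K} (hc : c ≠ 0) (H : ∀ t, h * x t * h⁻¹ = x (c * t)) (t : K) :
    h⁻¹ * x t * h⁻¹⁻¹ = x (c⁻¹ * t) := by
  have := H (c⁻¹ * t)
  rw [mul_inv_cancel_left₀ hc] at this
  rw [← this]
  group

theorem h_conj_Qs {S : Finset ι} {o j₀ k₀ : ι} (ho : o ∉ S) (hj₀ : j₀ ∈ S) (hk₀ : k₀ ∈ S)
    (hjk : j₀ ≠ k₀) {c : K} (hc : c ≠ 0) :
    ∀ q ∈ Qs D S o, (D.h o j₀ c)⁻¹ * q * (D.h o j₀ c)⁻¹⁻¹ ∈ Qs D S o := by
  have hoj : o ≠ j₀ := (ne_of_mem_of_not_mem hj₀ ho).symm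
  have hok : o ≠ k₀ := (ne_of_mem_of_not_mem hk₀ ho).symm
  apply conj_closure_le
  rintro _ (⟨j, t, hj, rfl⟩ | ⟨i, j, t, hi, hj, hij, rfl⟩)
  · show (D.h o j₀ c)⁻¹ * D.x o j t * (D.h o j₀ c)⁻¹⁻¹ ∈ _
    by_cases h : j = j₀
    · subst h
      rw [inv_conj (pow_ne_zero 2 hc) (fun t => D.h_conj_self hoj hok hjk hc t)]
      exact subset_closure (Or.inl ⟨j, _, hj, rfl⟩)
    · have hoj' : o ≠ j := (ne_of_mem_of_not_mem hj ho).symm
      rw [inv_conj hc (fun t => D.h_conj_row1 hoj hoj' (Ne.symm h) hc t)]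
      exact subset_closure (Or.inl ⟨j, _, hj, rfl⟩)
  · show (D.h o j₀ c)⁻¹ * D.x i j t * (D.h o j₀ c)⁻¹⁻¹ ∈ _
    have hoi : o ≠ i := (ne_of_mem_of_not_mem hi ho).symm
    have hoj' : o ≠ j := (ne_of_mem_of_not_mem hj ho).symm
    by_cases h1 : i = j₀
    · subst h1
      rw [inv_conj (inv_ne_zero hc) (fun t => D.h_conj_row2 hoj hoj' hij hc t)]
      exact subset_closure (Or.inr ⟨i, j, _, hi, hj, hij, rfl⟩)
    · by_cases h2 : j = j₀
      · subst h2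
        rw [inv_conj hc (fun t => D.h_conj_col2 hoj hoi (Ne.symm h1) hc t)]
        exact subset_closure (Or.inr ⟨i, j, _, hi, hj, hij, rfl⟩)
      · have e := D.h_comm hoj hij hoi hoj' (Ne.symm h1) (Ne.symm h2) c t
        have e' : (D.h o j₀ c)⁻¹ * D.x i j t * (D.h o j₀ c)⁻¹⁻¹ = D.x i j t := by
          nth_rewrite 1 [← e]
          group
        rw [e']
        exact subset_closure (Or.inr ⟨i, j, _, hi, hj, hij, rfl⟩)

end StNT

end Cfsg.Agent.Lib.Helper85
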