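import Cfsg.Agent.Lib.Helper85.StNBasic
import Cfsg.Agent.Lib.Helper85.St2Gen

set_option autoImplicit false

/-!
Tools for the injectivity theorem for Steinberg data of type `A`.
-/

namespace Cfsg.Agent.Lib.Helper85

namespace StNT

open Matrix Subgroup

section Closure

variable {E : Type*} [Group E]

theorem closure_ind_left {S : Set E} (hS : ∀ s ∈ S, s⁻¹ ∈ S) {p : E → Prop} (one : p 1)
    (mul : ∀ s ∈ S, ∀ y, p y → p (s * y)) : ∀ g ∈ closure S, p g := by
  intro g hg
  induction hg using closure_induction_left with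
  | one => exact one
  | mul_left x hx y _ ih => exact mul x hx y ih
  | inv_mul_cancel x hx y _ ih => exact mul _ (hS x hx) y ih

theorem closure_ind_right {S : Set E} (hS : ∀ s ∈ S, s⁻¹ ∈ S) {p : E → Prop} (one : p 1)
    (mul : ∀ y, ∀ s ∈ S, p y → p (y * s)) : ∀ g ∈ closure S, p g := by
  intro g hg
  induction hg using closure_induction_right with
  | one => exact one
  | mul_right x _ y hy ih => exact mul x y hy ih
  | mul_inv_cancel x _ y hy ih => exact mul x _ (hS y hy) ih

/-- if the (inverse-closed) generators `S` conjugate the generators `T` into a subgroup `N ≥ T`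
generated by `T`, then `closure S` normalises `closure T` -/
theorem conj_mem_closure {S T : Set E} (hS : ∀ s ∈ S, s⁻¹ ∈ S)
    (h : ∀ s ∈ S, ∀ t ∈ T, s * t * s⁻¹ ∈ closure T) :
    ∀ g ∈ closure S, ∀ d ∈ closure T, g * d * g⁻¹ ∈ closure T := by
  have h1 : ∀ s ∈ S, ∀ d ∈ closure T, s * d * s⁻¹ ∈ closure T := by
    intro s hs d hd
    induction hd using closure_induction with
    | mem x hx => exact h s hs x hx
    | one => simp
    | mul a b _ _ iha ihb =>
      have e : s * (a * b) * s⁻¹ = (s * a * s⁻¹) * (s * b * s⁻¹) := by group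
      rw [e]; exact mul_mem iha ihb
    | inv a _ iha =>
      have e : s * a⁻¹ * s⁻¹ = (s * a * s⁻¹)⁻¹ := by group
      rw [e]; exact inv_mem iha
  refine closure_ind_left hS (p := fun g => ∀ d ∈ closure T, g * d * g⁻¹ ∈ closure T) ?_ ?_
  · intro d hd; simpa using hd
  · intro s hs y ih d hd
    have e : s * y * d * (s * y)⁻¹ = s * (y * d * y⁻¹) * s⁻¹ := by group
    rw [e]
    exact h1 s hs _ (ih d hd)

/-- a single element conjugating the generators `T` into the subgroup `N` conjugates `closure T`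
into `N` -/
theorem conj_closure_le {T : Set E} {N : Subgroup E} (s : E) (h : ∀ t ∈ T, s * t * s⁻¹ ∈ N) :
    ∀ d ∈ closure T, s * d * s⁻¹ ∈ N := by
  intro d hd
  induction hd using closure_induction with
  | mem x hx => exact h x hx
  | one => simp
  | mul a b _ _ iha ihb =>
    have e : s * (a * b) * s⁻¹ = (s * a * s⁻¹) * (s * b * s⁻¹) := by group
    rw [e]; exact mul_mem iha ihb
  | inv a _ iha =>
    have e : s * a⁻¹ * s⁻¹ = (s * a * s⁻¹)⁻¹ := by group
    rw [e]; exact inv_mem iha

/-- elements of `A ⊔ L` when `L` normalises `A` -/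
theorem mem_sup_dec {A L : Subgroup E} (hn : ∀ l ∈ L, ∀ a ∈ A, l * a * l⁻¹ ∈ A) :
    ∀ q ∈ A ⊔ L, ∃ a ∈ A, ∃ l ∈ L, q = a * l := by
  rw [sup_eq_closure]
  apply closure_ind_right
  · rintro s (hs | hs)
    · exact Or.inl (inv_mem hs)
    · exact Or.inr (inv_mem hs)
  · exact ⟨1, one_mem _, 1, one_mem _, by simp⟩
  · rintro y s hs ⟨a, ha, l, hl, rfl⟩
    rcases hs with hs | hs
    · exact ⟨a * (l * s * l⁻¹), mul_mem ha (hn l hl s hs), l, hl, by group⟩
    · exact ⟨a, ha, l * s, mul_mem hl hs, by group⟩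

end Closure

section Mat

variable {ι K : Type*} [Fintype ι] [DecidableEq ι] [Field K]

theorem tv_mul_apply {i j : ι} (h : i ≠ j) (t : K) (X : SpecialLinearGroup ι K) (a b : ι) :
    (SpecialLinearGroup.transvection h t * X) a b = X a b + if a = i then t * X j b else 0 := by
  have e : (SpecialLinearGroup.transvection h t * X) a b =
      (((1 : Matrix ι ι K) + Matrix.single i j t) * (X : Matrix ι ι K)) a b := rfl
  rw [e, add_mul, one_mul, Matrix.add_apply]
  congr 1
  by_cases ha : a = i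
  · subst ha
    simp
  · rw [if_neg ha]
    simp [Matrix.mul_apply, Matrix.single_apply, Ne.symm ha]

end Mat

section SL2

variable {K : Type*} [Field K]

theorem sl2_induction {p : SpecialLinearGroup (Fin 2) K → Prop} (one : p 1)
    (hup : ∀ t m, p m → p (SL2.up t * m)) (hlo : ∀ t m, p m → p (SL2.lo t * m)) : ∀ m, p m := by
  intro m
  have hm : m ∈ lowerUnipotentSL2 K ⊔ upperUnipotentSL2 K := by rw [SL2.sup_eq_top]; trivial
  rw [sup_eq_closure] at hm
  revert m
  apply closure_ind_left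
  · rintro s (hs | hs)
    · exact Or.inl (inv_mem hs)
    · exact Or.inr (inv_mem hs)
  · exact one
  · rintro s (hs | hs) y ih
    · obtain ⟨t, rfl⟩ := SL2.mem_lower_iff.1 hs
      exact hlo t y ih
    · obtain ⟨t, rfl⟩ := SL2.mem_upper_iff.1 hs
      exact hup t y ih

theorem std_h_entries {t : K} (ht : t ≠ 0) :
    (SL2.stdSt2 K).h t 0 0 = t ∧ (SL2.stdSt2 K).h t 0 1 = 0 ∧ (SL2.stdSt2 K).h t 1 0 = 0 ∧
      (SL2.stdSt2 K).h t 1 1 = t⁻¹ :=
  (SL2.stdSt2 K).pi_h_entries (MonoidHom.id _) (fun _ => rfl) (fun _ => rfl) ht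

/-- every element of `SL₂` is `up x * lo c * h a * up z` -/
theorem sl2_dec (m : SpecialLinearGroup (Fin 2) K) :
    ∃ x c a z : K, a ≠ 0 ∧ m = SL2.up x * SL2.lo c * (SL2.stdSt2 K).h a * SL2.up z := by
  have hdet := SL2.det_eq m
  by_cases hc : m 1 0 = 0
  · have h00 : m 0 0 ≠ 0 := by
      intro h
      rw [h, hc] at hdet
      simp at hdet
    obtain ⟨a1, a2, a3, a4⟩ := std_h_entries h00
    refine ⟨0, 0, m 0 0, (m 0 0)⁻¹ * m 0 1, h00, ?_⟩
    rw [hc, mul_zero, sub_zero] at hdet
    rw [SL2.up_zero, SL2.lo_zero, one_mul, one_mul]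
    apply SL2.ext2 <;> simp [SL2.mul_entry, a1, a2, a3, a4, hc]
    · field_simp
    · field_simp
      linear_combination hdet
  · obtain ⟨a1, a2, a3, a4⟩ := std_h_entries (one_ne_zero (α := K))
    refine ⟨(m 0 0 - 1) / m 1 0, m 1 0, 1, (m 1 1 - 1) / m 1 0, one_ne_zero, ?_⟩
    apply SL2.ext2 <;> simp [SL2.mul_entry, a1, a2, a3, a4]
    · field_simp
      ring
    · field_simp
      linear_combination (-1 : K) * hdet
    · field_simp
      ring

end SL2

end StNT

end Cfsg.Agent.Lib.Helper85
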