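import Mathlib
import Cfsg.Prelude.Def_RootSubgroups
import Cfsg.Agent.Lib.Helper85.RankOne

set_option autoImplicit false

namespace Cfsg.Agent.Lib.Helper85

open Cfsg

section UniFlag
variable {k : Type*} [Field k] {M : Type*} [AddCommGroup M] [Module k M]

/-- an ascending flag of subspaces from `⊥` to `⊤` -/
structure Flag (k : Type*) [Field k] (M : Type*) [AddCommGroup M] [Module k M] where
  F : ℕ → Submodule k M
  zero : F 0 = ⊥
  mono : Monotone F
  top : ∃ n, F n = ⊤

/-- endomorphisms lowering the flag by `j` steps -/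
def Flag.fil (F : Flag k M) (j : ℕ) : Submodule k (M →ₗ[k] M) where
  carrier := {x | ∀ i, ∀ m ∈ F.F (i + j), x m ∈ F.F i}
  add_mem' := by
    intro x y hx hy i m hm
    rw [LinearMap.add_apply]
    exact add_mem (hx i m hm) (hy i m hm)
  zero_mem' := by
    intro i m _
    rw [LinearMap.zero_apply]
    exact zero_mem _
  smul_mem' := by
    intro c x hx i m hm
    rw [LinearMap.smul_apply]
    exact Submodule.smul_mem _ c (hx i m hm)

theorem Flag.mem_fil {F : Flag k M} {j : ℕ} {x : M →ₗ[k] M} :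
    x ∈ F.fil j ↔ ∀ i, ∀ m ∈ F.F (i + j), x m ∈ F.F i := Iff.rfl

theorem Flag.fil_mul {F : Flag k M} {a b : ℕ} {x y : M →ₗ[k] M} (hx : x ∈ F.fil a)
    (hy : y ∈ F.fil b) : x * y ∈ F.fil (a + b) := by
  intro i m hm
  rw [Module.End.mul_apply]
  apply hx i
  apply hy (i + a)
  rwa [add_assoc]

theorem Flag.fil_anti (F : Flag k M) {a b : ℕ} (h : a ≤ b) : F.fil b ≤ F.fil a := by
  intro x hx i m hm
  exact hx i m (F.mono (by omega) hm)

theorem Flag.fil_eq_bot {F : Flag k M} {n j : ℕ} (hn : F.F n = ⊤) (h : n ≤ j) :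
    F.fil j = ⊥ := by
  rw [eq_bot_iff]
  intro x hx
  rw [Submodule.mem_bot]
  ext m
  have h1 : m ∈ F.F (0 + j) := by
    have : F.F n ≤ F.F (0 + j) := F.mono (by omega)
    rw [hn] at this
    exact this trivial
  have h2 := hx 0 m h1
  rw [F.zero, Submodule.mem_bot] at h2
  rw [h2, LinearMap.zero_apply]

theorem Flag.one_mem_fil (F : Flag k M) : (1 : M →ₗ[k] M) ∈ F.fil 0 := by
  intro i m hm
  simpa using hm

theorem Flag.prod_mem_fil (F : Flag k M) (l : List (M →ₗ[k] M)) (h : ∀ x ∈ l, x ∈ F.fil 1) :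
    l.prod ∈ F.fil l.length := by
  induction l with
  | nil => exact F.one_mem_fil
  | cons x l ih =>
    rw [List.prod_cons, List.length_cons, add_comm]
    exact Flag.fil_mul (h x (by simp)) (ih (fun y hy => h y (by simp [hy])))

/-- the stabiliser of a flag: the group elements `g` with `g - 1` lowering the flag -/
def Flag.stab (F : Flag k M) : Subgroup (LinearMap.GeneralLinearGroup k M) where
  carrier := {g | (g : M →ₗ[k] M) - 1 ∈ F.fil 1 ∧
    ((g⁻¹ : LinearMap.GeneralLinearGroup k M) : M →ₗ[k] M) - 1 ∈ F.fil 1}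
  mul_mem' := by
    have key : ∀ g h : LinearMap.GeneralLinearGroup k M, (g : M →ₗ[k] M) - 1 ∈ F.fil 1 →
        (h : M →ₗ[k] M) - 1 ∈ F.fil 1 →
        ((g * h : LinearMap.GeneralLinearGroup k M) : M →ₗ[k] M) - 1 ∈ F.fil 1 := by
      intro g h hg hh
      have e : ((g * h : LinearMap.GeneralLinearGroup k M) : M →ₗ[k] M) - 1
          = ((g : M →ₗ[k] M) - 1) * ((h : M →ₗ[k] M) - 1) + ((g : M →ₗ[k] M) - 1)
            + ((h : M →ₗ[k] M) - 1) := by
        rw [Units.val_mul]; noncomm_ring
      rw [e]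
      exact add_mem (add_mem (F.fil_anti (by norm_num) (Flag.fil_mul hg hh)) hg) hh
    intro g h hg hh
    refine ⟨key g h hg.1 hh.1, ?_⟩
    rw [mul_inv_rev]
    exact key _ _ hh.2 hg.2
  one_mem' := by
    constructor
    · simp
    · simp
  inv_mem' := by
    intro g hg
    refine ⟨hg.2, ?_⟩
    rw [inv_inv]
    exact hg.1

theorem Flag.le_stab {F : Flag k M} {A : Subgroup (LinearMap.GeneralLinearGroup k M)}
    (h : ∀ g ∈ A, (g : M →ₗ[k] M) - 1 ∈ F.fil 1) : A ≤ F.stab :=
  fun g hg => ⟨h g hg, h _ (inv_mem hg)⟩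

theorem Flag.sub_of_le_stab {F : Flag k M} {A : Subgroup (LinearMap.GeneralLinearGroup k M)}
    (h : A ≤ F.stab) {g : LinearMap.GeneralLinearGroup k M} (hg : g ∈ A) :
    (g : M →ₗ[k] M) - 1 ∈ F.fil 1 := (h hg).1

theorem isUnipotentOn_iff' (H : Subgroup (LinearMap.GeneralLinearGroup k M)) :
    IsUnipotentOn H ↔ ∃ n : ℕ, ∀ l : List (LinearMap.GeneralLinearGroup k M), (∀ g ∈ l, g ∈ H) →
      l.length = n →
      (l.map (fun g : LinearMap.GeneralLinearGroup k M => (g : M →ₗ[k] M) - 1)).prod = 0 := by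
  unfold IsUnipotentOn
  have e : ∀ l : List (LinearMap.GeneralLinearGroup k M),
      (List.map (fun g : M →ₗ[k] M => g - 1) (do let a ← l; pure (a : M →ₗ[k] M)))
      = l.map (fun g : LinearMap.GeneralLinearGroup k M => (g : M →ₗ[k] M) - 1) := by
    intro l
    have : (do let a ← l; pure (a : M →ₗ[k] M))
        = l.map (fun a : LinearMap.GeneralLinearGroup k M => (a : M →ₗ[k] M)) := by
      induction l with
      | nil => rfl
      | cons a l ih =>
        rw [List.map_cons, ← ih]
        rfl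
    rw [this, List.map_map]
    rfl
  simp only [e]

theorem unipotent_of_le_stab {F : Flag k M} {H : Subgroup (LinearMap.GeneralLinearGroup k M)}
    (h : H ≤ F.stab) : IsUnipotentOn H := by
  rw [isUnipotentOn_iff']
  obtain ⟨n, hn⟩ := F.top
  refine ⟨n, fun l hl hlen => ?_⟩
  have h1 := F.prod_mem_fil (l.map fun g : LinearMap.GeneralLinearGroup k M => (g : M →ₗ[k] M) - 1) (by
    intro x hx
    rw [List.mem_map] at hx
    obtain ⟨g, hg, rfl⟩ := hx
    exact Flag.sub_of_le_stab h (hl g hg))
  rw [List.length_map, hlen, Flag.fil_eq_bot hn le_rfl, Submodule.mem_bot] at h1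
  exact h1

theorem exists_flag_of_unipotent {H : Subgroup (LinearMap.GeneralLinearGroup k M)}
    (h : IsUnipotentOn H) : ∃ F : Flag k M, H ≤ F.stab := by
  rw [isUnipotentOn_iff'] at h
  obtain ⟨n, hn⟩ := h
  let Fs : ℕ → Submodule k M := fun i =>
    { carrier := {m | ∀ l : List (LinearMap.GeneralLinearGroup k M), (∀ g ∈ l, g ∈ H) →
        l.length = i → (l.map fun g : LinearMap.GeneralLinearGroup k M => (g : M →ₗ[k] M) - 1).prod m = 0}
      add_mem' := by
        intro a b ha hb l hl hlen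
        rw [map_add, ha l hl hlen, hb l hl hlen, add_zero]
      zero_mem' := by
        intro l _ _
        rw [map_zero]
      smul_mem' := by
        intro c a ha l hl hlen
        rw [map_smul, ha l hl hlen, smul_zero] }
  have hmem : ∀ i m, m ∈ Fs i ↔ ∀ l : List (LinearMap.GeneralLinearGroup k M),
      (∀ g ∈ l, g ∈ H) → l.length = i → (l.map fun g : LinearMap.GeneralLinearGroup k M => (g : M →ₗ[k] M) - 1).prod m = 0 :=
    fun _ _ => Iff.rfl
  refine ⟨⟨Fs, ?_, ?_, ⟨n, ?_⟩⟩, ?_⟩
  · rw [eq_bot_iff]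
    intro m hm
    have := (hmem 0 m).mp hm [] (by simp) rfl
    simpa using this
  · apply monotone_nat_of_le_succ
    intro i m hm
    rw [hmem] at hm ⊢
    intro l hl hlen
    cases l with
    | nil => simp at hlen
    | cons g l =>
      rw [List.map_cons, List.prod_cons, Module.End.mul_apply,
        hm l (fun x hx => hl x (by simp [hx])) (by simpa using hlen), map_zero]
  · rw [eq_top_iff]
    intro m _
    rw [hmem]
    intro l hl hlen
    rw [hn l hl hlen, LinearMap.zero_apply]
  · apply Flag.le_stab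
    intro g hg i m hm
    show _ ∈ Fs i
    have hm' : m ∈ Fs (i + 1) := hm
    rw [hmem] at hm' ⊢
    intro l hl hlen
    have := hm' (l ++ [g]) (by
      intro x hx
      rw [List.mem_append, List.mem_singleton] at hx
      rcases hx with hx | rfl
      · exact hl x hx
      · exact hg) (by simp [hlen])
    rw [List.map_append, List.prod_append, Module.End.mul_apply] at this
    simpa using this

end UniFlag

end Cfsg.Agent.Lib.Helper85
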