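import Mathlib
import Cfsg.Prelude.Def_RootSubgroups
import Cfsg.Agent.Lib.Helper85.UniFlag

set_option autoImplicit false

namespace Cfsg.Agent.Lib.Helper85

open Cfsg

section UniFlag2
variable {k : Type*} [Field k] {M : Type*} [AddCommGroup M] [Module k M]

/-- the upper series of a set of endomorphisms -/
def Zs (S : Set (M →ₗ[k] M)) : ℕ → Submodule k M
  | 0 => ⊥
  | (i + 1) => ⨅ x ∈ S, (Zs S i).comap x

theorem mem_Zs_succ {S : Set (M →ₗ[k] M)} {i : ℕ} {m : M} :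
    m ∈ Zs S (i + 1) ↔ ∀ x ∈ S, x m ∈ Zs S i := by
  show m ∈ ⨅ x ∈ S, (Zs S i).comap x ↔ _
  simp only [Submodule.mem_iInf, Submodule.mem_comap]

theorem Zs_le_succ (S : Set (M →ₗ[k] M)) (i : ℕ) : Zs S i ≤ Zs S (i + 1) := by
  induction i with
  | zero => exact bot_le
  | succ i ih =>
    intro m hm
    rw [mem_Zs_succ] at hm ⊢
    intro x hx
    exact ih (hm x hx)

theorem Zs_inv {S : Set (M →ₗ[k] M)} {i : ℕ} {x : M →ₗ[k] M} (hx : x ∈ S) {m : M}
    (hm : m ∈ Zs S i) : x m ∈ Zs S i := by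
  cases i with
  | zero =>
    have : m = 0 := by simpa [Zs] using hm
    rw [this, map_zero]; exact zero_mem _
  | succ i => exact Zs_le_succ S i (mem_Zs_succ.mp hm x hx)

theorem exists_flag_of_growth [FiniteDimensional k M] (S : Set (M →ₗ[k] M))
    (h : ∀ Z : Submodule k M, Z ≠ ⊤ → (∀ x ∈ S, ∀ m ∈ Z, x m ∈ Z) →
      ∃ m, m ∉ Z ∧ ∀ x ∈ S, x m ∈ Z) :
    ∃ F : Flag k M, ∀ x ∈ S, x ∈ F.fil 1 := by
  have hgrow : ∀ i, Zs S i = ⊤ ∨ i ≤ Module.finrank k (Zs S i) := by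
    intro i
    induction i with
    | zero => right; exact Nat.zero_le _
    | succ i ih =>
      rcases ih with ih | ih
      · left
        rw [eq_top_iff, ← ih]
        exact Zs_le_succ S i
      · by_cases htop : Zs S i = ⊤
        · left
          rw [eq_top_iff, ← htop]
          exact Zs_le_succ S i
        · right
          obtain ⟨m, hm, hm'⟩ := h _ htop (fun x hx m hm => Zs_inv hx hm)
          have hlt : Zs S i < Zs S (i + 1) := by
            refine lt_of_le_of_ne (Zs_le_succ S i) ?_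
            intro heq
            apply hm
            rw [heq]
            exact mem_Zs_succ.mpr hm'
          have := Submodule.finrank_lt_finrank_of_lt hlt
          omega
  have htop : Zs S (Module.finrank k M + 1) = ⊤ := by
    rcases hgrow (Module.finrank k M + 1) with h1 | h1
    · exact h1
    · have := Submodule.finrank_le (Zs S (Module.finrank k M + 1))
      omega
  refine ⟨⟨Zs S, rfl, monotone_nat_of_le_succ (Zs_le_succ S), ⟨_, htop⟩⟩, ?_⟩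
  intro x hx i m hm
  exact mem_Zs_succ.mp hm x hx

theorem rel_fixed (F : Flag k M) (S : Set (M →ₗ[k] M)) (hS : ∀ x ∈ S, x ∈ F.fil 1)
    (Y Z : Submodule k M) (hYZ : ¬ Y ≤ Z) (hinv : ∀ x ∈ S, ∀ m ∈ Y, x m ∈ Y) :
    ∃ m ∈ Y, m ∉ Z ∧ ∀ x ∈ S, x m ∈ Z := by
  classical
  have hex : ∃ i, ¬ (F.F i ⊓ Y ≤ Z) := by
    obtain ⟨n, hn⟩ := F.top
    exact ⟨n, by rw [hn, top_inf_eq]; exact hYZ⟩
  obtain ⟨i₀, hi₀⟩ : ∃ i₀, i₀ = Nat.find hex := ⟨_, rfl⟩
  have h1 : ¬ (F.F i₀ ⊓ Y ≤ Z) := by rw [hi₀]; exact Nat.find_spec hex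
  cases i₀ with
  | zero =>
    exfalso
    apply h1
    rw [F.zero, bot_inf_eq]
    exact bot_le
  | succ i =>
    have h2 : F.F i ⊓ Y ≤ Z := by
      by_contra hcon
      have := Nat.find_min' hex hcon
      omega
    obtain ⟨m, hm, hmZ⟩ := SetLike.not_le_iff_exists.mp h1
    refine ⟨m, hm.2, hmZ, fun x hx => h2 ⟨hS x hx i m hm.1, hinv x hx m hm.2⟩⟩

theorem exists_flag_extend [FiniteDimensional k M]
    {Γ : Set (Subgroup (LinearMap.GeneralLinearGroup k M))}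
    {A A' : Subgroup (LinearMap.GeneralLinearGroup k M)} {F₁ E : Flag k M}
    (hΓ : ∀ B ∈ Γ, B ≤ F₁.stab) (hA : A ≤ E.stab) (hA' : A' ≤ E.stab)
    (hn : ∀ g ∈ A, ∀ B ∈ Γ, conjBy B g ∈ Γ) (hn' : ∀ g ∈ A', ∀ B ∈ Γ, conjBy B g ∈ Γ) :
    ∃ F₃ : Flag k M, (∀ B ∈ Γ, B ≤ F₃.stab) ∧ A ≤ F₃.stab ∧ A' ≤ F₃.stab := by
  obtain ⟨SΓ, hSΓ⟩ : ∃ S : Set (M →ₗ[k] M),
    S = {x | ∃ B ∈ Γ, ∃ h ∈ B, x = (h : M →ₗ[k] M) - 1} := ⟨_, rfl⟩
  obtain ⟨SH, hSH⟩ : ∃ S : Set (M →ₗ[k] M),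
    S = {x | ∃ g : LinearMap.GeneralLinearGroup k M, (g ∈ A ∨ g ∈ A') ∧
      x = (g : M →ₗ[k] M) - 1} := ⟨_, rfl⟩
  have hnn : ∀ g : LinearMap.GeneralLinearGroup k M, (g ∈ A ∨ g ∈ A') →
      ∀ B ∈ Γ, conjBy B g⁻¹ ∈ Γ := by
    rintro g (hg | hg) B hB
    · exact hn _ (inv_mem hg) B hB
    · exact hn' _ (inv_mem hg) B hB
  have key : ∃ F : Flag k M, ∀ x ∈ SΓ ∪ SH, x ∈ F.fil 1 := by
    apply exists_flag_of_growth
    intro Z hZ hinv
    obtain ⟨Y, hY⟩ : ∃ Y : Submodule k M, Y = ⨅ x ∈ SΓ, Z.comap x := ⟨_, rfl⟩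
    have hmemY : ∀ m, m ∈ Y ↔ ∀ x ∈ SΓ, x m ∈ Z := by
      intro m
      rw [hY]
      simp only [Submodule.mem_iInf, Submodule.mem_comap]
    have s1 : ¬ Y ≤ Z := by
      obtain ⟨m, _, hmZ, hm⟩ := rel_fixed F₁ SΓ (by
        intro x hx
        rw [hSΓ] at hx
        obtain ⟨B, hB, h, hh, rfl⟩ := hx
        exact Flag.sub_of_le_stab (hΓ B hB) hh) ⊤ Z (by rwa [top_le_iff])
        (fun _ _ _ _ => trivial)
      intro hle
      exact hmZ (hle ((hmemY m).mpr hm))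
    have s2 : ∀ x ∈ SH, ∀ m ∈ Y, x m ∈ Y := by
      intro x hx m hm
      rw [hSH] at hx
      obtain ⟨g, hg, rfl⟩ := hx
      rw [hmemY] at hm ⊢
      intro y hy
      have hy0 := hy
      rw [hSΓ] at hy
      obtain ⟨B, hB, h, hh, rfl⟩ := hy
      -- h' = g⁻¹ h g
      have hh' : g⁻¹ * h * g ∈ conjBy B g⁻¹ := by
        rw [mem_conjBy]
        simpa [mul_assoc] using hh
      have m1 : (((g⁻¹ * h * g : LinearMap.GeneralLinearGroup k M) : M →ₗ[k] M) - 1) m ∈ Z :=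
        hm _ (by rw [hSΓ]; exact ⟨_, hnn g hg B hB, _, hh', rfl⟩)
      have m2 : ((h : M →ₗ[k] M) - 1) m ∈ Z := hm _ hy0
      have gZ : ∀ z ∈ Z, (g : M →ₗ[k] M) z ∈ Z := by
        intro z hz
        have h3 : ((g : M →ₗ[k] M) - 1) z ∈ Z :=
          hinv _ (Or.inr (by rw [hSH]; exact ⟨g, hg, rfl⟩)) z hz
        have h4 : (g : M →ₗ[k] M) z = ((g : M →ₗ[k] M) - 1) z + z := by
          simp
        rw [h4]
        exact add_mem h3 hz
      have e1 : ((h : M →ₗ[k] M) - 1) (((g : M →ₗ[k] M) - 1) m)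
          = (g : M →ₗ[k] M)
              ((((g⁻¹ * h * g : LinearMap.GeneralLinearGroup k M) : M →ₗ[k] M) - 1) m)
            - ((h : M →ₗ[k] M) - 1) m := by
        have e2 : (g : M →ₗ[k] M) *
            (((g⁻¹ * h * g : LinearMap.GeneralLinearGroup k M) : M →ₗ[k] M) - 1)
            = ((h : M →ₗ[k] M) - 1) * (g : M →ₗ[k] M) := by
          have e4 : g * (g⁻¹ * h * g) = h * g := by group
          rw [mul_sub, sub_mul, ← Units.val_mul, e4, Units.val_mul, mul_one, one_mul]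
        have e3 := congrArg (fun f : M →ₗ[k] M => f m) e2
        simp only [Module.End.mul_apply] at e3
        rw [e3]
        simp only [LinearMap.sub_apply, Module.End.one_apply, map_sub]
      rw [e1]
      exact sub_mem (gZ _ m1) m2
    obtain ⟨m, hmY, hmZ, hm⟩ := rel_fixed E SH (by
      intro x hx
      rw [hSH] at hx
      obtain ⟨g, hg | hg, rfl⟩ := hx
      · exact Flag.sub_of_le_stab hA hg
      · exact Flag.sub_of_le_stab hA' hg) Y Z s1 s2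
    refine ⟨m, hmZ, ?_⟩
    rintro x (hx | hx)
    · exact (hmemY m).mp hmY x hx
    · exact hm x hx
  obtain ⟨F, hF⟩ := key
  refine ⟨F, fun B hB => ?_, ?_, ?_⟩
  · apply Flag.le_stab
    intro h hh
    exact hF _ (Or.inl (by rw [hSΓ]; exact ⟨B, hB, h, hh, rfl⟩))
  · apply Flag.le_stab
    intro g hg
    exact hF _ (Or.inr (by rw [hSH]; exact ⟨g, Or.inl hg, rfl⟩))
  · apply Flag.le_stab
    intro g hg
    exact hF _ (Or.inr (by rw [hSH]; exact ⟨g, Or.inr hg, rfl⟩))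

end UniFlag2

end Cfsg.Agent.Lib.Helper85
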