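import Mathlib
import Cfsg.Prelude.Def_RootSubgroups
import Cfsg.Agent.Lib.Helper85.UniFlag2

set_option autoImplicit false

namespace Cfsg.Agent.Lib.Helper85

open Cfsg

section UniFlag3
variable {k : Type*} [Field k] {M : Type*} [AddCommGroup M] [Module k M]

/-- `𝔡 = fil F₁ 1 ⊓ fil F₂ 1` -/
def dd (F₁ F₂ : Flag k M) : Submodule k (M →ₗ[k] M) := F₁.fil 1 ⊓ F₂.fil 1

/-- `T j = 𝔡 ⊔ fil F₁ j` -/
def TT (F₁ F₂ : Flag k M) (j : ℕ) : Submodule k (M →ₗ[k] M) := dd F₁ F₂ ⊔ F₁.fil j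

theorem dd_mul {F₁ F₂ : Flag k M} {x y : M →ₗ[k] M} (hx : x ∈ dd F₁ F₂) (hy : y ∈ dd F₁ F₂) :
    x * y ∈ dd F₁ F₂ :=
  ⟨F₁.fil_anti (by norm_num) (Flag.fil_mul hx.1 hy.1),
    F₂.fil_anti (by norm_num) (Flag.fil_mul hx.2 hy.2)⟩

theorem dd_le_TT (F₁ F₂ : Flag k M) (j : ℕ) : dd F₁ F₂ ≤ TT F₁ F₂ j := le_sup_left

theorem fil_le_TT (F₁ F₂ : Flag k M) (j : ℕ) : F₁.fil j ≤ TT F₁ F₂ j := le_sup_right

theorem TT_le_fil (F₁ F₂ : Flag k M) {j : ℕ} (hj : 1 ≤ j) : TT F₁ F₂ j ≤ F₁.fil 1 :=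
  sup_le inf_le_left (F₁.fil_anti hj)

theorem TT_mul_dd {F₁ F₂ : Flag k M} {j : ℕ} {y x : M →ₗ[k] M} (hy : y ∈ TT F₁ F₂ j)
    (hx : x ∈ dd F₁ F₂) : y * x ∈ TT F₁ F₂ (j + 1) := by
  obtain ⟨d, hd, f, hf, rfl⟩ := Submodule.mem_sup.mp hy
  rw [add_mul]
  exact add_mem (dd_le_TT _ _ _ (dd_mul hd hx)) (fil_le_TT _ _ _ (Flag.fil_mul hf hx.1))

theorem dd_mul_TT {F₁ F₂ : Flag k M} {j : ℕ} {y x : M →ₗ[k] M} (hx : x ∈ dd F₁ F₂)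
    (hy : y ∈ TT F₁ F₂ j) : x * y ∈ TT F₁ F₂ (j + 1) := by
  obtain ⟨d, hd, f, hf, rfl⟩ := Submodule.mem_sup.mp hy
  rw [mul_add]
  refine add_mem (dd_le_TT _ _ _ (dd_mul hx hd)) (fil_le_TT _ _ _ ?_)
  rw [add_comm]
  exact Flag.fil_mul hx.1 hf

theorem TT_mul_TT {F₁ F₂ : Flag k M} {j : ℕ} {u y : M →ₗ[k] M} (hu : u ∈ TT F₁ F₂ (j + 1))
    (hy : y ∈ TT F₁ F₂ j) : u * y ∈ TT F₁ F₂ (j + 1) := by
  obtain ⟨d, hd, f, hf, rfl⟩ := Submodule.mem_sup.mp hu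
  obtain ⟨d', hd', f', hf', rfl⟩ := Submodule.mem_sup.mp hy
  rw [add_mul, mul_add, mul_add]
  refine add_mem (add_mem (dd_le_TT _ _ _ (dd_mul hd hd')) (fil_le_TT _ _ _ ?_))
    (add_mem (fil_le_TT _ _ _ ?_) (fil_le_TT _ _ _ ?_))
  · rw [add_comm]
    exact Flag.fil_mul hd.1 hf'
  · exact F₁.fil_anti (by omega) (Flag.fil_mul hf hd'.1)
  · exact F₁.fil_anti (by omega) (Flag.fil_mul hf hf')

theorem conj_mem_TT {F₁ F₂ : Flag k M} {j : ℕ} {g h : LinearMap.GeneralLinearGroup k M}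
    (hg : (g : M →ₗ[k] M) - 1 ∈ TT F₁ F₂ j)
    (hg' : ((g⁻¹ : LinearMap.GeneralLinearGroup k M) : M →ₗ[k] M) - 1 ∈ TT F₁ F₂ j)
    (hh : (h : M →ₗ[k] M) - 1 ∈ dd F₁ F₂) :
    ((g * h * g⁻¹ : LinearMap.GeneralLinearGroup k M) : M →ₗ[k] M) - 1 ∈ TT F₁ F₂ (j + 1) := by
  obtain ⟨y, hy⟩ : ∃ y, y = (g : M →ₗ[k] M) - 1 := ⟨_, rfl⟩
  obtain ⟨y', hy'⟩ : ∃ y, y = ((g⁻¹ : LinearMap.GeneralLinearGroup k M) : M →ₗ[k] M) - 1 :=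
    ⟨_, rfl⟩
  obtain ⟨x, hx⟩ : ∃ y, y = (h : M →ₗ[k] M) - 1 := ⟨_, rfl⟩
  have e : ((g * h * g⁻¹ : LinearMap.GeneralLinearGroup k M) : M →ₗ[k] M) - 1
      = x + y * x + x * y' + (y * x) * y' := by
    have e1 : (g : M →ₗ[k] M) * ((g⁻¹ : LinearMap.GeneralLinearGroup k M) : M →ₗ[k] M) = 1 := by
      rw [← Units.val_mul, mul_inv_cancel, Units.val_one]
    have e2 : (g : M →ₗ[k] M) = 1 + y := by rw [hy]; abel
    have e3 : ((g⁻¹ : LinearMap.GeneralLinearGroup k M) : M →ₗ[k] M) = 1 + y' := by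
      rw [hy']; abel
    have e4 : (h : M →ₗ[k] M) = 1 + x := by rw [hx]; abel
    rw [Units.val_mul, Units.val_mul, e4]
    have e5 : (g : M →ₗ[k] M) * (1 + x) * ((g⁻¹ : LinearMap.GeneralLinearGroup k M) : M →ₗ[k] M)
        = (g : M →ₗ[k] M) * ((g⁻¹ : LinearMap.GeneralLinearGroup k M) : M →ₗ[k] M)
          + (g : M →ₗ[k] M) * x * ((g⁻¹ : LinearMap.GeneralLinearGroup k M) : M →ₗ[k] M) := by
      noncomm_ring
    rw [e5, e1, e2, e3]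
    noncomm_ring
  rw [e]
  rw [← hy] at hg
  rw [← hy'] at hg'
  rw [← hx] at hh
  have h1 := TT_mul_dd hg hh
  exact add_mem (add_mem (add_mem (dd_le_TT _ _ _ hh) h1) (dd_mul_TT hh hg')) (TT_mul_TT h1 hg')

theorem exists_normalizing {W : Set (Subgroup (LinearMap.GeneralLinearGroup k M))}
    (hcl : ∀ A ∈ W, ∀ B ∈ W, ∀ g ∈ A, conjBy B g ∈ W) (F₁ F₂ : Flag k M)
    (hex : ∃ A ∈ W, A ≤ F₁.stab ∧ ¬ A ≤ F₂.stab) :
    ∃ A ∈ W, A ≤ F₁.stab ∧ ¬ A ≤ F₂.stab ∧ ∀ g ∈ A, ∀ B ∈ W, B ≤ F₁.stab → B ≤ F₂.stab →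
      (conjBy B g ≤ F₁.stab ∧ conjBy B g ≤ F₂.stab) := by
  classical
  obtain ⟨P, hP⟩ : ∃ P : ℕ → Prop, P = fun j => ∃ A ∈ W, ¬ A ≤ F₂.stab ∧
    ∀ g ∈ A, (g : M →ₗ[k] M) - 1 ∈ TT F₁ F₂ j := ⟨_, rfl⟩
  have hP1 : P 1 := by
    obtain ⟨A, hA, h1, h2⟩ := hex
    rw [hP]
    exact ⟨A, hA, h2, fun g hg => fil_le_TT _ _ _ (Flag.sub_of_le_stab h1 hg)⟩
  have hPn : ∃ j, ¬ P (j + 1) := by
    obtain ⟨n, hn⟩ := F₁.top
    refine ⟨n, ?_⟩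
    rw [hP]
    rintro ⟨A, _, h2, h3⟩
    apply h2
    apply Flag.le_stab
    intro g hg
    have := h3 g hg
    unfold TT at this
    rw [Flag.fil_eq_bot hn (by omega), sup_bot_eq] at this
    exact this.2
  obtain ⟨j₀, hj₀⟩ : ∃ j₀, j₀ = Nat.find hPn := ⟨_, rfl⟩
  have h1 : ¬ P (j₀ + 1) := by rw [hj₀]; exact Nat.find_spec hPn
  cases j₀ with
  | zero => exact absurd hP1 h1
  | succ j =>
    have h2 : P (j + 1) := by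
      by_contra hcon
      have := Nat.find_min' hPn hcon
      omega
    rw [hP] at h2
    obtain ⟨A, hA, hA2, hA3⟩ := h2
    refine ⟨A, hA, Flag.le_stab (fun g hg => TT_le_fil F₁ F₂ (by omega) (hA3 g hg)), hA2, ?_⟩
    intro g hg B hB hB1 hB2
    have hmem : ∀ h' ∈ conjBy B g, (h' : M →ₗ[k] M) - 1 ∈ TT F₁ F₂ (j + 1 + 1) := by
      intro h' hh'
      rw [mem_conjBy] at hh'
      have e : h' = g * (g⁻¹ * h' * g) * g⁻¹ := by group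
      rw [e]
      exact conj_mem_TT (hA3 g hg) (hA3 _ (inv_mem hg))
        ⟨Flag.sub_of_le_stab hB1 hh', Flag.sub_of_le_stab hB2 hh'⟩
    constructor
    · exact Flag.le_stab (fun h' hh' => TT_le_fil F₁ F₂ (by omega) (hmem h' hh'))
    · by_contra hcon
      apply h1
      rw [hP]
      exact ⟨_, hcl A hA B hB g hg, hcon, hmem⟩

/-- span of the `g - 1` for `g` in a member of `Γ` -/
def spn (Γ : Set (Subgroup (LinearMap.GeneralLinearGroup k M))) : Submodule k (M →ₗ[k] M) :=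
  Submodule.span k {x | ∃ A ∈ Γ, ∃ g ∈ A, x = (g : M →ₗ[k] M) - 1}

theorem spn_mono {Γ Γ' : Set (Subgroup (LinearMap.GeneralLinearGroup k M))} (h : Γ ⊆ Γ') :
    spn Γ ≤ spn Γ' := by
  apply Submodule.span_mono
  rintro x ⟨A, hA, g, hg, rfl⟩
  exact ⟨A, h hA, g, hg, rfl⟩

theorem spn_le_fil {Γ : Set (Subgroup (LinearMap.GeneralLinearGroup k M))} {F : Flag k M}
    (h : ∀ A ∈ Γ, A ≤ F.stab) : spn Γ ≤ F.fil 1 := by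
  apply Submodule.span_le.mpr
  rintro x ⟨A, hA, g, hg, rfl⟩
  exact Flag.sub_of_le_stab (h A hA) hg

theorem spn_lt [FiniteDimensional k M]
    {Γ Γ' : Set (Subgroup (LinearMap.GeneralLinearGroup k M))} {F : Flag k M}
    (h : Γ ⊆ Γ') (hΓ : ∀ A ∈ Γ, A ≤ F.stab)
    {A : Subgroup (LinearMap.GeneralLinearGroup k M)} (hA : A ∈ Γ') (hAF : ¬ A ≤ F.stab) :
    Module.finrank k (spn Γ) < Module.finrank k (spn Γ') := by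
  apply Submodule.finrank_lt_finrank_of_lt
  refine lt_of_le_of_ne (spn_mono h) ?_
  intro heq
  apply hAF
  apply Flag.le_stab
  intro g hg
  apply spn_le_fil hΓ
  rw [heq]
  exact Submodule.subset_span ⟨A, hA, g, hg, rfl⟩

theorem flag_directed [FiniteDimensional k M]
    {W : Set (Subgroup (LinearMap.GeneralLinearGroup k M))}
    (hcl : ∀ A ∈ W, ∀ B ∈ W, ∀ g ∈ A, conjBy B g ∈ W)
    (hWW : ∀ A ∈ W, ∀ B ∈ W, IsUnipotentOn (A ⊔ B)) :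
    ∀ (t : ℕ) (F₁ F₂ : Flag k M),
      Module.finrank k (M →ₗ[k] M) ≤
        Module.finrank k (spn {A | A ∈ W ∧ A ≤ F₁.stab ∧ A ≤ F₂.stab}) + t →
      ∃ F₃ : Flag k M, ∀ A ∈ W, (A ≤ F₁.stab ∨ A ≤ F₂.stab) → A ≤ F₃.stab := by
  intro t
  induction t with
  | zero =>
    intro F₁ F₂ hle
    by_cases c1 : ∀ A ∈ W, A ≤ F₁.stab → A ≤ F₂.stab
    · exact ⟨F₂, fun A hA h => h.elim (c1 A hA) id⟩
    exfalso
    push Not at c1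
    obtain ⟨A, hA, hA1, hA2⟩ := c1
    have h1 := spn_lt (Γ := {A | A ∈ W ∧ A ≤ F₁.stab ∧ A ≤ F₂.stab})
      (Γ' := {A | A ∈ W ∧ A ≤ F₁.stab}) (F := F₂) (fun B hB => ⟨hB.1, hB.2.1⟩)
      (fun B hB => hB.2.2) (A := A) ⟨hA, hA1⟩ hA2
    have h2 := Submodule.finrank_le (spn {A | A ∈ W ∧ A ≤ F₁.stab})
    omega
  | succ t ih =>
    intro F₁ F₂ hle
    by_cases c1 : ∀ A ∈ W, A ≤ F₁.stab → A ≤ F₂.stab
    · exact ⟨F₂, fun A hA h => h.elim (c1 A hA) id⟩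
    by_cases c2 : ∀ A ∈ W, A ≤ F₂.stab → A ≤ F₁.stab
    · exact ⟨F₁, fun A hA h => h.elim id (c2 A hA)⟩
    push Not at c1 c2
    obtain ⟨A, hA, hA1, hA2, hAn⟩ := exists_normalizing hcl F₁ F₂ c1
    obtain ⟨A', hA', hA'2, hA'1, hAn'⟩ := exists_normalizing hcl F₂ F₁ c2
    obtain ⟨E, hE⟩ := exists_flag_of_unipotent (hWW A hA A' hA')
    obtain ⟨F₃, hF3, hF3A, hF3A'⟩ := exists_flag_extend
      (Γ := {A | A ∈ W ∧ A ≤ F₁.stab ∧ A ≤ F₂.stab}) (A := A) (A' := A') (F₁ := F₁) (E := E)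
      (fun B hB => hB.2.1) (le_sup_left.trans hE) (le_sup_right.trans hE)
      (fun g hg B hB => ⟨hcl A hA B hB.1 g hg, hAn g hg B hB.1 hB.2.1 hB.2.2⟩)
      (fun g hg B hB => ⟨hcl A' hA' B hB.1 g hg, (hAn' g hg B hB.1 hB.2.2 hB.2.1).symm⟩)
    have l1 := spn_lt (Γ := {A | A ∈ W ∧ A ≤ F₁.stab ∧ A ≤ F₂.stab})
      (Γ' := {A | A ∈ W ∧ A ≤ F₁.stab ∧ A ≤ F₃.stab}) (F := F₂)
      (fun B hB => ⟨hB.1, hB.2.1, hF3 B hB⟩) (fun B hB => hB.2.2) (A := A) ⟨hA, hA1, hF3A⟩ hA2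
    obtain ⟨F₄, hF4⟩ := ih F₁ F₃ (by omega)
    have l2 := spn_lt (Γ := {A | A ∈ W ∧ A ≤ F₁.stab ∧ A ≤ F₂.stab})
      (Γ' := {A | A ∈ W ∧ A ≤ F₄.stab ∧ A ≤ F₂.stab}) (F := F₁)
      (fun B hB => ⟨hB.1, hF4 B hB.1 (Or.inl hB.2.1), hB.2.2⟩) (fun B hB => hB.2.1) (A := A')
      ⟨hA', hF4 A' hA' (Or.inr hF3A'), hA'2⟩ hA'1
    obtain ⟨F₅, hF5⟩ := ih F₄ F₂ (by omega)
    refine ⟨F₅, fun B hB h => ?_⟩
    rcases h with h | h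
    · exact hF5 B hB (Or.inl (hF4 B hB (Or.inl h)))
    · exact hF5 B hB (Or.inr h)

theorem exists_common_flag [FiniteDimensional k M]
    {W : Set (Subgroup (LinearMap.GeneralLinearGroup k M))}
    (hcl : ∀ A ∈ W, ∀ B ∈ W, ∀ g ∈ A, conjBy B g ∈ W)
    (hWW : ∀ A ∈ W, ∀ B ∈ W, IsUnipotentOn (A ⊔ B)) :
    ∃ F : Flag k M, ∀ A ∈ W, A ≤ F.stab := by
  have hdir : ∀ F₁ F₂ : Flag k M,
      ∃ F₃ : Flag k M, ∀ A ∈ W, (A ≤ F₁.stab ∨ A ≤ F₂.stab) → A ≤ F₃.stab :=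
    fun F₁ F₂ => flag_directed hcl hWW (Module.finrank k (M →ₗ[k] M)) F₁ F₂ (by omega)
  -- a flag with maximal span
  obtain ⟨F₀, hF₀⟩ : ∃ F₀ : Flag k M, (⊥ : Subgroup (LinearMap.GeneralLinearGroup k M)) ≤ F₀.stab :=
    ⟨⟨fun i => if i = 0 then ⊥ else ⊤, by simp, by
      intro a b hab
      by_cases ha : a = 0
      · simp [ha]
      · have hb : b ≠ 0 := by omega
        simp [ha, hb], ⟨1, by simp⟩⟩, bot_le⟩
  have hwf := (measure (fun F : Flag k M => Module.finrank k (M →ₗ[k] M)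
    - Module.finrank k (spn {A | A ∈ W ∧ A ≤ F.stab}))).wf
  obtain ⟨F, -, hF⟩ := hwf.has_min Set.univ ⟨F₀, trivial⟩
  refine ⟨F, fun A hA => ?_⟩
  by_contra hcon
  obtain ⟨FA, hFA⟩ := exists_flag_of_unipotent (hWW A hA A hA)
  obtain ⟨F', hF'⟩ := hdir F FA
  have l1 := spn_lt (Γ := {A | A ∈ W ∧ A ≤ F.stab}) (Γ' := {A | A ∈ W ∧ A ≤ F'.stab}) (F := F)
    (fun B hB => ⟨hB.1, hF' B hB.1 (Or.inl hB.2)⟩) (fun B hB => hB.2) (A := A)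
    ⟨hA, hF' A hA (Or.inr (le_sup_left.trans hFA))⟩ hcon
  have l2 := Submodule.finrank_le (spn {A | A ∈ W ∧ A ≤ F'.stab})
  apply hF F' trivial
  show Module.finrank k (M →ₗ[k] M) - Module.finrank k (spn {A | A ∈ W ∧ A ≤ F'.stab})
    < Module.finrank k (M →ₗ[k] M) - Module.finrank k (spn {A | A ∈ W ∧ A ≤ F.stab})
  omega

end UniFlag3

end Cfsg.Agent.Lib.Helper85
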